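import Cfsg.Agent.Lib.O7.SpinB

/-!
A4L: four-groups of weight four, quaternion groups, eight-groups.  See `plans/O7B.md`.
-/

set_option autoImplicit false

namespace CfsgLib.O7

open CfsgLib.OrthE CfsgLib.OMax Module QuadraticMap Subgroup
open scoped MatrixGroups

variable {K G : Type*} [Field K] [Group G] {ρ : G →* G7 K}

/-- the joint eigenspace of two isometries -/
def J2 {V : Type*} [AddCommGroup V] [Module K V] {Q : QuadraticForm K V} (a b : O Q) (ε δ : K) :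
    Submodule K V := Module.End.eigenspace (en a) ε ⊓ Module.End.eigenspace (en b) δ

theorem mem_J2 {V : Type*} [AddCommGroup V] [Module K V] {Q : QuadraticForm K V} {a b : O Q}
    {ε δ : K} {v : V} : v ∈ J2 a b ε δ ↔ a.1 v = ε • v ∧ b.1 v = δ • v := by
  rw [J2, Submodule.mem_inf, Module.End.mem_eigenspace_iff, Module.End.mem_eigenspace_iff]; rfl

section gen

variable {V : Type*} [AddCommGroup V] [Module K V] {Q : QuadraticForm K V}

theorem a4l_eig {a : O Q} {ε : K} {v : V} : v ∈ Module.End.eigenspace (en a) ε ↔ a.1 v = ε • v :=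
  Module.End.mem_eigenspace_iff

theorem a4l_ker {a : O Q} {v : V} : v ∈ LinearMap.ker (en a - 1) ↔ a.1 v = v := by
  rw [LinearMap.mem_ker, LinearMap.sub_apply, sub_eq_zero]; rfl

theorem a4l_sq {a : O Q} (ha : a * a = 1) (v : V) : a.1 (a.1 v) = v := by
  rw [← O_mul_apply, ha, O_one_apply]

theorem a4l_cm {a b : O Q} (h : a * b = b * a) (v : V) : a.1 (b.1 v) = b.1 (a.1 v) := by
  rw [← O_mul_apply, h, O_mul_apply]

theorem a4l_two (h2 : (2 : K) ≠ 0) {x y : V} (h : (2 : K) • x = (2 : K) • y) : x = y :=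
  smul_right_injective V h2 h

theorem a4l_cj {a b s : O Q} (h : s * a * s⁻¹ = b) (v : V) : b.1 (s.1 v) = s.1 (a.1 v) := by
  rw [← h, O_mul_apply, O_mul_apply, O_inv_apply_apply]

theorem a4l_map {a b s : O Q} (c₁ : s * a * s⁻¹ = b) (c₂ : s * b * s⁻¹ = a * b) {ε δ ε' : K}
    (he : ε * ε = 1) (he' : ε' = ε * δ) {v : V} (hv : v ∈ J2 a b ε δ) : s.1 v ∈ J2 a b ε' ε := by
  obtain ⟨h1, h3⟩ := mem_J2.1 hv
  have h4 : b.1 (s.1 v) = ε • s.1 v := by rw [a4l_cj c₁, h1, map_smul]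
  have h5 := a4l_cj c₂ v
  rw [O_mul_apply, h4, h3, map_smul, map_smul] at h5
  refine mem_J2.2 ⟨?_, h4⟩
  rw [he', mul_smul, ← h5, smul_smul, he, one_smul]

theorem a4l_ns {W : Submodule K V} (hW : ND Q W) (h0 : W ≠ ⊥) : ∃ w ∈ W, Q w ≠ 0 := by
  by_contra! h
  refine h0 ((Submodule.eq_bot_iff W).2 fun x hx => nd_iff.1 hW x hx fun y hy => ?_)
  rw [polar, h _ (W.add_mem hx hy), h x hx, h y hy]; simp

variable [FiniteDimensional K V]

theorem a4l_split (h2 : (2 : K) ≠ 0) {b : O Q} (hb : b * b = 1) {W : Submodule K V}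
    (hW : ∀ w ∈ W, b.1 w ∈ W) : finrank K W = finrank K (W ⊓ Module.End.eigenspace (en b) 1 : Submodule K V) +
      finrank K (W ⊓ Module.End.eigenspace (en b) (-1) : Submodule K V) := by
  have h1 : (W ⊓ Module.End.eigenspace (en b) 1) ⊓ (W ⊓ Module.End.eigenspace (en b) (-1)) = ⊥ := by
    refine (Submodule.eq_bot_iff _).2 fun x hx => a4l_two h2 ?_
    have k1 := a4l_eig.1 hx.1.2
    have k2 := a4l_eig.1 hx.2.2
    linear_combination (norm := module) k2 - k1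
  have h3 : (W ⊓ Module.End.eigenspace (en b) 1) ⊔ (W ⊓ Module.End.eigenspace (en b) (-1)) = W := by
    refine le_antisymm (sup_le inf_le_left inf_le_left) fun x hx => Submodule.mem_sup.2
      ⟨(2 : K)⁻¹ • (x + b.1 x), ⟨W.smul_mem _ (W.add_mem hx (hW x hx)), a4l_eig.2 ?_⟩,
        (2 : K)⁻¹ • (x - b.1 x), ⟨W.smul_mem _ (W.sub_mem hx (hW x hx)), a4l_eig.2 ?_⟩, a4l_two h2 ?_⟩
    · rw [map_smul, map_add, a4l_sq hb]; module
    · rw [map_smul, map_sub, a4l_sq hb]; module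
    · rw [smul_add, smul_smul, smul_smul, mul_inv_cancel₀ h2]; module
  rw [← Submodule.finrank_sup_add_finrank_inf_eq, h1, h3, finrank_bot, add_zero]

theorem a4l_rk (h2 : (2 : K) ≠ 0) {a : O Q} (ha : a * a = 1) :
    rk a = finrank K (Module.End.eigenspace (en a) (-1)) := by
  have h1 := a4l_split h2 ha (W := ⊤) fun _ _ => trivial
  have h3 := rk_add_fx a
  have h4 : LinearMap.ker (en a - 1) = Module.End.eigenspace (en a) 1 := Submodule.ext fun v => by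
    rw [a4l_ker, a4l_eig, one_smul]
  rw [top_inf_eq, top_inf_eq, finrank_top] at h1
  rw [fx, h4] at h3
  omega

theorem a4l_four (h2 : (2 : K) ≠ 0) {a b : O Q} (ha : a * a = 1) (hb : b * b = 1) (hc : a * b = b * a)
    {W : Submodule K V} (hW : ∀ w ∈ W, a.1 w ∈ W) (hW' : ∀ w ∈ W, b.1 w ∈ W) :
    finrank K W = finrank K (W ⊓ J2 a b 1 1 : Submodule K V) + finrank K (W ⊓ J2 a b 1 (-1) : Submodule K V) +
      (finrank K (W ⊓ J2 a b (-1) 1 : Submodule K V) + finrank K (W ⊓ J2 a b (-1) (-1) : Submodule K V)) := by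
  have k : ∀ ε : K, ∀ w ∈ W ⊓ Module.End.eigenspace (en a) ε, b.1 w ∈ W ⊓ Module.End.eigenspace (en a) ε :=
    fun ε w hw => ⟨hW' w hw.1, a4l_eig.2 (by rw [a4l_cm hc, a4l_eig.1 hw.2, map_smul])⟩
  rw [a4l_split h2 ha hW, a4l_split h2 hb (k 1), a4l_split h2 hb (k (-1))]
  rw [inf_assoc, inf_assoc, inf_assoc, inf_assoc]
  rfl

theorem a4l_dims (h2 : (2 : K) ≠ 0) {a b : O Q} (ha : a * a = 1) (hb : b * b = 1) (hc : a * b = b * a) :
    finrank K V = finrank K (J2 a b 1 1) + finrank K (J2 a b 1 (-1)) +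
      (finrank K (J2 a b (-1) 1) + finrank K (J2 a b (-1) (-1))) ∧
    rk a = finrank K (J2 a b (-1) 1) + finrank K (J2 a b (-1) (-1)) ∧
    rk b = finrank K (J2 a b 1 (-1)) + finrank K (J2 a b (-1) (-1)) ∧
    rk (a * b) = finrank K (J2 a b 1 (-1)) + finrank K (J2 a b (-1) 1) := by
  have hab : a * b * (a * b) = 1 := by rw [mul_assoc, ← mul_assoc b, ← hc, mul_assoc a, hb, mul_one, ha]
  refine ⟨?_, ?_, ?_, ?_⟩
  · have := a4l_four h2 ha hb hc (W := ⊤) (fun _ _ => trivial) fun _ _ => trivial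
    rwa [top_inf_eq, top_inf_eq, top_inf_eq, top_inf_eq, finrank_top] at this
  · rw [a4l_rk h2 ha, a4l_split h2 hb fun w hw => a4l_eig.2 (by rw [a4l_cm hc, a4l_eig.1 hw, map_smul])]
    rfl
  · rw [a4l_rk h2 hb, a4l_split h2 ha fun w hw => a4l_eig.2 (by rw [← a4l_cm hc, a4l_eig.1 hw, map_smul]),
      inf_comm _ (Module.End.eigenspace (en a) 1), inf_comm _ (Module.End.eigenspace (en a) (-1))]
    rfl
  · have k : ∀ ε δ : K, ε * ε = 1 → ε * δ = -1 →
        Module.End.eigenspace (en (a * b)) (-1) ⊓ Module.End.eigenspace (en a) ε = J2 a b ε δ :=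
      fun ε δ h1 h3 => Submodule.ext fun v => by
        rw [Submodule.mem_inf, a4l_eig, a4l_eig, mem_J2, O_mul_apply, a4l_cm hc, and_comm]
        refine and_congr_right fun k1 => ?_
        rw [k1, map_smul]
        refine ⟨fun k2 => ?_, fun k2 => by rw [k2, smul_smul, h3]⟩
        rw [← one_smul K (b.1 v), ← h1, mul_smul, k2, smul_smul, ← h3, ← mul_assoc, h1, one_mul]
    rw [a4l_rk h2 hab, a4l_split h2 ha fun w hw => a4l_eig.2 (by
      rw [a4l_cm (a := a * b) (by rw [mul_assoc, ← hc]), a4l_eig.1 hw, map_smul]),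
      k 1 (-1) (by ring) (by ring), k (-1) 1 (by ring) (by ring)]

theorem a4l_le (s : O Q) {A B : Submodule K V} (h : ∀ v ∈ A, s.1 v ∈ B) : finrank K A ≤ finrank K B := by
  rw [← s.1.finrank_map_eq A]
  exact Submodule.finrank_mono (Submodule.map_le_iff_le_comap.2 h)

theorem a4l_cyc {a b s : O Q} (c₁ : s * a * s⁻¹ = b) (c₂ : s * b * s⁻¹ = a * b) {W : Submodule K V}
    (hW : ∀ w ∈ W, s.1 w ∈ W) :
    finrank K (W ⊓ J2 a b (-1) 1 : Submodule K V) = finrank K (W ⊓ J2 a b 1 (-1) : Submodule K V) ∧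
    finrank K (W ⊓ J2 a b (-1) (-1) : Submodule K V) = finrank K (W ⊓ J2 a b 1 (-1) : Submodule K V) := by
  have k : ∀ ε δ ε' : K, ε * ε = 1 → ε' = ε * δ → finrank K (W ⊓ J2 a b ε δ : Submodule K V) ≤
      finrank K (W ⊓ J2 a b ε' ε : Submodule K V) := fun ε δ ε' h1 h3 =>
    a4l_le s fun v hv => ⟨hW v hv.1, a4l_map c₁ c₂ h1 h3 hv.2⟩
  have k1 := k 1 (-1) (-1) (by ring) (by ring)
  have k2 := k (-1) 1 (-1) (by ring) (by ring)
  have k3 := k (-1) (-1) 1 (by ring) (by ring)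
  omega

theorem a4l_fx (h2 : (2 : K) ≠ 0) {a b s : O Q} (ha : a * a = 1) (hb : b * b = 1) (hc : a * b = b * a)
    (c₁ : s * a * s⁻¹ = b) (c₂ : s * b * s⁻¹ = a * b) (h3 : s ^ 3 = 1) :
    fx s = finrank K (J2 a b 1 (-1)) + finrank K (LinearMap.ker (en s - 1) ⊓ J2 a b 1 1 : Submodule K V) := by
  let T : V →ₗ[K] V := (1 - en b) * (1 + en a)
  have hT : ∀ v, T v = v + a.1 v - (b.1 v + a.1 (b.1 v)) := fun v => by
    rw [a4l_cm hc, ← map_add]; rfl
  have h1 : LinearMap.range (T.domRestrict (LinearMap.ker (en s - 1))) = J2 a b 1 (-1) := by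
    refine le_antisymm ?_ fun w hw => ?_
    · rintro _ ⟨v, rfl⟩
      rw [LinearMap.domRestrict_apply, hT, mem_J2]
      simp only [map_add, map_sub, a4l_sq ha, ← a4l_cm hc, a4l_sq hb]
      exact ⟨by module, by module⟩
    · have w1 := a4l_map c₁ c₂ (ε' := -1) (by ring) (by ring) hw
      have w2 := a4l_map c₁ c₂ (ε' := -1) (by ring) (by ring) w1
      have w3 : s.1 (s.1 (s.1 w)) = w := by
        rw [← O_mul_apply, ← O_mul_apply, ← pow_three', h3, O_one_apply]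
      rw [mem_J2] at hw w1 w2
      refine ⟨⟨((2 : K)⁻¹ * (2 : K)⁻¹) • (w + s.1 w + s.1 (s.1 w)), a4l_ker.2 ?_⟩, a4l_two h2 (a4l_two h2 ?_)⟩
      · rw [map_smul, map_add, map_add, w3]; module
      · rw [LinearMap.domRestrict_apply, map_smul, smul_smul, smul_smul, hT,
          show (2 : K) * 2 * (2⁻¹ * 2⁻¹) = 1 by field_simp]
        simp only [map_add, map_smul, hw.1, hw.2, w1.1, w1.2, w2.1, w2.2]
        module
  have h4 : (LinearMap.ker (T.domRestrict (LinearMap.ker (en s - 1)))).map (Submodule.subtype _) =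
      LinearMap.ker (en s - 1) ⊓ J2 a b 1 1 := by
    refine le_antisymm ?_ fun v hv => ⟨⟨v, hv.1⟩, ?_, rfl⟩
    · rintro _ ⟨⟨v, hv⟩, k, rfl⟩
      have k0 := a4l_ker.1 hv
      have k1 : v + a.1 v - (b.1 v + a.1 (b.1 v)) = 0 := (hT v).symm.trans k
      have e1 : s.1 (a.1 v) = b.1 v := by rw [← a4l_cj c₁, k0]
      have e2 : s.1 (b.1 v) = a.1 (b.1 v) := by rw [← a4l_cj c₂, k0, O_mul_apply]
      have e3 : s.1 (a.1 (b.1 v)) = a.1 v := by rw [← a4l_cj c₁, e2, ← a4l_cm hc, a4l_sq hb]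
      have k2 := congrArg s.1 k1
      have k3 := congrArg s.1 k2
      simp only [map_add, map_sub, map_zero, k0, e1, e2, e3] at k2 k3
      refine ⟨hv, mem_J2.2 ⟨a4l_two h2 ?_, a4l_two h2 ?_⟩⟩
      · show _ • a.1 v = _ • _ • v
        linear_combination (norm := module) -k2 - k3
      · show _ • b.1 v = _ • _ • v
        linear_combination (norm := module) -k1 - k3
    · have k := mem_J2.1 hv.2
      show T v = 0
      rw [hT, k.2, map_smul, k.1]; module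
  rw [← h1, ← h4, Submodule.finrank_map_subtype_eq, LinearMap.finrank_range_add_finrank_ker, fx]

theorem a4l_line {W : Submodule K V} (hW : ND Q W) (h1 : finrank K W = 1) {s : O Q} (hs : ∀ w ∈ W, s.1 w ∈ W)
    (h3 : s ^ 3 = 1) : ∀ v ∈ W, s.1 v = v := by
  obtain ⟨w, hw, k⟩ := a4l_ns hW (Submodule.one_le_finrank_iff.1 h1.ge)
  have w0 : w ≠ 0 := fun e => k (by rw [e, Q.map_zero])
  have k1 := (finrank_eq_one_iff_of_nonzero' (⟨w, hw⟩ : W) fun e => w0 (congrArg Subtype.val e)).1 h1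
  obtain ⟨c, hc⟩ := k1 ⟨_, hs w hw⟩
  have k2 : s.1 w = c • w := (congrArg Subtype.val hc).symm
  have k3 : c * c = 1 := mul_right_cancel₀ k (by rw [← Q_smul, ← k2, O_map, one_mul])
  have k4 : s.1 (s.1 (s.1 w)) = w := by rw [← O_mul_apply, ← O_mul_apply, ← pow_three', h3, O_one_apply]
  rw [k2, map_smul, map_smul, k2, map_smul, smul_smul, k3, one_smul] at k4
  intro v hv
  obtain ⟨d, hd⟩ := k1 ⟨v, hv⟩
  rw [← (show d • w = v from congrArg Subtype.val hd), map_smul, k4]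

end gen

theorem A4.sq2 {z₁ z₂ σ : G} (a : A4 z₁ z₂ σ) : z₂ * z₂ = 1 := by
  rw [← a.c₁, conj_mul, a.sq, mul_one, mul_inv_cancel]

theorem nd_J2 {V : Type*} [AddCommGroup V] [Module K V] [FiniteDimensional K V]
    {Q : QuadraticForm K V} (h2 : (2 : K) ≠ 0) (hQ : Nondeg Q) {a b : O Q} (ha : a * a = 1)
    (hb : b * b = 1) (hc : a * b = b * a) {ε δ : K} (hε : ε = 1 ∨ ε = -1) (hδ : δ = 1 ∨ δ = -1) :
    ND Q (J2 a b ε δ) := by
  have e1 : ε * ε = 1 := by rcases hε with rfl | rfl <;> ring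
  have e2 : δ * δ = 1 := by rcases hδ with rfl | rfl <;> ring
  refine nd_iff.2 fun v hv h => hQ v fun x => ?_
  obtain ⟨k1, k2⟩ := mem_J2.1 hv
  have p : ∀ (g : O Q) (c : K), g * g = 1 → g.1 v = c • v → ∀ y, polar Q v (g.1 y) = c * polar Q v y :=
    fun g c hg k y => by rw [← O_polar g, a4l_sq hg, k, polar_smul_left, smul_eq_mul]
  have := h (x + ε • a.1 x + δ • b.1 x + (ε * δ) • a.1 (b.1 x)) (mem_J2.2 ⟨by
      simp only [map_add, map_smul, a4l_sq ha]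
      linear_combination (norm := module) -e1 • a.1 x - (δ * e1) • a.1 (b.1 x), by
      simp only [map_add, map_smul, ← a4l_cm hc, a4l_sq hb]
      linear_combination (norm := module) -e2 • b.1 x - (ε * e2) • a.1 (b.1 x)⟩)
  simp only [polar_add_right, polar_smul_right, smul_eq_mul, p a ε ha k1, p b δ hb k2] at this
  refine mul_left_cancel₀ (mul_ne_zero h2 h2) ?_
  linear_combination this - (1 + δ * δ) * polar Q v x * e1 - 2 * polar Q v x * e2

/-- the common part of `a4V` and `a4O` -/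
theorem a4l_gen {V : Type*} [AddCommGroup V] [Module K V] [FiniteDimensional K V] {Q : QuadraticForm K V}
    (h2 : (2 : K) ≠ 0) (τ : G →* O Q) {z₁ z₂ σ : G} (a : A4 z₁ z₂ σ) (h4 : rk (τ z₁) = 4) :
    finrank K V = finrank K (J2 (τ z₁) (τ z₂) 1 1) + 6 ∧ finrank K (J2 (τ z₁) (τ z₂) 1 (-1)) = 2 ∧
      finrank K (J2 (τ z₁) (τ z₂) (-1) 1) = 2 ∧ finrank K (J2 (τ z₁) (τ z₂) (-1) (-1)) = 2 ∧
      fx (τ σ) = 2 + finrank K (LinearMap.ker (en (τ σ) - 1) ⊓ J2 (τ z₁) (τ z₂) 1 1 : Submodule K V) ∧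
      (∀ ε δ : K, ε = 1 ∨ ε = -1 → δ = 1 ∨ δ = -1 → Nondeg Q → ND Q (J2 (τ z₁) (τ z₂) ε δ)) ∧
      (∀ v ∈ J2 (τ z₁) (τ z₂) 1 1, (τ σ).1 v ∈ J2 (τ z₁) (τ z₂) 1 1) ∧ τ σ ^ 3 = 1 := by
  have ha : τ z₁ * τ z₁ = 1 := by rw [← map_mul, a.sq, map_one]
  have hb : τ z₂ * τ z₂ = 1 := by rw [← map_mul, a.sq2, map_one]
  have hc : τ z₁ * τ z₂ = τ z₂ * τ z₁ := by rw [← map_mul, a.comm, map_mul]
  have c₁ : τ σ * τ z₁ * (τ σ)⁻¹ = τ z₂ := by rw [← map_inv, ← map_mul, ← map_mul, a.c₁]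
  have c₂ : τ σ * τ z₂ * (τ σ)⁻¹ = τ z₁ * τ z₂ := by rw [← map_inv, ← map_mul, ← map_mul, a.c₂, map_mul]
  have h3 : τ σ ^ 3 = 1 := by rw [← map_pow, a.cube, map_one]
  obtain ⟨d1, d2, -, -⟩ := a4l_dims h2 ha hb hc
  have d3 := a4l_cyc c₁ c₂ (W := ⊤) fun _ _ => trivial
  rw [top_inf_eq, top_inf_eq, top_inf_eq] at d3
  have d4 := a4l_fx h2 ha hb hc c₁ c₂ h3
  exact ⟨by omega, by omega, by omega, by omega, by omega, fun ε δ k1 k2 hQ => nd_J2 h2 hQ ha hb hc k1 k2,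
    fun v hv => a4l_map c₁ c₂ (by ring) (by ring) hv, h3⟩

theorem Hy.a4V (h : Hy ρ) {z₁ z₂ σ : G} (a : A4 z₁ z₂ σ) (h4 : rk (ρ z₁) = 4) :
    rk (ρ σ) = 4 ∧ finrank K (J2 (ρ z₁) (ρ z₂) 1 1) = 1 ∧
      (∀ v ∈ J2 (ρ z₁) (ρ z₂) 1 1, (ρ σ).1 v = v) ∧ finrank K (J2 (ρ z₁) (ρ z₂) 1 (-1)) = 2 ∧
      finrank K (J2 (ρ z₁) (ρ z₂) (-1) 1) = 2 ∧ finrank K (J2 (ρ z₁) (ρ z₂) (-1) (-1)) = 2 := by
  obtain ⟨d0, d1, d2, d3, d4, nd, hs, h3⟩ := a4l_gen h.two ρ a h4
  have k := rk_add_fx (ρ σ)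
  rw [finrank_V7] at d0 k
  have k1 : finrank K (J2 (ρ z₁) (ρ z₂) 1 1) = 1 := by omega
  have k2 := a4l_line (nd 1 1 (.inl rfl) (.inl rfl) (nondeg_Q7 h.two)) k1 hs h3
  rw [inf_eq_right.2 fun v hv => a4l_ker.2 (k2 v hv)] at d4
  exact ⟨by omega, k1, k2, d1, d2, d3⟩

theorem Hy.a4O [IsAlgClosed K] (h : Hy ρ) {ψ : G →* G8 K} (hψ : Spl ρ ψ) {z₁ z₂ σ : G}
    (a : A4 z₁ z₂ σ) : rk (ρ z₁) = 4 ∧ finrank K (J2 (ψ z₁) (ψ z₂) 1 1) = 2 ∧
      (∀ y ∈ J2 (ψ z₁) (ψ z₂) 1 1, (ψ σ).1 y = y) ∧ finrank K (J2 (ψ z₁) (ψ z₂) 1 (-1)) = 2 ∧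
      finrank K (J2 (ψ z₁) (ψ z₂) (-1) 1) = 2 ∧ finrank K (J2 (ψ z₁) (ψ z₂) (-1) (-1)) = 2 := by
  have ha : ρ z₁ * ρ z₁ = 1 := by rw [← map_mul, a.sq, map_one]
  have h4 : rk (ρ z₁) = 4 := (h.wt a.ne a.sq).resolve_left fun k => by
    have k1 := Lf.inv2 h.two ha k (hψ z₁)
    rw [← map_mul, a.sq, map_one] at k1
    have k2 : (1 : K) = -1 := congrFun (congrArg (fun g : G8 K => g.1 (e8 K)) k1) 0
    exact h.two (by linear_combination k2)
  have k := rk_add_fx (ψ z₁)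
  rw [(Lf.inv4 h.two ha h4 (hψ z₁)).2, finrank_Oc] at k
  obtain ⟨d0, d1, d2, d3, d4, nd, hs, h3⟩ := a4l_gen h.two ψ a (by omega)
  rw [finrank_Oc] at d0
  have k1 : finrank K (J2 (ψ z₁) (ψ z₂) 1 1) = 2 := by omega
  have k2 := Lf.cube h.two (hψ σ) h3 (.inl (h.a4V a h4).1)
  obtain ⟨y, hy, y0⟩ := (Submodule.ne_bot_iff _).1 (Submodule.one_le_finrank_iff.1
    (show 1 ≤ finrank K (LinearMap.ker (en (ψ σ) - 1) ⊓ J2 (ψ z₁) (ψ z₂) 1 1 : Submodule K _) by omega))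
  exact ⟨h4, k1, plane_triv h.two (nd 1 1 (.inl rfl) (.inl rfl) nondeg_N8) k1 hs (n := 3) (by decide)
    (fun w _ => by rw [h3, O_one_apply]) hy.2 y0 (a4l_ker.1 hy.1), d1, d2, d3⟩

theorem Hy.a4X [IsAlgClosed K] (h : Hy ρ) {z₁ z₂ σ x : G} (a : A4 z₁ z₂ σ) (h4 : rk (ρ z₁) = 4)
    (h1 : x * z₁ = z₁ * x) (h2 : x * σ = σ * x) (hx : IsConj σ x) : False := by
  obtain ⟨-, d1, -, -, -, nd, -, -⟩ := a4l_gen h.two ρ a h4
  obtain ⟨r4, d0, -⟩ := h.a4V a h4
  have k := rk_add_fx (ρ x)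
  rw [← rk_isConj hx, r4, finrank_V7, fx] at k
  have h3 : x * z₂ = z₂ * x := by
    rw [← a.c₁]; exact (((show Commute x σ from h2).mul_right h1).mul_right (show Commute x σ from h2).inv_right).eq
  have cm : ∀ g, x * g = g * x → ∀ v, (ρ x).1 ((ρ g).1 v) = (ρ g).1 ((ρ x).1 v) := fun g hg =>
    a4l_cm (by rw [← map_mul, hg, map_mul])
  have iv : ∀ g, x * g = g * x → ∀ w ∈ LinearMap.ker (en (ρ x) - 1), (ρ g).1 w ∈ LinearMap.ker (en (ρ x) - 1) :=
    fun g hg w hw => a4l_ker.2 (by rw [cm g hg, a4l_ker.1 hw])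
  have x3 : ρ x ^ 3 = 1 := by
    obtain ⟨c, rfl⟩ := isConj_iff.1 hx
    rw [← map_pow, conj_pow, a.cube, mul_one, mul_inv_cancel, map_one]
  have k1 := a4l_four h.two (a := ρ z₁) (b := ρ z₂) (by rw [← map_mul, a.sq, map_one])
    (by rw [← map_mul, a.sq2, map_one]) (by rw [← map_mul, a.comm, map_mul]) (iv _ h1) (iv _ h3)
  have k2 := a4l_cyc (a := ρ z₁) (b := ρ z₂) (s := ρ σ) (by rw [← map_inv, ← map_mul, ← map_mul, a.c₁])
    (by rw [← map_inv, ← map_mul, ← map_mul, a.c₂, map_mul]) (iv _ h2)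
  have k3 := Submodule.finrank_mono (inf_le_right : LinearMap.ker (en (ρ x) - 1) ⊓ J2 (ρ z₁) (ρ z₂) 1 1 ≤ _)
  obtain ⟨y, hy, y0⟩ := (Submodule.ne_bot_iff _).1 (Submodule.one_le_finrank_iff.1
    (show 1 ≤ finrank K (LinearMap.ker (en (ρ x) - 1) ⊓ J2 (ρ z₁) (ρ z₂) 1 (-1) : Submodule K _) by omega))
  have k4 := plane_triv h.two (nd 1 (-1) (.inl rfl) (.inr rfl) (nondeg_Q7 h.two)) d1 (g := ρ x) (fun w hw => by
    rw [mem_J2] at hw ⊢
    rw [← cm _ h1, ← cm _ h3, hw.1, hw.2, map_smul, map_smul]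
    exact ⟨rfl, rfl⟩) (n := 3) (by decide) (fun w _ => by rw [x3, O_one_apply]) hy.2 y0 (a4l_ker.1 hy.1)
  rw [inf_eq_right.2 (show J2 (ρ z₁) (ρ z₂) 1 (-1) ≤ _ from fun v hv => a4l_ker.2 (k4 v hv))] at k1 k2
  omega

/-- a quaternion group acting with centre `-1` on a non-degenerate subspace -/
theorem q8_dim {V : Type*} [AddCommGroup V] [Module K V] [FiniteDimensional K V]
    {Q : QuadraticForm K V} (h2 : (2 : K) ≠ 0) {W : Submodule K V} (hW : ND Q W) (h0 : W ≠ ⊥)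
    {a b : O Q} (ha : ∀ w ∈ W, a.1 w ∈ W) (hb : ∀ w ∈ W, b.1 w ∈ W)
    (h1 : ∀ w ∈ W, a.1 (a.1 w) = -w) (h3 : ∀ w ∈ W, b.1 (b.1 w) = -w)
    (h4 : ∀ w ∈ W, a.1 (b.1 w) = -b.1 (a.1 w)) : 4 ≤ finrank K W := by
  obtain ⟨w, hw, k⟩ := a4l_ns hW h0
  have sk : ∀ g : O Q, ∀ y, g.1 (g.1 y) = -y → polar Q y (g.1 y) = 0 := fun g y hy => mul_left_cancel₀ h2 (by
    have := O_polar g y (g.1 y)
    rw [hy, polar_neg_right, polar_comm] at this
    linear_combination -this)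
  have p1 := sk a w (h1 w hw)
  have p2 := sk b w (h3 w hw)
  have p3 : polar Q w (a.1 (b.1 w)) = 0 := sk (a * b) w (by
    rw [O_mul_apply, O_mul_apply, ← neg_neg (b.1 (a.1 (b.1 w))), ← h4 _ (hb w hw), h3 w hw, map_neg, map_neg,
      map_neg, neg_neg, h1 w hw])
  have p4 : polar Q (a.1 w) (b.1 w) = 0 := by rw [← O_polar a, h1 w hw, polar_neg_left, p3, neg_zero]
  have p5 : polar Q (a.1 w) (a.1 (b.1 w)) = 0 := by rw [O_polar, p2]
  have p6 := sk a (b.1 w) (h1 _ (hb w hw))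
  have p0 : polar Q w w ≠ 0 := by rw [polar_self']; exact mul_ne_zero h2 k
  have li : LinearIndependent K ![w, a.1 w, b.1 w, a.1 (b.1 w)] := by
    refine LinearMap.linearIndependent_of_isOrthoᵢ (B := polarBilin Q) (fun i j hij => ?_) fun i => ?_
    · fin_cases i <;> fin_cases j <;> first
        | exact absurd rfl hij
        | assumption
        | exact pc ‹_›
    · fin_cases i <;> simpa [O_map] using p0
  have := finrank_span_eq_card li
  rw [Fintype.card_fin] at this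
  refine this.ge.trans (Submodule.finrank_mono (Submodule.span_le.2 ?_))
  rintro _ ⟨i, rfl⟩
  fin_cases i
  exacts [hw, ha w hw, hb w hw, ha _ (hb w hw)]

theorem a4l_q8 {V : Type*} [AddCommGroup V] [Module K V] [FiniteDimensional K V] {Q : QuadraticForm K V}
    (h2 : (2 : K) ≠ 0) (hQ : Nondeg Q) (τ : G →* O Q) {a b z w : G} (ha : a * a = z) (hb : b * b = z)
    (hz : z * z = 1) (hab : a * b = z * (b * a)) (hw : w * w = 1) (k1 : Commute a w) (k2 : Commute b w)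
    (h0 : J2 (τ z) (τ w) (-1) (-1) ≠ ⊥) : 4 ≤ finrank K (J2 (τ z) (τ w) (-1) (-1)) := by
  have iv : ∀ g, Commute g z → Commute g w → ∀ v ∈ J2 (τ z) (τ w) (-1) (-1),
      (τ g).1 v ∈ J2 (τ z) (τ w) (-1) (-1) := fun g c1 c2 v hv => by
    rw [mem_J2] at hv ⊢
    rw [← a4l_cm (c1.map τ).eq, ← a4l_cm (c2.map τ).eq, hv.1, hv.2, map_smul]
    exact ⟨rfl, rfl⟩
  have i1 := iv a (ha ▸ (Commute.refl a).mul_right (Commute.refl a)) k1
  have i2 := iv b (hb ▸ (Commute.refl b).mul_right (Commute.refl b)) k2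
  refine q8_dim h2 (nd_J2 h2 hQ (by rw [← map_mul, hz, map_one]) (by rw [← map_mul, hw, map_one])
    ((ha ▸ k1.mul_left k1 : Commute z w).map τ).eq (.inr rfl) (.inr rfl)) h0 i1 i2 (fun v hv => ?_)
    (fun v hv => ?_) fun v hv => ?_
  · rw [← O_mul_apply, ← map_mul, ha, (mem_J2.1 hv).1, neg_one_smul]
  · rw [← O_mul_apply, ← map_mul, hb, (mem_J2.1 hv).1, neg_one_smul]
  · rw [← O_mul_apply, ← map_mul, hab, map_mul, map_mul, O_mul_apply, O_mul_apply,
      (mem_J2.1 (i2 _ (i1 v hv))).1, neg_one_smul]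

/-- the centre of a quaternion group has weight four -/
theorem Hy.q8 (h : Hy ρ) {a b z : G} (h1 : z ≠ 1) (ha : a * a = z) (hb : b * b = z)
    (hz : z * z = 1) (hab : a * b = z * (b * a)) : rk (ρ z) = 4 := by
  have k := a4l_q8 h.two (nondeg_Q7 h.two) ρ ha hb hz hab hz (ha ▸ (Commute.refl a).mul_right (Commute.refl a))
    (hb ▸ (Commute.refl b).mul_right (Commute.refl b))
  rw [J2, inf_idem, ← Submodule.one_le_finrank_iff, ← a4l_rk h.two (by rw [← map_mul, hz, map_one])] at k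
  have := h.wt h1 hz
  omega

/-- two commuting quaternion groups have the same centre -/
theorem Hy.q8q8 (h : Hy ρ) {a b z c d w : G} (h1 : z ≠ 1) (ha : a * a = z) (hb : b * b = z)
    (hz : z * z = 1) (hab : a * b = z * (b * a)) (h1' : w ≠ 1) (hc : c * c = w) (hd : d * d = w)
    (hw : w * w = 1) (hcd : c * d = w * (d * c)) (k1 : a * c = c * a) (k2 : a * d = d * a)
    (k3 : b * c = c * b) (k4 : b * d = d * b) : z = w := by
  have r1 := h.q8 h1 ha hb hz hab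
  have r2 := h.q8 h1' hc hd hw hcd
  have c1 : Commute a w := hc ▸ (show Commute a c from k1).mul_right k1
  have c2 : Commute b w := hc ▸ (show Commute b c from k3).mul_right k3
  have k := a4l_q8 h.two (nondeg_Q7 h.two) ρ ha hb hz hab hw c1 c2
  obtain ⟨d0, d1, d2, d3⟩ := a4l_dims h.two (a := ρ z) (b := ρ w) (by rw [← map_mul, hz, map_one])
    (by rw [← map_mul, hw, map_one]) ((ha ▸ c1.mul_left c1 : Commute z w).map ρ).eq
  rw [finrank_V7] at d0
  rw [← Submodule.one_le_finrank_iff] at k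
  have e := rk_eq_zero (g := ρ z * ρ w) (by omega)
  rw [← map_mul, ← map_one ρ] at e
  exact mul_right_cancel ((h.inj e).trans hw.symm)

theorem a4l_sgn {V : Type*} [AddCommGroup V] {x : V} (h : x ≠ -x) {p q r : Bool}
    (e : (if q = true then -(if p = true then -x else x) else if p = true then -x else x) =
      if r = true then -x else x) :
    (if r = true then -1 else 1 : ℤ) = (if p = true then -1 else 1) * if q = true then -1 else 1 := by
  have h' := h.symm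
  cases p <;> cases q <;> cases r <;> simp_all

/-- the seven characters of an elementary abelian 2-group -/
theorem Hy.a4l_ch (h : Hy ρ) {E : Subgroup G} [Finite E] (h2 : ∀ a ∈ E, a * a = 1) :
    ∃ (b : Basis (Fin 7) K (V7 K)) (χ : Fin 7 → E →* ℤ), (∀ i, Q7 K (b i) ≠ 0) ∧
      (∀ (a : E) i, (ρ a).1 (b i) = (χ i a : K) • b i) ∧ (∀ i a, χ i a = 1 ∨ χ i a = -1) ∧
      ∀ a : E, ∑ i, χ i a = 7 - 2 * (rk (ρ a) : ℤ) := by
  have cm : ∀ a ∈ E, ∀ b ∈ E, a * b = b * a := fun a ha b hb => by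
    have k := h2 _ (mul_mem ha hb)
    rw [← mul_one (b * a), ← k, ← mul_assoc, mul_assoc b a, ← mul_assoc a a, h2 a ha, one_mul, h2 b hb, one_mul]
  obtain ⟨b, d, k1, -, k2, k3⟩ := exists_diag2 h.two (nondeg_Q7 h.two) (fun a : E => ρ a)
    (fun a b => by rw [← map_mul, cm _ a.2 _ b.2, map_mul]) (fun a => by rw [← map_mul, h2 _ a.2, map_one]) finrank_V7
  have ne : ∀ i, b i ≠ -b i := fun i e => b.ne_zero i (a4l_two h.two (by linear_combination (norm := module) e))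
  refine ⟨b, fun i => ⟨⟨fun a => if d a i then -1 else 1, ?_⟩, fun x y => ?_⟩, k1, fun a i => ?_, fun i a => ?_,
    fun a => ?_⟩
  · have := k2 1 i
    rw [OneMemClass.coe_one, map_one, O_one_apply] at this
    exact if_neg fun e => ne i (by rwa [if_pos e] at this)
  · have := k2 (x * y) i
    rw [Subgroup.coe_mul, map_mul, O_mul_apply, k2, apply_ite (ρ x).1, map_neg, k2] at this
    exact a4l_sgn (ne i) this
  · rw [k2]; cases e : d a i <;> simp [e]
  · cases e : d a i <;> simp [e]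
  · rw [k3, Finset.card_filter]
    push_cast
    rw [Finset.mul_sum, show (7 : ℤ) = ∑ _i : Fin 7, 1 by simp, ← Finset.sum_sub_distrib]
    refine Finset.sum_congr rfl fun i _ => ?_
    cases e : d a i <;> simp [e]

theorem a4l_sum {E : Type*} [Group E] [Fintype E] (χ : E →* ℤ) :
    ∑ a, χ a = 0 ∨ ∑ a, χ a = Fintype.card E := by
  by_cases h : χ = 1
  · right; simp [h]
  · exact .inl (sum_hom_units_eq_zero χ h)

theorem a4l_sum1 {E : Type*} [Group E] [Fintype E] (f g : E → ℤ) (h : ∀ a, a ≠ 1 → f a = g a) :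
    ∑ a, f a = ∑ a, g a + (f 1 - g 1) := by
  classical
  rw [← Finset.add_sum_erase _ f (Finset.mem_univ 1), ← Finset.add_sum_erase _ g (Finset.mem_univ 1),
    Finset.sum_congr rfl fun a ha => h a (Finset.ne_of_mem_erase ha)]
  ring

theorem a4l_rk1 {V : Type*} [AddCommGroup V] [Module K V] {Q : QuadraticForm K V} : rk (1 : O Q) = 0 := by
  rw [rk, en_one, sub_self, LinearMap.range_zero, finrank_bot]

theorem Hy.a4l_dvd (h : Hy ρ) {E : Subgroup G} [Finite E] (h2 : ∀ a ∈ E, a * a = 1) {a : G} (ha : a ∈ E)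
    (h1 : a ≠ 1) (hc : ∀ a ∈ E, ∀ b ∈ E, a ≠ 1 → b ≠ 1 → rk (ρ a) = rk (ρ b)) :
    (Nat.card E : ℤ) ∣ 2 * (rk (ρ a) : ℤ) := by
  obtain ⟨-, χ, -, -, -, k⟩ := h.a4l_ch h2
  have := Fintype.ofFinite E
  have k1 : (Fintype.card E : ℤ) ∣ ∑ x : E, ∑ i, χ i x := by
    rw [Finset.sum_comm]
    exact Finset.dvd_sum fun i _ => by rcases a4l_sum (χ i) with e | e <;> simp [e]
  rw [a4l_sum1 _ (fun _ => 7 - 2 * (rk (ρ a) : ℤ)) fun x hx => by
    rw [k, hc _ x.2 a ha (fun e => hx (Subtype.ext e)) h1], k, OneMemClass.coe_one, map_one, a4l_rk1,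
    Finset.sum_const, Finset.card_univ, nsmul_eq_mul, dvd_add_right (dvd_mul_right _ _)] at k1
  rw [Nat.card_eq_fintype_card]
  simpa using k1

/-- an eight-group of constant weight is self-centralising with seven eigenlines -/
theorem Hy.e8 (h : Hy ρ) {E : Subgroup G} (h8 : Nat.card E = 8) (h2 : ∀ a ∈ E, a * a = 1)
    (hc : ∀ a ∈ E, ∀ b ∈ E, a ≠ 1 → b ≠ 1 → rk (ρ a) = rk (ρ b)) :
    (∀ a ∈ E, a ≠ 1 → rk (ρ a) = 4) ∧ ∀ g, (∀ a ∈ E, g * a = a * g) → g * g = 1 := by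
  have : Finite E := Nat.finite_of_card_ne_zero (by omega)
  have h4 : ∀ a ∈ E, a ≠ 1 → rk (ρ a) = 4 := fun a ha h1 => (h.wt h1 (h2 a ha)).resolve_left fun e => by
    have := h.a4l_dvd h2 ha h1 hc
    rw [h8, e] at this
    omega
  refine ⟨h4, fun g hg => ?_⟩
  obtain ⟨b, χ, k1, k2, k3, k4⟩ := h.a4l_ch h2
  have := Fintype.ofFinite E
  rw [Nat.card_eq_fintype_card] at h8
  have inj : ∀ i j, i ≠ j → ∃ a, χ i a ≠ χ j a := fun i j hij => by
    by_contra! e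
    have s1 : ∑ a, χ i a * ∑ l, χ l a = ∑ a, -χ i a + 8 := by
      rw [a4l_sum1 _ (fun a => -χ i a) fun x hx => by
        rw [k4, h4 _ x.2 fun e => hx (Subtype.ext e)]; push_cast; ring, k4, OneMemClass.coe_one, map_one, map_one,
        a4l_rk1]
      push_cast; ring
    have s2 : ∑ l ∈ {i, j}, ∑ a, (χ i * χ l) a ≤ ∑ l, ∑ a, (χ i * χ l) a :=
      Finset.sum_le_sum_of_subset_of_nonneg (Finset.subset_univ _) fun l _ _ => by
        rcases a4l_sum (χ i * χ l) with e | e <;> rw [e] <;> positivity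
    have s3 : ∑ a, χ i a * χ i a = 8 := by
      rw [Finset.sum_congr rfl fun a _ => show χ i a * χ i a = 1 by rcases k3 i a with e | e <;> rw [e] <;> rfl,
        Finset.sum_const, Finset.card_univ, h8]; rfl
    rw [Finset.sum_pair hij, Finset.sum_comm] at s2
    simp only [MonoidHom.mul_apply, ← e, ← Finset.mul_sum, s3, s1, Finset.sum_neg_distrib] at s2
    rcases a4l_sum (χ i) with e | e <;> rw [e] at s2 <;> omega
  have k5 : ∀ i, (ρ g).1 (b i) = b.repr ((ρ g).1 (b i)) i • b i := fun i => b.ext_elem fun j => by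
    by_cases hij : i = j
    · subst hij; simp
    obtain ⟨a, ha⟩ := inj i j hij
    have e1 : ∀ v, b.repr ((ρ a).1 v) j = (χ j a : K) * b.repr v j := fun v => by
      conv_lhs => rw [← b.sum_repr v]
      simp only [map_sum, map_smul, k2, b.repr_self, Finsupp.coe_finset_sum, Finset.sum_apply, Finsupp.smul_apply,
        Finsupp.single_apply, smul_eq_mul, mul_ite, mul_one, mul_zero, Finset.sum_ite_eq', Finset.mem_univ, if_true]
      ring
    have e2 := e1 ((ρ g).1 (b i))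
    rw [← a4l_cm (by rw [← map_mul, hg a a.2, map_mul]), k2, map_smul, map_smul, Finsupp.smul_apply,
      smul_eq_mul] at e2
    rw [map_smul, b.repr_self, Finsupp.smul_apply, Finsupp.single_eq_of_ne (Ne.symm hij), smul_zero]
    refine mul_left_cancel₀ h.two ?_
    rcases k3 i a with e | e <;> rcases k3 j a with e' | e' <;> rw [e, e'] at ha e2 <;> push_cast at e2
    exacts [absurd rfl ha, by linear_combination e2, by linear_combination -e2, absurd rfl ha]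
  refine h.inj ?_
  rw [map_mul, map_one]
  refine en_inj (b.ext fun i => ?_)
  have k6 := O_map (ρ g) (b i)
  rw [k5, Q_smul, mul_eq_right₀ (k1 i)] at k6
  rw [en_apply, en_apply, O_mul_apply, O_one_apply, k5, map_smul]
  nth_rw 2 [k5]
  rw [smul_smul, k6, one_smul]

/-- a sixteen-group has involutions of both weights -/
theorem Hy.e16 (h : Hy ρ) {E : Subgroup G} (h16 : Nat.card E = 16) (h2 : ∀ a ∈ E, a * a = 1)
    (hc : ∀ a ∈ E, ∀ b ∈ E, a ≠ 1 → b ≠ 1 → rk (ρ a) = rk (ρ b)) : False := by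
  have : Finite E := Nat.finite_of_card_ne_zero (by omega)
  have := Finite.one_lt_card_iff_nontrivial.1 (show 1 < Nat.card E by omega)
  obtain ⟨a, ha⟩ := exists_ne (1 : E)
  have h1 : (a : G) ≠ 1 := fun e => ha (Subtype.ext e)
  have := h.a4l_dvd h2 a.2 h1 hc
  rcases h.wt h1 (h2 a a.2) with e | e <;> rw [h16, e] at this <;> omega

end CfsgLib.O7
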