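import Cfsg.Agent.Lib.O7.Base

/-!
BK: no pair with value `√2` in characteristic at least five.  See `plans/O7B.md`.
-/

set_option autoImplicit false

namespace CfsgLib.O7

open CfsgLib.OrthE CfsgLib.OMax Module QuadraticMap Subgroup

variable {F V : Type*} [Field F] [Finite F] [AddCommGroup V] [Module F V] [FiniteDimensional F V]
  {Q : QuadraticForm F V} {H P : Subgroup (O Q)} {R : Set V}

/-- the admissible values -/
def BkV (c : F) : Prop := c = 0 ∨ c ^ 2 = 1 ∨ c ^ 2 = 2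

omit [Finite F] in
theorem bk_half (h3 : (3 : F) ≠ 0) {b : F} (v : BkV b) : 2 * b ^ 2 ≠ 1 := by
  intro e
  rcases v with k | k | k
  · exact one_ne_zero (α := F) (by rw [k] at e; linear_combination -e)
  · exact one_ne_zero (α := F) (by linear_combination e - 2 * k)
  · exact h3 (by linear_combination e - 2 * k)

omit [Finite F] in
theorem bk_four (h2 : (2 : F) ≠ 0) (h3 : (3 : F) ≠ 0) {b : F} (v : BkV b) : b ^ 2 ≠ 4 := by
  intro e
  rcases v with k | k | k
  · exact mul_ne_zero h2 h2 (by rw [k] at e; linear_combination -e)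
  · exact h3 (by linear_combination k - e)
  · exact h2 (by linear_combination k - e)

omit [Finite F] in
theorem bk_alg (h2 : (2 : F) ≠ 0) (h3 : (3 : F) ≠ 0) {σ a a' : F} (hσ : 2 * σ ^ 2 = 1) (v1 : BkV a) (v2 : BkV a')
    (v3 : BkV (σ * (a + a'))) (v4 : BkV (σ * (a - a'))) (f : a = 0 ∨ a' = -a ∨ a' = a ∨ a' = 0) :
    (a = 0 ∧ a' = 0) ∨ (a ^ 2 = 2 ∧ a' = 0) ∨ (a = 0 ∧ a' ^ 2 = 2) ∨ (a ^ 2 = 1 ∧ a' ^ 2 = 1) := by
  rcases f with rfl | rfl | rfl | rfl
  · rcases v2 with k | k | k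
    exacts [.inl ⟨rfl, k⟩, absurd (by linear_combination a' ^ 2 * hσ + k) (bk_half h3 v3), .inr (.inr (.inl ⟨rfl, k⟩))]
  · rcases v1 with k | k | k
    exacts [.inl ⟨k, by rw [k, neg_zero]⟩, .inr (.inr (.inr ⟨k, by rw [neg_sq, k]⟩)),
      absurd (by linear_combination 2 * a ^ 2 * hσ + 2 * k) (bk_four h2 h3 v4)]
  · rcases v1 with k | k | k
    exacts [.inl ⟨k, k⟩, .inr (.inr (.inr ⟨k, k⟩)),
      absurd (by linear_combination 2 * a' ^ 2 * hσ + 2 * k) (bk_four h2 h3 v3)]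
  · rcases v1 with k | k | k
    exacts [.inl ⟨k, rfl⟩, absurd (by linear_combination a ^ 2 * hσ + k) (bk_half h3 v3), .inr (.inl ⟨k, rfl⟩)]

/-- a frame of type `B₂` -/
structure BkF (Q : QuadraticForm F V) (R : Set V) (σ : F) (s s' : V) : Prop where
  m1 : s ∈ R
  m2 : s' ∈ R
  o : polar Q s s' = 0
  m3 : σ • (s + s') ∈ R

omit [Finite F] [FiniteDimensional F V] in
theorem BkF.symm {σ : F} {s s' : V} (f : BkF Q R σ s s') : BkF Q R σ s' s :=
  ⟨f.m2, f.m1, by rw [polar_comm, f.o], by rw [add_comm]; exact f.m3⟩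

theorem RS.bk_ref (h : RS Q H P R) {u w : V} (hu : u ∈ R) (hw : w ∈ R) : w - polar Q w u • u ∈ R :=
  h.refl_ap hu w ▸ h.ref u hu w hw

theorem RS.bk_neg (h : RS Q H P R) {σ : F} {s s' : V} (f : BkF Q R σ s s') : BkF Q R σ s (-s') := by
  refine ⟨f.m1, h.neg _ f.m2, by rw [polar_neg_right, f.o, neg_zero], ?_⟩
  have := h.bk_ref f.m2 f.m3
  rw [polar_smul_left, polar_add_left, f.o, h.pol_self f.m2] at this
  convert this using 1
  simp only [smul_eq_mul]; module

theorem RS.bk_dual (h : RS Q H P R) {σ : F} (hσ : 2 * σ ^ 2 = 1) {s s' : V} (f : BkF Q R σ s s') :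
    BkF Q R σ (σ • (s + s')) (σ • (s + -s')) := by
  refine ⟨f.m3, (h.bk_neg f).m3, ?_, ?_⟩
  · simp only [polar_smul_left, polar_smul_right, polar_add_left, polar_add_right, polar_neg_right, f.o, f.symm.o,
      h.pol_self f.m1, h.pol_self f.m2, smul_eq_mul]
    ring
  · convert f.m1 using 1
    linear_combination (norm := module) hσ • s

theorem RS.bk_flip (h : RS Q H P R) {x s : V} (hx : x ∈ R) (hs : s ∈ R) (e : polar Q x s ^ 2 = 1) :
    ∃ c : F, x + c • s ∈ R ∧ polar Q (x + c • s) s = 1 := by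
  rcases sq_eq_one_iff.1 e with k | k
  · exact ⟨0, by simpa using hx, by simpa using k⟩
  · refine ⟨1, ?_, by rw [polar_add_left, polar_smul_left, k, h.pol_self hs]; simp only [smul_eq_mul]; ring⟩
    have := h.bk_ref hs hx
    rwa [k, neg_smul, sub_neg_eq_add] at this

section

variable (h : RS Q H P R) (t : Tame Q R) (h3 : (3 : F) ≠ 0) (hg : NoGold Q R) {σ : F} (hσ : 2 * σ ^ 2 = 1)
include h t hg

omit h in
theorem bk_val {x y : V} (hx : x ∈ R) (hy : y ∈ R) : BkV (polar Q x y) ∨ y = x ∨ y = -x := by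
  by_cases d : Df x y
  · rcases t.val x hx y hy d with k | k | k | k
    exacts [.inl (.inl k), .inl (.inr (.inl k)), .inl (.inr (.inr k)), absurd k (hg x hx y hy d)]
  · rw [Df, not_and_or, not_not, not_not] at d
    exact .inr d

omit h in
theorem bk_val' {x y : V} {W : Submodule F V} (hx : x ∈ R) (hy : y ∈ R) (h1 : x ∉ W) (h2 : y ∈ W) :
    BkV (polar Q x y) := by
  rcases bk_val t hg hx hy with k | rfl | rfl
  exacts [k, absurd h2 h1, absurd (neg_mem_iff.1 h2) h1]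

include h3 hσ

theorem RS.bk_star {s s' x : V} (f : BkF Q R σ s s') (hx : x ∈ R) {W : Submodule F V} (h0 : x ∉ W) (h1 : s ∈ W)
    (h2 : s' ∈ W) : (polar Q x s = 0 ∧ polar Q x s' = 0) ∨ (polar Q x s ^ 2 = 2 ∧ polar Q x s' = 0) ∨
      (polar Q x s = 0 ∧ polar Q x s' ^ 2 = 2) ∨ (polar Q x s ^ 2 = 1 ∧ polar Q x s' ^ 2 = 1) := by
  have σ0 : σ ≠ 0 := fun e => by simp [e] at hσ
  have m3 : σ • (s + s') ∈ W := W.smul_mem _ (W.add_mem h1 h2)
  have v3 := bk_val' t hg hx f.m3 h0 m3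
  have v4 := bk_val' t hg hx (h.bk_neg f).m3 h0 (W.smul_mem _ (W.add_mem h1 (W.neg_mem h2)))
  rw [polar_smul_right, polar_add_right, smul_eq_mul] at v3 v4
  rw [polar_neg_right, ← sub_eq_add_neg] at v4
  refine bk_alg h.two h3 hσ (bk_val' t hg hx f.m1 h0 h1) (bk_val' t hg hx f.m2 h0 h2) v3 v4 ?_
  have p1 : polar Q s (σ • (s + s')) = 2 * σ := by
    rw [polar_smul_right, polar_add_right, f.o, h.pol_self f.m1, smul_eq_mul]; ring
  have := t.four h3 s f.m1 _ f.m3 x hx (by rw [p1]; linear_combination 2 * hσ) fun m => h0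
    ((Submodule.span_le.2 (by rintro _ (rfl | rfl); exacts [h1, m3]) : _ ≤ W) m)
  rw [h.refl_ap f.m1, h.refl_ap f.m3, p1, polar_comm Q (σ • (s + s')), p1] at this
  simp only [polar_sub_right, polar_smul_right, polar_add_right, smul_eq_mul] at this
  rcases this with k | k | k | k
  · exact .inl k
  · exact .inr (.inl (mul_left_cancel₀ σ0 (by linear_combination k)))
  · exact .inr (.inr (.inl (mul_left_cancel₀ σ0 (by linear_combination k))))
  · exact .inr (.inr (.inr (by linear_combination -k - (polar Q x s + polar Q x s') * hσ)))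

theorem RS.bk_one {s s' x : V} (f : BkF Q R σ s s') (hx : x ∈ R) (e : polar Q x s ^ 2 = 1) :
    polar Q x s' ^ 2 = 1 := by
  by_cases m : x ∈ Submodule.span F {s, s'}
  · exfalso
    obtain ⟨α, β, rfl⟩ := Submodule.mem_span_pair.1 m
    have k0 := h.pol_self hx
    have v := bk_val t hg hx f.m2
    have o : ∀ y : V, s' = y ∨ s' = -y → polar Q y s ^ 2 ≠ 1 := fun y hy => by
      have : polar Q y s = 0 := by
        rcases hy with rfl | hy
        · exact f.symm.o
        · rw [← neg_neg y, ← hy, polar_neg_left, f.symm.o, neg_zero]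
      simp [this]
    rcases v with v | v
    swap
    · exact o _ v e
    simp only [polar_smul_left, polar_smul_right, polar_add_left, polar_add_right, f.o, f.symm.o,
      h.pol_self f.m1, h.pol_self f.m2, smul_eq_mul] at e k0 v
    rcases v with k | k | k
    · exact h3 (by linear_combination e - 2 * k0 + (2 * β) * k)
    · exact h.two (by linear_combination e - 2 * k0 + k)
    · exact one_ne_zero (α := F) (by linear_combination e - 2 * k0 + k)
  rcases h.bk_star t h3 hg hσ f hx m (Submodule.subset_span (by simp)) (Submodule.subset_span (by simp)) with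
    ⟨k, -⟩ | ⟨k, -⟩ | ⟨k, -⟩ | ⟨-, k⟩
  · simp [k] at e
  · exact absurd (by linear_combination e - k) (one_ne_zero (α := F))
  · simp [k] at e
  · exact k

omit t h3 hg hσ in
theorem RS.bk_out {n : ℕ} (a : Fin n → V) (hn : n < 7) {i : Fin n} (hi : a i ∈ R) :
    ∃ x ∈ R, x ∉ Submodule.span F (Set.range a) ∧ ∃ j, polar Q x (a j) ≠ 0 := by
  obtain ⟨x, hx, h1, h2⟩ := h.exists_out (W := Submodule.span F (Set.range a)) (fun e => by
    have : a i = 0 := (Submodule.mem_bot F).1 (e ▸ Submodule.subset_span ⟨i, rfl⟩)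
    have k := h.one _ hi
    rw [this, map_zero] at k
    exact zero_ne_one k) (fun e => by
    have := finrank_range_le_card (R := F) a
    rw [Set.finrank, e, finrank_top, h.dim, Fintype.card_fin] at this
    omega)
  refine ⟨x, hx, h1, by_contra fun k => h2 (mem_perp_span.2 ?_)⟩
  rintro _ ⟨j, rfl⟩
  rw [polar_comm]
  exact by_contra fun e => k ⟨j, e⟩

theorem RS.bk_nb {s s' : V} (f : BkF Q R σ s s') {u : V} (hu : u ∈ R) : ∃ w ∈ R, polar Q w u ^ 2 = 1 := by
  obtain ⟨x, hx, y, hy, e⟩ : ∃ x ∈ R, ∃ y ∈ R, polar Q x y ^ 2 = 1 := by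
    obtain ⟨x, hx, h0, j, hj⟩ := h.bk_out ![s, s'] (by decide) (i := 0) f.m1
    rcases h.bk_star t h3 hg hσ f hx h0 (Submodule.subset_span ⟨0, rfl⟩) (Submodule.subset_span ⟨1, rfl⟩) with
      ⟨k, k'⟩ | ⟨k, k'⟩ | ⟨k', k⟩ | ⟨k, -⟩
    · fin_cases j
      exacts [absurd k hj, absurd k' hj]
    · refine ⟨x, hx, _, f.m3, ?_⟩
      rw [polar_smul_right, polar_add_right, k', smul_eq_mul]
      linear_combination σ ^ 2 * k + hσ
    · refine ⟨x, hx, _, f.m3, ?_⟩
      rw [polar_smul_right, polar_add_right, k', smul_eq_mul]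
      linear_combination σ ^ 2 * k + hσ
    · exact ⟨x, hx, s, f.m1, k⟩
  obtain ⟨g, hgH, k⟩ := h.trans y hy u hu
  refine ⟨g.1 x, h.inv g hgH x hx, ?_⟩
  rw [← O_polar g] at e
  rcases k with k | k
  · rwa [k] at e
  · rwa [k, polar_neg_right, neg_sq] at e

omit t h3 hg in
/-- a third member of the frame -/
theorem RS.bk_three {s s' w : V} (f : BkF Q R σ s s') (hw : w ∈ R) (e : polar Q w s = 2 * σ) (e' : polar Q w s' = 0) :
    ∃ s'', BkF Q R σ s s'' ∧ BkF Q R σ s' s'' := by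
  have m : (2 * σ) • w - s ∈ R := by
    have := h.neg _ (h.bk_ref hw f.m1)
    rwa [polar_comm, e, neg_sub] at this
  have ew : σ • (s + ((2 * σ) • w - s)) = w := by linear_combination (norm := module) hσ • w
  refine ⟨_, ⟨f.m1, m, ?_, by rw [ew]; exact hw⟩, f.m2, m, ?_, ?_⟩
  · rw [polar_sub_right, polar_smul_right, polar_comm Q s w, e, h.pol_self f.m1, smul_eq_mul]
    linear_combination 2 * hσ
  · rw [polar_sub_right, polar_smul_right, polar_comm Q s' w, e', f.symm.o, smul_zero, sub_zero]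
  · have := h.bk_ref (h.bk_neg f).m3 hw
    rw [polar_smul_right, polar_add_right, polar_neg_right, e, e', smul_eq_mul] at this
    convert this using 1
    linear_combination (norm := module) hσ • w + hσ • (σ • (s - s'))

theorem RS.bk_ex3 {s s' : V} (f : BkF Q R σ s s') :
    ∃ s₁ s₂ s₃, BkF Q R σ s₁ s₂ ∧ BkF Q R σ s₁ s₃ ∧ BkF Q R σ s₂ s₃ := by
  have d := h.bk_dual hσ f
  obtain ⟨x, hx, e⟩ := h.bk_nb t h3 hg hσ f d.m1
  obtain ⟨c, hy, e1⟩ := h.bk_flip hx d.m1 e
  obtain ⟨c', hw, e2⟩ := h.bk_flip hy d.m2 (h.bk_one t h3 hg hσ d hy (by rw [e1, one_pow]))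
  set w := x + c • σ • (s + s') + c' • σ • (s + -s')
  have e3 : polar Q w (σ • (s + s')) = 1 := by
    rw [polar_add_left, polar_smul_left, d.symm.o, smul_zero, add_zero, e1]
  rw [polar_smul_right, polar_add_right, smul_eq_mul] at e2 e3
  rw [polar_neg_right] at e2
  obtain ⟨s'', k1, k2⟩ := h.bk_three hσ f hw (by linear_combination σ * e2 + σ * e3 - polar Q w s * hσ)
    (by linear_combination σ * e3 - σ * e2 - polar Q w s' * hσ)
  exact ⟨s, s', s'', f, k1, k2⟩

omit t h3 hg hσ in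
theorem RS.bk_frn {s₁ s₂ s₃ w : V} (f : BkF Q R σ s₁ s₂) (h3' : s₃ ∈ R) (o1 : polar Q s₃ s₁ = 0) (o2 : polar Q s₃ s₂ = 0)
    (hw : w ∈ R) (e1 : polar Q w s₁ = 1) (e2 : polar Q w s₂ = 1) (e3 : polar Q w s₃ = 1) {n : V} (hn : n ∈ R)
    (en : n = (2 : F) • w - s₁ - s₂ - s₃) : BkF Q R σ s₃ n := by
  refine ⟨h3', hn, ?_, ?_⟩
  · rw [en]
    simp only [polar_sub_right, polar_smul_right, polar_comm Q s₃ w, e3, o1, o2, h.pol_self h3', smul_eq_mul]
    ring
  · have := h.neg _ (h.bk_ref hw f.m3)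
    rw [polar_comm, polar_smul_right, polar_add_right, e1, e2, smul_eq_mul] at this
    convert this using 1
    rw [en]; module

theorem RS.bk_fin {s₁ s₂ s₃ : V} (f12 : BkF Q R σ s₁ s₂) (f13 : BkF Q R σ s₁ s₃) (f23 : BkF Q R σ s₂ s₃) : False := by
  have st := fun {s s' x : V} (f : BkF Q R σ s s') (hx : x ∈ R) => h.bk_one t h3 hg hσ f hx
  have flip3 : ∀ x ∈ R, polar Q x s₁ ^ 2 = 1 → ∃ a b c : F, x + a • s₁ + b • s₂ + c • s₃ ∈ R ∧
      polar Q (x + a • s₁ + b • s₂ + c • s₃) s₁ = 1 ∧ polar Q (x + a • s₁ + b • s₂ + c • s₃) s₂ = 1 ∧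
      polar Q (x + a • s₁ + b • s₂ + c • s₃) s₃ = 1 := fun x hx e => by
    obtain ⟨a, ha, e1⟩ := h.bk_flip hx f12.m1 e
    obtain ⟨b, hb, e2⟩ := h.bk_flip ha f12.m2 (st f12 ha (by rw [e1, one_pow]))
    obtain ⟨c, hc, e3⟩ := h.bk_flip hb f23.m2 (st f23 hb (by rw [e2, one_pow]))
    refine ⟨a, b, c, hc, ?_, ?_, e3⟩
    · rw [polar_add_left, polar_add_left _ _ (b • s₂), polar_smul_left, polar_smul_left, f13.symm.o, f12.symm.o, e1]
      simp
    · rw [polar_add_left, polar_smul_left, f23.symm.o, e2]; simp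
  obtain ⟨x, hx, e⟩ := h.bk_nb t h3 hg hσ f12 f12.m1
  obtain ⟨a, b, c, hw, e1, e2, e3⟩ := flip3 x hx e
  generalize x + a • s₁ + b • s₂ + c • s₃ = w at hw e1 e2 e3
  have hn : (2 : F) • w - s₁ - s₂ - s₃ ∈ R := by
    have k1 := h.bk_ref f12.m1 hw
    rw [e1, one_smul] at k1
    have k2 := h.bk_ref f12.m2 k1
    rw [polar_sub_left, e2, f12.o, sub_zero, one_smul] at k2
    have k3 := h.bk_ref f13.m2 k2
    rw [polar_sub_left, polar_sub_left, e3, f13.o, f23.o, sub_zero, sub_zero, one_smul] at k3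
    have k4 := h.bk_ref hw k3
    rw [polar_sub_left, polar_sub_left, polar_sub_left, polar_comm Q s₁, polar_comm Q s₂, polar_comm Q s₃, e1, e2, e3,
      h.pol_self hw] at k4
    convert k4 using 1
    module
  obtain ⟨n, en⟩ : ∃ n, n = (2 : F) • w - s₁ - s₂ - s₃ := ⟨_, rfl⟩
  rw [← en] at hn
  have f34 := h.bk_frn f12 f13.m2 f13.symm.o f23.symm.o hw e1 e2 e3 hn en
  have f24 := h.bk_frn f13 f12.m2 f12.symm.o f23.o hw e1 e3 e2 hn (by rw [en]; abel)
  have f14 := h.bk_frn f23 f12.m1 f12.o f13.o hw e2 e3 e1 hn (by rw [en]; abel)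
  have ew : (2 : F) • w = s₁ + s₂ + s₃ + n := by rw [en]; abel
  obtain ⟨y, hy, h0, j, hj⟩ := h.bk_out ![s₁, s₂, s₃, n] (by decide) (i := 0) f12.m1
  set W := Submodule.span F (Set.range ![s₁, s₂, s₃, n])
  have m1 : s₁ ∈ W := Submodule.subset_span ⟨0, rfl⟩
  have m2 : s₂ ∈ W := Submodule.subset_span ⟨1, rfl⟩
  have m3 : s₃ ∈ W := Submodule.subset_span ⟨2, rfl⟩
  have m4 : n ∈ W := Submodule.subset_span ⟨3, rfl⟩
  have mw : w ∈ W := (W.smul_mem_iff h.two).1 (ew ▸ W.add_mem (W.add_mem (W.add_mem m1 m2) m3) m4)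
  have pw : ∀ z, 2 * polar Q z w = polar Q z s₁ + polar Q z s₂ + polar Q z s₃ + polar Q z n := fun z => by
    rw [← polar_add_right, ← polar_add_right, ← polar_add_right, ← ew, polar_smul_right, smul_eq_mul]
  by_cases o : polar Q y s₁ ^ 2 = 1
  · obtain ⟨a, b, c, hz, k1, k2, k3⟩ := flip3 y hy o
    obtain ⟨d, hz', k4⟩ := h.bk_flip hz hn (st f14 hz (by rw [k1, one_pow]))
    have := pw (y + a • s₁ + b • s₂ + c • s₃ + d • n)
    rw [k4, polar_add_left _ _ _ s₁, polar_add_left _ _ _ s₂, polar_add_left _ _ _ s₃, k1, k2, k3, polar_smul_left,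
      polar_smul_left, polar_smul_left, f14.symm.o, f24.symm.o, f34.symm.o, smul_zero] at this
    refine bk_four h.two h3 (bk_val' t hg hz' hw (fun m => h0 ?_) mw) ?_
    · rwa [W.add_mem_iff_left (W.smul_mem _ m4), W.add_mem_iff_left (W.smul_mem _ m3),
        W.add_mem_iff_left (W.smul_mem _ m2), W.add_mem_iff_left (W.smul_mem _ m1)] at m
    · rw [mul_left_cancel₀ h.two (this.trans (by norm_num : _ = (2 : F) * 2))]; norm_num
  have sz : ∀ {s s' : V}, BkF Q R σ s s' → s ∈ W → s' ∈ W → polar Q y s ^ 2 = 2 → polar Q y s' = 0 :=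
    fun f a b e => by
      rcases h.bk_star t h3 hg hσ f hy h0 a b with ⟨-, k⟩ | ⟨-, k⟩ | ⟨k, -⟩ | ⟨k, -⟩
      · exact k
      · exact k
      · rw [k] at e; exact absurd (by linear_combination -e) h.two
      · exact absurd (by linear_combination k - e) (one_ne_zero (α := F))
  have v := bk_val' t hg hy hw h0 mw
  have fin : ∀ a : F, a ^ 2 = 2 → 2 * polar Q y w = a → False := fun a e k => by
    refine bk_half h3 v (mul_left_cancel₀ h.two ?_)
    linear_combination (2 * polar Q y w + a) * k + e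
  have q := pw y
  fin_cases j
  · rcases bk_val' t hg hy f12.m1 h0 m1 with k | k | k
    exacts [hj k, o k, fin _ k (by rw [q, sz f12 m1 m2 k, sz f13 m1 m3 k, sz f14 m1 m4 k]; ring)]
  · rcases bk_val' t hg hy f12.m2 h0 m2 with k | k | k
    exacts [hj k, o (st f12.symm hy k),
      fin _ k (by rw [q, sz f12.symm m2 m1 k, sz f23 m2 m3 k, sz f24 m2 m4 k]; ring)]
  · rcases bk_val' t hg hy f13.m2 h0 m3 with k | k | k
    exacts [hj k, o (st f13.symm hy k),
      fin _ k (by rw [q, sz f13.symm m3 m1 k, sz f23.symm m3 m2 k, sz f34 m3 m4 k]; ring)]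
  · rcases bk_val' t hg hy hn h0 m4 with k | k | k
    exacts [hj k, o (st f14.symm hy k),
      fin _ k (by rw [q, sz f14.symm m4 m1 k, sz f24.symm m4 m2 k, sz f34.symm m4 m3 k]; ring)]

end
theorem RS.bk (h : RS Q H P R) (t : Tame Q R) (h3 : (3 : F) ≠ 0) (hg : NoGold Q R) :
    ∀ u ∈ R, ∀ v ∈ R, polar Q u v ^ 2 ≠ 2 := by
  intro u hu v hv e
  set ρ := polar Q u v with hρ
  have h2 := h.two
  have hσ : 2 * (ρ / 2) ^ 2 = 1 := by field_simp; linear_combination e
  have m := h.neg _ (h.bk_ref hv hu)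
  rw [← hρ, neg_sub] at m
  have f : BkF Q R (ρ / 2) u (ρ • v - u) := by
    refine ⟨hu, m, ?_, ?_⟩
    · rw [polar_sub_right, polar_smul_right, ← hρ, h.pol_self hu, smul_eq_mul]; linear_combination e
    · convert hv using 1
      rw [add_sub_cancel, smul_smul, show ρ / 2 * ρ = 1 by field_simp; linear_combination e, one_smul]
  obtain ⟨s₁, s₂, s₃, f12, f13, f23⟩ := h.bk_ex3 t h3 hg hσ f
  exact h.bk_fin t h3 hg hσ f12 f13 f23

end CfsgLib.O7
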