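import Cfsg.Agent.Lib.O7.EndA

/-!
ENDB: the types excluded by the dimension.  See `plans/O7B.md`.
-/

set_option autoImplicit false

namespace CfsgLib.O7

open CfsgLib.OrthE CfsgLib.OMax Module QuadraticMap Subgroup

variable {F V : Type*} [Field F] [Finite F] [AddCommGroup V] [Module F V] [FiniteDimensional F V]
  {Q : QuadraticForm F V} {H P : Subgroup (O Q)} {R : Set V}

theorem endb_nr (u w : V) : (nr Q u).1 w = -(refl Q u).1 w := rfl

theorem endb_sq (u : V) : nr Q u * nr Q u = 1 := by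
  rw [nr, mul_assoc, ← mul_assoc (refl Q u), ← ng_comm, mul_assoc, refl_mul_self, mul_one, ng_mul_ng]

theorem RS.endb_orth (h : RS Q H P R) {u v : V} (hu : u ∈ R) (hv : v ∈ R) (hc : Commute (nr Q u) (nr Q v))
    (hn : nr Q u ≠ nr Q v) : polar Q u v = 0 := by
  by_contra h0
  exact (h.nr_comm hu hv).1 hc ⟨not_not.1 fun e => hn ((h.nr_eq hu hv).2 e), h0⟩

/-- a string of seven roots is a basis -/
theorem RS.endb_str (h : RS Q H P R) {a : Fin 7 → V} (ha : Str Q R a) : LinearIndependent F a := by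
  refine Fintype.linearIndependent_iff.2 fun g hg => ?_
  have G : ∀ i j : Fin 7, polar Q (a i) (a j) =
      if i = j then 2 else if i.1 + 1 = j.1 ∨ j.1 + 1 = i.1 then -1 else 0 := fun i j => by
    split_ifs with h1 h2
    · rw [h1, h.pol_self (ha.mem j)]
    · rcases h2 with e | e
      exacts [ha.adj i j e, by rw [polar_comm]; exact ha.adj j i e]
    · rcases lt_or_gt_of_ne (Fin.val_ne_of_ne h1) with e | e
      exacts [ha.far i j (by omega), by rw [polar_comm]; exact ha.far j i (by omega)]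
  have e : ∀ j, ∑ i, g i * polar Q (a i) (a j) = 0 := fun j => by
    have := congrArg (fun x => polarBilin Q x (a j)) hg
    simpa [map_sum, LinearMap.sum_apply] using this
  have e0 := e 0
  have e1 := e 1
  have e2 := e 2
  have e3 := e 3
  have e4 := e 4
  have e5 := e 5
  have e6 := e 6
  simp [G, Fin.sum_univ_seven] at e0 e1 e2 e3 e4 e5 e6
  have h8 : (2 : F) * 2 * 2 * g 0 = 0 := by
    linear_combination 7 * e0 + 6 * e1 + 5 * e2 + 4 * e3 + 3 * e4 + 2 * e5 + e6
  have g0 : g 0 = 0 := by simpa [h.two] using h8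
  have g1 : g 1 = 0 := by linear_combination 2 * g0 - e0
  have g2 : g 2 = 0 := by linear_combination 2 * g1 - g0 - e1
  have g3 : g 3 = 0 := by linear_combination 2 * g2 - g1 - e2
  have g4 : g 4 = 0 := by linear_combination 2 * g3 - g2 - e3
  have g5 : g 5 = 0 := by linear_combination 2 * g4 - g3 - e4
  have g6 : g 6 = 0 := by linear_combination 2 * g5 - g4 - e5
  intro i
  fin_cases i <;> assumption

theorem SL.gen7 (h : SL Q H P R) (s : Finset (GT Q R)) (hs : ∀ d ∈ s, d ∈ DT Q R)
    (hg : closure (s : Set (GT Q R)) = ⊤) : 7 ≤ s.card := by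
  classical
  choose! u hu e using hs
  have key : ∀ g ∈ closure (s : Set (GT Q R)), ∀ w ∈ Submodule.span F (s.image u : Set V),
      g.1.1 w ∈ Submodule.span F (s.image u : Set V) ∧ (g⁻¹).1.1 w ∈ Submodule.span F (s.image u : Set V) := by
    intro g hg
    induction hg using closure_induction with
    | mem d hd =>
      intro w hw
      have h1 : d⁻¹ = d := inv_eq_of_mul_eq_one_right (Subtype.ext (by rw [coe_mul, e d hd]; exact endb_sq _))
      rw [h1, and_self, e d hd, endb_nr, h.refl_ap (hu d hd)]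
      exact neg_mem (sub_mem hw (Submodule.smul_mem _ _ (Submodule.subset_span (Finset.mem_coe.2 (Finset.mem_image_of_mem u hd)))))
    | one => exact fun w hw => ⟨hw, by rw [inv_one]; exact hw⟩
    | mul x y _ _ h1 h2 =>
      exact fun w hw => ⟨(h1 _ (h2 w hw).1).1, by rw [mul_inv_rev]; exact (h2 _ (h1 w hw).2).2⟩
    | inv x _ h1 => exact fun w hw => ⟨(h1 w hw).2, by rw [inv_inv]; exact (h1 w hw).1⟩
  rcases h.irr' (Submodule.span F (s.image u : Set V)) (fun v hv w hw => by
    have := (key ⟨nr Q v, Subgroup.subset_closure ⟨v, hv, rfl⟩⟩ (hg ▸ mem_top _) w hw).1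
    rwa [endb_nr, neg_mem_iff] at this) with h0 | h0
  · exfalso
    rcases s.eq_empty_or_nonempty with rfl | ⟨d, hd⟩
    · obtain ⟨φ⟩ := h.comm
      have := h.simple
      obtain ⟨x, hx⟩ := exists_ne (1 : P)
      refine hx (φ.injective (Subtype.ext ?_))
      have h1 : (φ x : GT Q R) ∈ (⊤ : Subgroup (GT Q R)) := mem_top _
      rw [← hg] at h1
      simpa using h1
    · have h1 : u d ∈ Submodule.span F (s.image u : Set V) := Submodule.subset_span (Finset.mem_coe.2 (Finset.mem_image_of_mem u hd))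
      rw [h0, Submodule.mem_bot] at h1
      have := h.one _ (hu d hd)
      rw [h1, map_zero] at this
      exact zero_ne_one this
  · have := finrank_span_finset_le_card (R := F) (s.image u)
    rw [Set.finrank, h0, finrank_top, h.dim] at this
    exact this.trans Finset.card_image_le

theorem SL.comm7 (h : SL Q H P R) (s : Finset (GT Q R)) (hs : ∀ d ∈ s, d ∈ DT Q R)
    (hc : ∀ d ∈ s, ∀ e ∈ s, Commute d e) : s.card ≤ 7 := by
  classical
  choose! u hu e using hs
  have li : LinearIndependent F fun d : s => u d := by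
    refine Fintype.linearIndependent_iff.2 fun g hg j => ?_
    have := congrArg (fun x => polarBilin Q x (u j)) hg
    simp only [map_sum, LinearMap.sum_apply, map_smul, LinearMap.smul_apply, polarBilin_apply_apply, map_zero,
      LinearMap.zero_apply, smul_eq_mul] at this
    rw [Finset.sum_eq_single j (fun i _ hij => ?_) (by simp), h.pol_self (hu _ j.2)] at this
    · simpa [h.two] using this
    · rw [h.endb_orth (hu _ i.2) (hu _ j.2) ?_ ?_, mul_zero]
      · rw [← e _ i.2, ← e _ j.2]; exact (hc _ i.2 _ j.2).map (GT Q R).subtype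
      · rw [← e _ i.2, ← e _ j.2]; exact fun e' => hij (Subtype.ext (Subtype.ext e'))
  simpa [h.dim] using li.fintype_card_le_finrank

section tab

variable {W : Type*} [AddCommGroup W] [Module (ZMod 2) W] {B : LinearMap.BilinForm (ZMod 2) W} {S : Set W}
  {p : W → GT Q R}

theorem SL.endb_comm (h : SL Q H P R) (T : FTHM.BTable B S (DT Q R) p) (w : Fin 8 → W) (hw : ∀ i, w i ∈ S)
    (hi : Function.Injective w) (hB : ∀ i j, B (w i) (w j) = 0) : False := by
  classical
  have := h.comm7 (Finset.univ.image fun i => p (w i)) (by simpa using fun i => T.mem _ (hw i))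
    (by simpa using fun i j => (T.comm _ (hw i) _ (hw j)).2 (hB i j))
  rw [Finset.card_image_of_injective _ fun i j e => hi (T.inj (hw i) (hw j) e)] at this
  simp at this

theorem SL.endb_gen (h : SL Q H P R) (T : FTHM.BTable B S (DT Q R) p) {k : ℕ} (w : Fin k → W)
    (hw : ∀ i, w i ∈ S) (rk : W → ℕ) (hr : ∀ v ∈ S, (∃ i, v = w i) ∨ ∃ i, rk (v + B (w i) v • w i) < rk v) :
    7 ≤ k := by
  classical
  have m : ∀ i, p (w i) ∈ closure ((Finset.univ.image fun i => p (w i) : Finset _) : Set (GT Q R)) :=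
    fun i => Subgroup.subset_closure (by simp)
  have := h.gen7 (Finset.univ.image fun i => p (w i)) (by simpa using fun i => T.mem _ (hw i)) (by
    rw [eq_top_iff, ← closure_DT, closure_le]
    intro x hx
    obtain ⟨v, hv, rfl⟩ := T.surj x hx
    clear hx
    induction hn : rk v using Nat.strong_induction_on generalizing v with
    | _ n ih =>
      rcases hr v hv with ⟨i, rfl⟩ | ⟨i, hi⟩
      · exact m i
      · have h1 := ih _ (hn ▸ hi) _ (T.closed _ (hw i) _ hv) rfl
        rw [← T.conj _ (hw i) _ hv] at h1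
        exact (Subgroup.mul_mem_cancel_left _ (m i)).1 ((Subgroup.mul_mem_cancel_right _ (m i)).1 h1))
  exact this.trans (Finset.card_image_le.trans (by simp))

end tab

/-- eight vectors with the fourth coordinate one -/
def endbC (k : Fin 8) (j : ℕ) : ZMod 2 := if j = 3 then 1 else (k.1 / 2 ^ j : ℕ)

theorem endbC_inj {m : ℕ} (h3 : 3 ≤ m) {k l : Fin 8} (e : ∀ j : Fin m, endbC k j = endbC l j) : k = l :=
  (by decide : ∀ k l : Fin 8, endbC k 0 = endbC l 0 → endbC k 1 = endbC l 1 → endbC k 2 = endbC l 2 → k = l) k l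
    (e ⟨0, by omega⟩) (e ⟨1, by omega⟩) (e ⟨2, by omega⟩)

theorem SL.symT (h : SL Q H P R) {n : ℕ} (h5 : 5 ≤ n) (T : FTHM.SymT (DT Q R) n) :
    n = 8 ∨ n = 9 := by
  classical
  obtain ⟨φ, h1, hD⟩ := FTHM.symT_iff.1 T
  by_contra hn
  rcases (by omega : n ≤ 7 ∨ 10 ≤ n) with h7 | h10
  · obtain ⟨k, rfl⟩ : ∃ k, n = k + 1 := ⟨n - 1, by omega⟩
    have := h.gen7 (Finset.univ.image fun i : Fin k => φ (Equiv.swap i.castSucc i.succ))
      (by simpa [hD] using fun i : Fin k => FTHM.mem_swaps φ (Fin.castSucc_lt_succ (i := i)).ne) (by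
      rw [eq_top_iff, ← closure_DT, closure_le, hD]
      rintro _ ⟨i, j, -, rfl⟩
      have h2 : Equiv.swap i j ∈ Submonoid.closure (Set.range fun i : Fin k => Equiv.swap i.castSucc i.succ) := by
        rw [Equiv.Perm.mclosure_swap_castSucc_succ]; trivial
      generalize Equiv.swap i j = σ at h2
      induction h2 using Submonoid.closure_induction with
      | mem x hx =>
        obtain ⟨i, rfl⟩ := hx
        exact Subgroup.subset_closure (by simp)
      | one => rw [map_one]; exact one_mem _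
      | mul x y _ _ hx hy => rw [map_mul]; exact Subgroup.mul_mem _ hx hy)
    have := this.trans Finset.card_image_le
    simp at this
    omega
  · let i : Fin 10 → Fin n := Fin.castLE h10
    have hi : ∀ a b, i a = i b ↔ a = b := fun a b => (Fin.castLE_injective h10).eq_iff
    have m : ∀ a b, a ≠ b → φ (Equiv.swap (i a) (i b)) ∈ DT Q R := fun a b h =>
      hD ▸ FTHM.mem_swaps φ (by rwa [Ne, hi])
    have c : ∀ a b k l, a ≠ b → (Commute (φ (Equiv.swap (i a) (i b))) (φ (Equiv.swap (i k) (i l))) ↔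
        ((k = a ∨ k = b) ↔ (l = a ∨ l = b))) := fun a b k l h => by
      rw [FTHM.commute_swap_map h1 (by rwa [Ne, hi])]; simp only [hi]
    have ne : ∀ a b k l, a ≠ b → a ≠ k → a ≠ l → φ (Equiv.swap (i a) (i b)) ≠ φ (Equiv.swap (i k) (i l)) :=
      fun a b k l x y z => FTHM.swap_map_ne h1 (by rwa [Ne, hi]) (by rwa [Ne, hi]) (by rwa [Ne, hi])
    let x : Fin 7 → Fin 10 := ![0, 1, 2, 3, 4, 5, 6]
    let y : Fin 7 → Fin 10 := ![1, 2, 3, 4, 5, 6, 7]
    have xy : ∀ j, x j ≠ y j := by decide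
    obtain ⟨a, ha, e⟩ := h.exists_str (fun j => φ (Equiv.swap (i (x j)) (i (y j)))) (fun j => m _ _ (xy j))
      (fun j l hjl => by rw [c _ _ _ _ (xy j)]; revert j l; decide)
      (fun j l hjl => ⟨by rw [c _ _ _ _ (xy j)]; revert j l; decide,
        ne _ _ _ _ (xy j) (by revert j l; decide) (by revert j l; decide)⟩)
    obtain ⟨b, hb, eb⟩ := m 8 9 (by decide)
    have o : ∀ j, polar Q b (a j) = 0 := fun j => h.endb_orth hb (ha.mem j)
      (by rw [← eb, ← e j]
          exact ((c _ _ _ _ (by decide)).2 (by revert j; decide)).map (GT Q R).subtype)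
      (by rw [← eb, ← e j]
          refine fun e' => ne _ _ _ _ (by decide) ?_ ?_ (Subtype.ext e') <;> clear e' <;> revert j <;> decide)
    have sp := (h.endb_str ha).span_eq_top_of_card_eq_finrank (by simp [h.dim])
    have : Submodule.span F (Set.range a) ≤ LinearMap.ker (polarBilin Q b) :=
      Submodule.span_le.2 (by rintro _ ⟨j, rfl⟩; exact o j)
    rw [sp] at this
    exact h.two ((h.pol_self hb).symm.trans (this (Submodule.mem_top (x := b))))

theorem SL.spT (h : SL Q H P R) {m : ℕ} (h2 : 2 ≤ m) (T : FTHM.SpT (DT Q R) m) : m = 3 := by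
  obtain ⟨p, T⟩ := T
  by_contra hn
  rcases (by omega : m = 2 ∨ 4 ≤ m) with rfl | h4
  · have := h.endb_gen T ![Sum.elim ![0, 0] ![0, 1], Sum.elim ![0, 0] ![1, 0], Sum.elim ![0, 0] ![1, 1],
      Sum.elim ![0, 1] ![0, 0], Sum.elim ![1, 0] ![0, 0]] (by
        intro i; show _ ≠ _; revert i; decide)
      (fun v => [0, 0, 0, 4, 0, 1, 2, 3, 0, 2, 1, 3, 0, 1, 1, 2].getD
        ((v (.inl 0)).val + 2 * (v (.inl 1)).val + 4 * (v (.inr 0)).val + 8 * (v (.inr 1)).val) 0) (fun v hv => by
        obtain ⟨a, b, c, d, rfl⟩ : ∃ a b c d, v = Sum.elim ![a, b] ![c, d] :=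
          ⟨v (.inl 0), v (.inl 1), v (.inr 0), v (.inr 1), by ext (i | i) <;> fin_cases i <;> rfl⟩
        simp only [Forms.spB_eq_sum, Set.mem_setOf_eq] at hv ⊢
        revert a b c d
        decide +kernel)
    omega
  · refine h.endb_comm T (fun k => Sum.elim (fun j => endbC k j) 0) (fun k e => ?_)
      (fun k l e => endbC_inj (m := m) (by omega) fun j => congrFun e (.inl j)) fun k l => ?_
    · simpa [endbC] using congrFun e (.inl ⟨3, h4⟩)
    · simp [Forms.spB_eq_sum]

theorem SL.opT (h : SL Q H P R) {m : ℕ} (h3 : 3 ≤ m) (T : FTHM.OPT (DT Q R) m) : m = 3 := by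
  obtain ⟨p, T⟩ := T
  by_contra hn
  have h4 : 4 ≤ m := by omega
  refine h.endb_comm T (fun k => Sum.elim (fun j => endbC k j) (Pi.single ⟨3, h4⟩ 1)) (fun k => ?_)
    (fun k l e => endbC_inj (m := m) (by omega) fun j => congrFun e (.inl j)) fun k l => ?_
  · show Orth.qPlus m (ZMod 2) _ = 1
    simp [Orth.qPlus_apply, Pi.single_apply, endbC]
  · simp only [polarBilin_apply_apply, Orth.polar_qPlus, Sum.elim_inl, Sum.elim_inr, Pi.single_apply, mul_ite,
      ite_mul, mul_one, one_mul, mul_zero, zero_mul, Finset.sum_add_distrib, Finset.sum_ite_eq', Finset.mem_univ,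
      if_true]
    rfl

theorem SL.omT (h : SL Q H P R) {m : ℕ} (h2 : 2 ≤ m) (T : FTHM.OMT (DT Q R) m) : False := by
  obtain ⟨p, T⟩ := T
  have ap : ∀ v, Orth.qMinus m (1 : ZMod 2) 1 v = (∑ i : Fin m, v (.inl (.inl i)) * v (.inl (.inr i))) +
      (v (.inr 0) ^ 2 + 1 * v (.inr 0) * v (.inr 1) + 1 * v (.inr 1) ^ 2) := fun _ => rfl
  rcases (by omega : m = 2 ∨ 3 ≤ m) with rfl | h3
  · have := h.endb_gen T ![Sum.elim (Sum.elim ![0, 0] ![0, 0]) ![0, 1], Sum.elim (Sum.elim ![0, 0] ![0, 0]) ![1, 0],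
      Sum.elim (Sum.elim ![0, 0] ![0, 1]) ![0, 1], Sum.elim (Sum.elim ![0, 0] ![1, 0]) ![0, 1],
      Sum.elim (Sum.elim ![0, 1] ![0, 0]) ![0, 1], Sum.elim (Sum.elim ![1, 0] ![0, 0]) ![0, 1]] (by
        intro i; rw [Set.mem_setOf_eq, ap]; revert i; decide)
      (fun v => [0, 0, 0, 0, 0, 1, 0, 5, 0, 0, 1, 5, 0, 5, 5, 0, 0, 2, 2, 2, 2, 0, 2, 0, 2, 2, 0, 0, 2, 0, 0, 8,
          0, 0, 0, 4, 0, 0, 4, 0, 0, 4, 0, 0, 4, 0, 0, 6, 1, 1, 1, 3, 1, 0, 3, 0, 1, 3, 0, 0, 3, 0, 0, 7].getD
        ((v (.inl (.inl 0))).val + 2 * (v (.inl (.inl 1))).val + 4 * (v (.inl (.inr 0))).val +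
          8 * (v (.inl (.inr 1))).val + 16 * (v (.inr 0)).val + 32 * (v (.inr 1)).val) 0) (fun v hv => by
        obtain ⟨a, b, c, d, e, f, rfl⟩ : ∃ a b c d e f, v = Sum.elim (Sum.elim ![a, b] ![c, d]) ![e, f] :=
          ⟨v (.inl (.inl 0)), v (.inl (.inl 1)), v (.inl (.inr 0)), v (.inl (.inr 1)), v (.inr 0), v (.inr 1), by
            ext ((i | i) | i) <;> fin_cases i <;> rfl⟩
        simp only [polarBilin_apply_apply, polar, ap, Set.mem_setOf_eq] at hv ⊢
        revert a b c d e f
        decide +kernel)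
    omega
  · refine h.endb_comm T (fun k => Sum.elim (Sum.elim (fun j => endbC k j) 0) ![1, 0]) (fun k => ?_)
      (fun k l e => endbC_inj h3 fun j => congrFun e (.inl (.inl j))) fun k l => ?_
    · rw [Set.mem_setOf_eq, ap]; simp
    · simp [polar, ap]

end CfsgLib.O7
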