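import Cfsg.Agent.Lib.O7.EndA

/-!
ENDC: the two survivors.  See `plans/O7B.md`.
-/

set_option autoImplicit false

namespace CfsgLib.O7

open CfsgLib.OrthE CfsgLib.OMax Module QuadraticMap Subgroup

variable {F V : Type*} [Field F] [Finite F] [AddCommGroup V] [Module F V] [FiniteDimensional F V]
  {Q : QuadraticForm F V} {H P : Subgroup (O Q)} {R : Set V}

theorem endc_str8 (h : RS Q H P R) {a : Fin 8 → V} (ha : Str Q R a) : (3 : F) = 0 := by
  have h1 : ¬ LinearIndependent F a := fun hl => by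
    have := hl.fintype_card_le_finrank
    rw [h.dim, Fintype.card_fin] at this
    omega
  obtain ⟨c, h2, i, hi⟩ := Fintype.not_linearIndependent_iff.1 h1
  have g : ∀ i j : Fin 8, polar Q (a i) (a j) =
      if i = j then 2 else if i.1 + 1 = j.1 ∨ j.1 + 1 = i.1 then -1 else 0 := fun i j => by
    split_ifs with e1 e2
    · rw [e1, h.pol_self (ha.mem j)]
    · rcases e2 with e | e
      exacts [ha.adj i j e, (polar_comm _ _ _).trans (ha.adj j i e)]
    · have : i.1 ≠ j.1 := fun e => e1 (Fin.ext e)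
      rcases (by omega : i.1 + 1 < j.1 ∨ j.1 + 1 < i.1) with e | e
      exacts [ha.far i j e, (polar_comm _ _ _).trans (ha.far j i e)]
  have k : ∀ j, ∑ i, c i * polar Q (a i) (a j) = 0 := fun j => by
    have := congrArg (fun v => polarBilin Q v (a j)) h2
    simpa [map_sum, LinearMap.sum_apply] using this
  have k0 := k 0
  have k1 := k 1
  have k2 := k 2
  have k3 := k 3
  have k4 := k 4
  have k5 := k 5
  have k6 := k 6
  have k7 := k 7
  simp [g, Fin.sum_univ_eight] at k0 k1 k2 k3 k4 k5 k6 k7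
  have e1 : c 1 = 2 * c 0 := by linear_combination -k0
  have e2 : c 2 = 3 * c 0 := by linear_combination -k1 + 2 * e1
  have e3 : c 3 = 4 * c 0 := by linear_combination -k2 + 2 * e2 - e1
  have e4 : c 4 = 5 * c 0 := by linear_combination -k3 + 2 * e3 - e2
  have e5 : c 5 = 6 * c 0 := by linear_combination -k4 + 2 * e4 - e3
  have e6 : c 6 = 7 * c 0 := by linear_combination -k5 + 2 * e5 - e4
  have e7 : c 7 = 8 * c 0 := by linear_combination -k6 + 2 * e6 - e5
  have c0 : c 0 ≠ 0 := fun e => hi (by fin_cases i <;> simp [e, e1, e2, e3, e4, e5, e6, e7])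
  have e9 : (3 : F) * 3 * c 0 = 0 := by linear_combination k7 - 2 * e7 + e6
  exact mul_self_eq_zero.1 ((mul_eq_zero.1 e9).resolve_right c0)

theorem SL.sym9 (h : SL Q H P R) (T : FTHM.SymT (DT Q R) 9) : OutA F P := by
  obtain ⟨e, -⟩ := T.ident closure_DT
  obtain ⟨e'⟩ := h.comm
  obtain ⟨φ, hφ, hD⟩ := T
  have k1 : ∀ i j : Fin 8, i.1 + 1 = j.1 → Equiv.swap i.castSucc i.succ * Equiv.swap j.castSucc j.succ ≠
      Equiv.swap j.castSucc j.succ * Equiv.swap i.castSucc i.succ := by decide +kernel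
  have k2 : ∀ i j : Fin 8, i.1 + 1 < j.1 → Equiv.swap i.castSucc i.succ * Equiv.swap j.castSucc j.succ =
      Equiv.swap j.castSucc j.succ * Equiv.swap i.castSucc i.succ ∧
      Equiv.swap i.castSucc i.succ ≠ Equiv.swap j.castSucc j.succ := by decide +kernel
  obtain ⟨a, ha, -⟩ := h.exists_str (fun i : Fin 8 => φ (Equiv.swap i.castSucc i.succ))
    (fun i => hD ▸ ⟨_, ⟨_, _, i.castSucc_lt_succ.ne, rfl⟩, rfl⟩)
    (fun i j e c => k1 i j e (hφ (by rw [map_mul, map_mul]; exact c)))
    fun i j e => ⟨Commute.map (k2 i j e).1 φ, hφ.ne (k2 i j e).2⟩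
  refine Or.inl ⟨⟨(e'.trans (commutatorCongr e)).trans (MulEquiv.subgroupCongr
    (alternatingGroup.commutator_perm_eq (by simp)))⟩, ?_⟩
  have := Fintype.ofFinite F
  have h1 : ringChar F ∣ 3 := (ringChar.spec F 3).1 (by exact_mod_cast endc_str8 h.toRS ha)
  have h2 : ringChar F ∣ Nat.card F := (ringChar.spec F _).1 (by
    rw [Nat.card_eq_fintype_card]; exact FiniteField.cast_card_eq_zero F)
  have h3 : ringChar F ≠ 1 := CharP.ringChar_ne_one
  rw [← (h.prime.eq_one_or_self_of_dvd _ h2).resolve_left h3]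
  exact (Nat.prime_three.eq_one_or_self_of_dvd _ h1).resolve_left h3

theorem SL.sp3 (h : SL Q H P R) (T : FTHM.SpT (DT Q R) 3) : OutA F P := by
  obtain ⟨e, -⟩ := T.ident (by norm_num) (ThreeTrans.TT.of_group (ThreeTrans.group_of_class h.tt)) closure_DT h.center
  obtain ⟨e'⟩ := h.comm
  exact Or.inr ⟨⟨((e'.trans (commutatorCongr e)).trans ((MulEquiv.subgroupCongr
    (Symp.commutator_eq_top_of_three_le le_rfl)).trans topEquiv)).trans (QuotientGroup.quotientBot.symm.trans
      (QuotientGroup.quotientMulEquivOfEq (Symp.center_eq_bot_of_two_eq_zero (by decide)).symm))⟩, h.prime⟩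

end CfsgLib.O7
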