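import Cfsg.Agent.Lib.O7.EndD

/-!
ENDE: `S₈` and `O₆⁺(2)`.  See `plans/O7B.md`.
-/

set_option autoImplicit false
set_option Elab.async false

namespace CfsgLib.O7

open CfsgLib.OrthE CfsgLib.OMax Module QuadraticMap Subgroup

variable {F V : Type*} [Field F] [Finite F] [AddCommGroup V] [Module F V] [FiniteDimensional F V]
  {Q : QuadraticForm F V} {H P : Subgroup (O Q)} {R : Set V}

theorem SL.ende_gen (h : SL Q H P R) (d : Fin 7 → GT Q R) (hd : ∀ i, d i ∈ DT Q R)
    (h1 : ∀ i j : Fin 7, i.1 + 1 = j.1 → ¬ Commute (d i) (d j))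
    (h2 : ∀ i j : Fin 7, i.1 + 1 < j.1 → Commute (d i) (d j) ∧ d i ≠ d j)
    (hg : DT Q R ⊆ closure (Set.range d)) : False := by
  obtain ⟨a, ha, e⟩ := h.exists_str d hd h1 h2
  have h3 : closure (Set.range d) = ⊤ := top_unique (closure_DT.symm.le.trans ((closure_le _).2 hg))
  have h4 := congrArg (Subgroup.map (GT Q R).subtype) h3
  rw [MonoidHom.map_closure, ← Set.range_comp, ← MonoidHom.range_eq_map, range_subtype] at h4
  refine h.str7 ha (Eq.trans ?_ h4)
  congr 2
  funext i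
  exact (e i).symm

/-- the natural module of `O₆⁺(2)` -/
abbrev EndeV := Fin 3 ⊕ Fin 3 → ZMod 2

def endeQ (x : EndeV) : ZMod 2 := ∑ i, x (.inl i) * x (.inr i)

def endeB (x y : EndeV) : ZMod 2 := ∑ i, (x (.inl i) * y (.inr i) + x (.inr i) * y (.inl i))

/-- a string of type `A₇` -/
def endeA : Fin 7 → EndeV :=
  ![Sum.elim ![0, 0, 1] ![0, 0, 1], Sum.elim ![0, 1, 0] ![0, 1, 1], Sum.elim ![0, 0, 1] ![1, 0, 1],
    Sum.elim ![1, 0, 0] ![1, 0, 0], Sum.elim ![0, 0, 1] ![1, 1, 1], Sum.elim ![0, 1, 0] ![0, 1, 0],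
    Sum.elim ![0, 0, 1] ![0, 1, 1]]

/-- sums of consecutive members -/
def endeS (i : Fin 7) : ℕ → EndeV
  | 0 => endeA i
  | n + 1 => endeS i n + endeA (i + Fin.ofNat 7 (n + 1))

theorem ende_q : ∀ i, endeQ (endeA i) = 1 := by decide +kernel

theorem ende_adj : ∀ i j : Fin 7, i.1 + 1 = j.1 → endeB (endeA i) (endeA j) ≠ 0 := by decide +kernel

theorem ende_far : ∀ i j : Fin 7, i.1 + 1 < j.1 → endeB (endeA i) (endeA j) = 0 ∧ endeA i ≠ endeA j := by
  decide +kernel

theorem ende_step : ∀ i n : Fin 7, i.1 + n.1 + 1 < 7 → endeQ (endeS i n) = 1 ∧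
    endeB (endeA (i + Fin.ofNat 7 (n + 1))) (endeS i n) = 1 := by decide +kernel

theorem ende_all : ∀ w : EndeV, endeQ w = 1 → ∃ i n : Fin 7, i.1 + n.1 < 7 ∧ w = endeS i n := by
  decide +kernel

theorem SL.sym8 (h : SL Q H P R) (T : FTHM.SymT (DT Q R) 8) : False := by
  obtain ⟨φ, hφ, hE⟩ := T
  have ne : ∀ i : Fin 7, i.castSucc ≠ i.succ := fun i => i.castSucc_lt_succ.ne
  refine h.ende_gen (fun i => φ (Equiv.swap i.castSucc i.succ))
    (fun i => hE ▸ ⟨_, ⟨_, _, ne i, rfl⟩, rfl⟩) (fun i j hij c => ?_) (fun i j hij => ?_) ?_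
  · have t : ∀ i j : Fin 7, i.1 + 1 = j.1 →
        Equiv.swap i.castSucc i.succ * Equiv.swap j.castSucc j.succ ≠
          Equiv.swap j.castSucc j.succ * Equiv.swap i.castSucc i.succ := by decide +kernel
    exact t i j hij (Commute.of_map hφ c).eq
  · have t : ∀ i j : Fin 7, i.1 + 1 < j.1 →
        Equiv.swap i.castSucc i.succ * Equiv.swap j.castSucc j.succ =
          Equiv.swap j.castSucc j.succ * Equiv.swap i.castSucc i.succ ∧
        Equiv.swap i.castSucc i.succ ≠ Equiv.swap j.castSucc j.succ := by decide +kernel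
    exact ⟨Commute.map (t i j hij).1 φ, fun e => (t i j hij).2 (hφ e)⟩
  · rw [hE]
    rintro _ ⟨σ, -, rfl⟩
    have m : σ ∈ closure (Set.range fun i : Fin 7 => Equiv.swap i.castSucc i.succ) := by
      rw [closure_eq_top_of_mclosure_eq_top (Equiv.Perm.mclosure_swap_castSucc_succ 7)]
      exact mem_top σ
    have := mem_map_of_mem φ m
    rwa [MonoidHom.map_closure, ← Set.range_comp] at this

theorem SL.op3 (h : SL Q H P R) (T : FTHM.OPT (DT Q R) 3) : False := by
  obtain ⟨p, T⟩ := T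
  have hB : ∀ x y : EndeV, polarBilin (Orth.qPlus 3 (ZMod 2)) x y = endeB x y := fun x y =>
    Orth.polar_qPlus 3 x y
  have hA : ∀ i, endeA i ∈ {v | Orth.qPlus 3 (ZMod 2) v = 1} := ende_q
  refine h.ende_gen (fun i => p (endeA i)) (fun i => T.mem _ (hA i)) (fun i j hij c => ?_)
    (fun i j hij => ?_) ?_
  · exact ende_adj i j hij (hB _ _ ▸ (T.comm _ (hA i) _ (hA j)).1 c)
  · exact ⟨(T.comm _ (hA i) _ (hA j)).2 ((hB _ _).trans (ende_far i j hij).1),
      fun e => (ende_far i j hij).2 (T.inj (hA i) (hA j) e)⟩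
  · have g : ∀ i, p (endeA i) ∈ closure (Set.range fun i => p (endeA i)) := fun i =>
      subset_closure ⟨i, rfl⟩
    have key : ∀ (i : Fin 7) (n : ℕ), i.1 + n < 7 →
        p (endeS i n) ∈ closure (Set.range fun i => p (endeA i)) := by
      intro i n
      induction n with
      | zero => exact fun _ => g i
      | succ n ih =>
        intro hn
        obtain ⟨e1, e2⟩ := ende_step i ⟨n, by omega⟩ hn
        have e3 := T.conj _ (hA (i + Fin.ofNat 7 (n + 1))) (endeS i n) e1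
        rw [hB, e2, one_smul] at e3
        rw [endeS, ← e3]
        exact mul_mem (mul_mem (g _) (ih (by omega))) (g _)
    intro x hx
    obtain ⟨w, hw, rfl⟩ := T.surj x hx
    obtain ⟨i, n, hn, rfl⟩ := ende_all w hw
    exact key i n hn

end CfsgLib.O7
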