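import Cfsg.Agent.Lib.O7.Grow

/-!
GROW3: over `F₃` the reflections are of symplectic type.  See `plans/O7B.md`.
-/

set_option autoImplicit false

namespace CfsgLib.O7

open CfsgLib.OrthE CfsgLib.OMax Module QuadraticMap Subgroup

variable {F V : Type*} [Field F] [Finite F] [AddCommGroup V] [Module F V] [FiniteDimensional F V]
  {Q : QuadraticForm F V} {H P : Subgroup (O Q)} {R : Set V}

section full

variable {N : Subgroup (O Q)} {Z : Submodule F V}

omit [Finite F] [FiniteDimensional F V]

theorem grow3_eich_mem {x c v : V} (hx : x ∈ Z) (hc : c ∈ Z) (h1 : Q x = 0) (h2 : polar Q x c = 0)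
    (hv : v ∈ Z) : (eich Q x c).1 v ∈ Z := by
  rw [eich_ap h1 h2]
  exact Z.sub_mem (Z.add_mem hv (Z.smul_mem _ hx)) (Z.smul_mem _ hc)

theorem grow3_conj {x c w : V} (hx : x ∈ Z) (hc : c ∈ Z) (h : EA N x c)
    (hw : ∀ a ∈ Z, polar Q w a = 0 → EA N w a) :
    ∀ a ∈ Z, polar Q ((eich Q x c).1 w) a = 0 → EA N ((eich Q x c).1 w) a := fun a ha h0 => by
  have := (hw ((eich Q x c)⁻¹.1 a) (by
    rw [← eich_neg]; exact grow3_eich_mem hx (Z.neg_mem hc) h.sing h.neg.orth ha)
    (by rwa [O_polar_left] at h0)).conj h.mem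
  rwa [O_apply_inv_apply] at this

/-- moving a full centre by means of another one -/
theorem grow3_move {x w w' : V} (hx : x ∈ Z) (hw : w ∈ Z) (hw' : w' ∈ Z) (s : Q w = 0)
    (s' : Q w' = 0) (n : polar Q x w ≠ 0) (n' : polar Q x w' ≠ 0)
    (h1 : ∀ a ∈ Z, polar Q x a = 0 → EA N x a) (h2 : ∀ a ∈ Z, polar Q w a = 0 → EA N w a) :
    ∀ a ∈ Z, polar Q w' a = 0 → EA N w' a := by
  have hc : (polar Q x w)⁻¹ • w - (polar Q x w')⁻¹ • w' ∈ Z := Z.sub_mem (Z.smul_mem _ hw) (Z.smul_mem _ hw')
  have e := h1 _ hc (by simp [n, n'])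
  have k : (eich Q x ((polar Q x w)⁻¹ • w - (polar Q x w')⁻¹ • w')).1 w =
      (polar Q x w / polar Q x w') • w' := by
    rw [eich_ap e.sing e.orth]
    simp only [Q_sub, Q_smul, s, s', polar_sub_left, polar_smul_left, polar_smul_right, pself s,
      polar_comm Q w' w, smul_eq_mul]
    match_scalars <;> field_simp <;> ring
  have := grow3_conj hx hc e h2
  rw [k] at this
  intro a ha h0
  have t := div_ne_zero n n'
  exact ((this ((polar Q x w / polar Q x w')⁻¹ • a) (Z.smul_mem _ ha) (by simp [h0])).of_smul_left t).congr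
    (smul_inv_smul₀ t a)

end full

/-- two opposite full centres inside `Z` -/
theorem ein_of_two (hQ : Nondeg Q) {N : Subgroup (O Q)} {Z : Submodule F V} (hZ : ND Q Z)
    (h3 : 3 ≤ finrank F Z) {x y : V} (hx : x ∈ Z) (hy : y ∈ Z) (hxy : polar Q x y ≠ 0)
    (hxs : Q x = 0) (hys : Q y = 0) (h1 : ∀ a ∈ Z, polar Q x a = 0 → EA N x a)
    (h2 : ∀ a ∈ Z, polar Q y a = 0 → EA N y a) : EIn N Z := by
  intro w hw hws
  have hyx : polar Q y x ≠ 0 := by rwa [polar_comm]
  by_cases n1 : polar Q x w = 0
  swap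
  · exact grow3_move hx hy hw hys hws hxy n1 h1 h2
  by_cases n2 : polar Q y w = 0
  swap
  · exact grow3_move hy hx hw hxs hws hyx n2 h2 h1
  by_cases w0 : w = 0
  · exact fun a _ h => ⟨hws, h, by rw [w0, eich_zero_left]; exact N.one_mem⟩
  obtain ⟨v, hv, e⟩ := exists_polar_eq hZ hw w0 1
  have hc : v - (polar Q x v / polar Q x y) • y ∈ Z := Z.sub_mem hv (Z.smul_mem _ hy)
  have k := h1 _ hc (by simp [hxy])
  refine grow3_move (grow3_eich_mem hx hc hxs k.orth hy) hx hw hxs hws ?_ ?_ (grow3_conj hx hc k h2) h1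
  · rwa [O_polar_left, O_inv_apply_eq _ (eich_apply_self _ _)]
  · rw [eich_ap hxs k.orth]
    simp [n1, n2, polar_comm Q v w, e, hxy]

theorem grow3_cases (h3 : Nat.card F = 3) (t : F) : t = 0 ∨ t = 1 ∨ t = -1 := by
  have := Fintype.ofFinite F
  have e := FiniteField.pow_card t
  rw [← Nat.card_eq_fintype_card, h3] at e
  have : t * ((t - 1) * (t + 1)) = 0 := by linear_combination e
  simpa only [mul_eq_zero, sub_eq_zero, add_eq_zero_iff_eq_neg] using this

theorem grow3_three (h3 : Nat.card F = 3) : (3 : F) = 0 := by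
  have := Fintype.ofFinite F
  have e := FiniteField.cast_card_eq_zero F
  rwa [← Nat.card_eq_fintype_card, h3] at e

theorem RS.grow3_root (h : RS Q H P R) {z : V} (hz : z ≠ 0) : ∃ x ∈ R, polar Q z x ≠ 0 := by
  by_contra n
  push Not at n
  refine hz (h.nd z fun y => pc ?_)
  have : z ∈ perp Q (Submodule.span F R) := mem_perp_span.2 fun w hw => pc (n w hw)
  exact mem_perp.1 this y (h.span_eq ▸ Submodule.mem_top)

/-- a root with a two-dimensional root group -/
theorem RS.grow3_key (h : RS Q H P R) (h3 : Nat.card F = 3) {a z m : V} (ha : a ∈ R) (sz : Q z = 0)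
    (sm : Q m = 0) (az : polar Q a z = 0) (am : polar Q a m = 0) (zm : polar Q z m = 0)
    (e1 : a + z ∈ R) (e2 : a + m ∈ R) (z0 : z ≠ 0) (hm : m ∉ Submodule.span F {z}) : False := by
  have Ea : EA (RG Q R) z a := h.ea ha sz (pc az) e1
  have Em : EA (RG Q R) z m := by
    have := h.ea e2 sz (by simp [pc az, zm])
      (by rw [add_assoc]; exact (h.root_add ha sm sz am az (pc zm) e2 e1).1)
    simpa using this.sub Ea
  have sc : ∀ {u v : V} (t : F), EA (RG Q R) u v → EA (RG Q R) u (t • v) := fun t e => by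
    rcases grow3_cases h3 t with rfl | rfl | rfl
    exacts [by simpa using EA.zero e.sing, by simpa using e, by simpa using e.neg]
  obtain ⟨x, hx, zx⟩ := h.grow3_root z0
  set y := (refl Q x).1 z with hy
  have sy : Q y = 0 := by rw [hy, O_map, sz]
  have zy : polar Q z y = -1 := by
    rw [hy, h.refl_ap hx]
    rcases grow3_cases h3 (polar Q z x) with e | e | e
    · exact absurd e zx
    all_goals simp [pself sz, e]
  have yz : polar Q y z = -1 := by rwa [polar_comm]
  have tr : ∀ b, EA (RG Q R) z b → polar Q y b = 0 → EA (RG Q R) y b := fun b e n => by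
    have k : polar Q b x = 0 := by
      rw [hy, h.refl_ap hx] at n
      simpa [e.orth, zx, polar_comm Q x b] using n
    have := e.conj (h.rc hx).2
    rwa [refl_apply_of_orth k] at this
  let Z : Submodule F V :=
    { carrier := {v | EA (RG Q R) z (v + polar Q z v • y)}
      add_mem' := fun {u v} hu hv => (EA.add hu hv).congr (by rw [polar_add_right]; module)
      zero_mem' := by simpa using EA.zero sz
      smul_mem' := fun t v hv => (sc t hv).congr (by rw [polar_smul_right, smul_eq_mul]; module) }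
  have mZ : ∀ {v}, v ∈ Z ↔ EA (RG Q R) z (v + polar Q z v • y) := Iff.rfl
  have mA : ∀ {v}, EA (RG Q R) z v → v ∈ Z := fun e => mZ.2 (by simpa [e.orth] using e)
  have f1 : ∀ v ∈ Z, polar Q z v = 0 → EA (RG Q R) z v := fun v hv n => by simpa [n] using mZ.1 hv
  have f2 : ∀ v ∈ Z, polar Q y v = 0 → EA (RG Q R) y v := fun v hv n => by
    simpa using (tr _ (mZ.1 hv) (by simp [n, pself sy])).sub_self (polar Q z v)
  have zZ : z ∈ Z := mA (by simpa using EA.self sz 1)
  have yZ : y ∈ Z := mZ.2 (by simpa [zy] using EA.zero sz)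
  have nd : ND Q Z := nd_iff.2 fun r hr n => by
    by_contra r0
    obtain ⟨u, hu, ru⟩ := h.grow3_root r0
    have sr : Q r = 0 := by simpa [polar_self', h.two] using n r hr
    have zr := pc (n z zZ)
    have yr := pc (n y yZ)
    have E1 := sc (polar Q z u / polar Q r u) (f2 r hr yr)
    have E2 := f1 r hr zr
    have m1 := h.rg_inv E1.mem hu
    set u' := (eich Q y ((polar Q z u / polar Q r u) • r)).1 u with hu'
    rw [eich_ap sy E1.orth] at hu'
    have zu : polar Q z u' = 0 := by rw [hu']; simp [Q_smul, sr, zy, zr, ru]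
    have ru' : polar Q r u' = polar Q r u := by rw [hu']; simp [pc yr, pself sr]
    have m2 := h.rg_inv E2.mem m1
    rw [eich_ap sz zr, zu, ru', mul_zero, sub_zero, zero_smul, sub_zero] at m2
    have E3 := (h.ea m1 (by simp [Q_smul, sz]) (by simp [zu]) m2).of_smul_left ru
    have := n _ (mA E3)
    rw [polar_smul_right, ru', smul_eq_mul] at this
    exact mul_ne_zero ru ru this
  obtain ⟨d, hd, dm, dz⟩ := exists_dual_mem h.nd nd ((Submodule.span_singleton_le_iff_mem _ _).2 zZ) (mA Em) hm
  have dz := dz z (Submodule.mem_span_singleton_self z)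
  have li : LinearIndependent F ![z, m, a, y, d] := Fintype.linearIndependent_iff.2 fun c e => by
    simp only [Fin.sum_univ_five, Matrix.cons_val_zero, Matrix.cons_val_one, Matrix.cons_val] at e
    have k := fun v => congrArg (polar Q v) e
    simp only [polar_add_right, polar_smul_right, polar_zero_right, smul_eq_mul] at k
    have c3 : c 3 = 0 := by simpa [pself sz, zm, pc az, zy, pc dz] using k z
    have c4 : c 4 = 0 := by simpa [pself sm, pc zm, pc am, c3, polar_comm Q m d, dm] using k m
    have c2 : c 2 = 0 := by simpa [az, am, c3, c4, h.pol_self ha, h.two] using k a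
    have c1 : c 1 = 0 := by simpa [dz, dm, c2, c3, c4] using k d
    have c0 : c 0 = 0 := by simpa [c1, c2, c3, c4, z0] using e
    intro i
    fin_cases i <;> assumption
  have h5 : 5 ≤ finrank F Z := by
    have := Submodule.finrank_mono (show Submodule.span F (Set.range ![z, m, a, y, d]) ≤ Z from
      Submodule.span_le.2 (by
        rintro _ ⟨i, rfl⟩
        fin_cases i
        exacts [zZ, mA Em, mA Ea, yZ, hd]))
    rwa [finrank_span_eq_card li, Fintype.card_fin] at this
  exact h.grow5 nd h5 (ein_of_two h.nd nd (by omega) zZ yZ (by simp [zy]) sz sy f1 f2)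

omit [Finite F] [FiniteDimensional F V] in
theorem NC.grow3_neg {u v : V} (h : NC Q u v) : NC Q u (-v) ∧ NC Q (-u) v :=
  ⟨⟨⟨fun e => h.1.2 (neg_eq_iff_eq_neg.1 e), fun e => h.1.1 (neg_injective e)⟩, by simpa using h.2⟩,
    ⟨h.1.2, by simpa using h.1.1⟩, by simpa using h.2⟩

theorem RS.grow3 (h : RS Q H P R) (h3 : Nat.card F = 3) : SymR Q R := by
  have t3 := grow3_three h3
  have key : ∀ a ∈ R, ∀ b ∈ R, ∀ c ∈ R, polar Q a b = -1 → polar Q a c = -1 → NC Q a b → NC Q c a →
      NC Q c b → ¬ NC Q c ((refl Q a).1 b) := fun a ha b hb c hc ab ac n1 n2 n3 n4 => by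
    have aa := h.pol_self ha
    have e : (refl Q a).1 b = b + a := by rw [h.refl_ap ha, polar_comm, ab]; module
    rw [e] at n4
    have cb : polar Q c b = -1 := by
      rcases grow3_cases h3 (polar Q c b) with e | e | e
      · exact absurd e n3.2
      · exact absurd (by simp [e, polar_comm Q c a, ac]) n4.2
      · exact e
    refine h.grow3_key h3 (z := b - a) (m := c - a) ha ?_ ?_ ?_ ?_ ?_ (by simpa using hb) (by simpa using hc)
      (sub_ne_zero.2 n1.1.1) fun hm => ?_
    · rw [Q_sub, h.one a ha, h.one b hb, polar_comm, ab]; linear_combination t3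
    · rw [Q_sub, h.one a ha, h.one c hc, polar_comm, ac]; linear_combination t3
    · rw [polar_sub_right, ab, aa]; linear_combination -t3
    · rw [polar_sub_right, ac, aa]; linear_combination -t3
    · simp only [polar_sub_left, polar_sub_right, polar_comm Q b c, polar_comm Q b a, cb, ab, ac, aa]
      linear_combination t3
    · obtain ⟨t, e⟩ := Submodule.mem_span_singleton.1 hm
      rcases grow3_cases h3 t with rfl | rfl | rfl
      · exact n2.1.1 (by linear_combination (norm := module) e)
      · exact n3.1.1 (by linear_combination (norm := module) e)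
      · refine n4.1.2 ?_
        have : (3 : F) • a = 0 := by rw [t3, zero_smul]
        linear_combination (norm := module) this - e
  have key' : ∀ a ∈ R, ∀ b ∈ R, ∀ c ∈ R, polar Q a b = -1 → NC Q a b → NC Q c a →
      NC Q c b → ¬ NC Q c ((refl Q a).1 b) := fun a ha b hb c hc ab n1 n2 n3 n4 => by
    rcases grow3_cases h3 (polar Q a c) with e | e | e
    · exact n2.2 (pc e)
    · exact key a ha b hb _ (h.neg c hc) ab (by simp [e]) n1 n2.grow3_neg.2 n3.grow3_neg.2 n4.grow3_neg.2
    · exact key a ha b hb c hc ab e n1 n2 n3 n4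
  intro a ha b hb c hc n1 n2 n3 n4
  rcases grow3_cases h3 (polar Q a b) with e | e | e
  · exact n1.2 e
  · exact key' a ha _ (h.neg b hb) c hc (by simp [e]) n1.grow3_neg.1 n2 n3.grow3_neg.1
      (by rw [map_neg]; exact n4.grow3_neg.1)
  · exact key' a ha b hb c hc e n1 n2 n3 n4

end CfsgLib.O7
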