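import Cfsg.Agent.Lib.O7.DefsA

/-!
HK, computation: a golden pair extends to `H₃` and `H₄`, and `H₄` does not extend.
Inner products are written as pairs `(a, b) = a + b τ`, `τ² = τ + 1`.
-/

set_option autoImplicit false
set_option Elab.async false
set_option maxRecDepth 100000

namespace CfsgLib.O7.HK

open CfsgLib.OrthE CfsgLib.OMax Module QuadraticMap

abbrev Z : Type := ℤ × ℤ

def zm (x y : Z) : Z := (x.1 * y.1 + x.2 * y.2, x.1 * y.2 + x.2 * y.1 + x.2 * y.2)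

def zs (x y : Z) : Z := (x.1 - y.1, x.2 - y.2)

/-- the norm only involves the primes two and five -/
def nz (x : Z) : Bool := Nat.beq (100000000 % (x.1 * x.1 + x.1 * x.2 - x.2 * x.2).natAbs) 0

def valL : List Z := [(0, 0), (1, 0), (-1, 0), (0, 1), (0, -1), (-1, 1), (1, -1)]

def sb (t : Z) : List Z → List Z → List Z
  | a :: d, b :: c => zs a (zm t b) :: sb t d c
  | d, _ => d

/-- the effect of the `i`-th reflection on the list of inner products -/
def st (G : List (List Z)) (i : ℕ) (φ : List Z) : List Z := sb (φ.getD i (0, 0)) φ (G.getD i [])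

def five (a b : Z) : Bool :=
  nz a && nz b && nz (zs b (zm (0, -1) a)) && nz (zs a (zm (0, -1) b)) && nz (zs a (zm (-1, 0) b))

def bad (k : ℕ) (φ : List Z) : Bool :=
  φ.any (fun z => valL.all fun v => nz (zs z v)) || five (φ.getD k (0, 0)) (φ.getD (k + 1) (0, 0))

def scan (G : List (List Z)) (k : ℕ) (reps : List (List Z)) : List ℕ → List Z → Bool
  | [], φ => bad k φ || decide (φ ∈ reps)
  | i :: w, φ => bad k φ || decide (φ ∈ reps) || scan G k reps w (st G i φ)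

def act (G : List (List Z)) : List ℕ → List Z → List Z
  | [], φ => φ
  | i :: w, φ => act G w (st G i φ)

def ext (φ : List Z) (G : List (List Z)) : List (List Z) := ((2, 0) :: φ) :: List.zipWith List.cons φ G

def G2 : List (List Z) := [[(2, 0), (0, -1)], [(0, -1), (2, 0)]]
def s2 : List Z := [(0, 0), (-1, 0)]
def s3 : List Z := [(-1, 0), (0, 0), (0, 0)]
def r2 : List (List Z) := [[(0, 0), (0, 0)], [(0, 0), (-1, 0)], [(0, 0), (1, -1)], [(0, 0), (1, 0)],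
  [(0, 0), (-1, 1)]]
def r3 : List (List Z) := [[(0, 0), (0, 0), (0, 0)], [(-1, 0), (0, 0), (0, 0)], [(1, -1), (0, 0), (0, 0)],
  [(0, 0), (1, -1), (0, 0)]]
def G3 : List (List Z) := [[(2, 0), (0, 0), (-1, 0)], [(0, 0), (2, 0), (0, -1)], [(-1, 0), (0, -1), (2, 0)]]
def G4 : List (List Z) := [[(2, 0), (-1, 0), (0, 0), (0, 0)], [(-1, 0), (2, 0), (0, 0), (-1, 0)],
  [(0, 0), (0, 0), (2, 0), (0, -1)], [(0, 0), (-1, 0), (0, -1), (2, 0)]]

theorem chk2 : ∀ ψ ∈ valL.map fun z => [z], ∀ z ∈ valL, scan G2 0 r2 [1, 0, 1, 0, 1, 0, 1] (z :: ψ) = true := by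
  decide +kernel

theorem chk3 : ∀ ψ ∈ r2, ∀ z ∈ valL, scan G3 1 r3 [0, 2, 0, 1, 2, 0, 2, 1, 2, 1, 2, 0, 1, 2, 1, 2, 0, 2, 1, 2, 1,
    0, 2, 1] (z :: ψ) = true := by
  decide +kernel

theorem chk4 : ∀ ψ ∈ r3, ∀ z ∈ valL, scan G4 2 [[(0, 0), (0, 0), (0, 0), (0, 0)]] [0, 1, 3, 0, 1, 2, 3, 1, 0, 2,
    3, 1, 2, 3, 1, 0, 1, 2, 3, 1, 0, 2, 3, 1, 0, 2, 3, 1, 2, 3, 1, 2, 3, 1, 0, 2, 3, 1] (z :: ψ) = true := by
  decide +kernel

theorem wd2 : ∀ ψ ∈ r2, (∀ z ∈ ψ, z = (0, 0)) ∨ ∃ w ∈ [[], [2, 0, 2, 1, 2], [0], [0, 2, 0, 2, 1, 2]],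
    (act (ext ψ G2) w ((2, 0) :: ψ)).tail = s2 := by decide +kernel

theorem wd3 : ∀ ψ ∈ r3, (∀ z ∈ ψ, z = (0, 0)) ∨ ∃ w ∈ [[], [1, 0, 1, 3, 1, 0, 2, 3, 1], [0, 2, 0, 3, 1]],
    (act (ext ψ G3) w ((2, 0) :: ψ)).tail = s3 := by
  decide +kernel

variable {F V : Type*} [Field F] [AddCommGroup V] [Module F V] {Q : QuadraticForm F V} {R : Set V} {τ : F}

def ev (τ : F) (x : Z) : F := x.1 + x.2 * τ

theorem ev_zs (x y : Z) : ev τ (zs x y) = ev τ x - ev τ y := by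
  simp only [ev, zs]; push_cast; ring

theorem ev_zm (h : τ * τ = τ + 1) (x y : Z) : ev τ (zm x y) = ev τ x * ev τ y := by
  simp only [ev, zm]; push_cast; linear_combination (-(x.2 : F) * y.2) * h

/-- the inner products of `x` with the vectors of `α` -/
def Has (Q : QuadraticForm F V) (τ : F) (x : V) (α : List V) (φ : List Z) : Prop :=
  List.Forall₂ (fun v a => polar Q x v = ev τ a) α φ

/-- the Gram matrix -/
def Gr (Q : QuadraticForm F V) (τ : F) (α : List V) (G : List (List Z)) : Prop :=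
  List.Forall₂ (fun v g => Has Q τ v α g) α G

/-- a root neither in `U` nor orthogonal to it -/
def Out (Q : QuadraticForm F V) (R : Set V) (U : Submodule F V) (x : V) : Prop :=
  x ∈ R ∧ x ∉ U ∧ ∃ v ∈ U, polar Q x v ≠ 0

structure Ctx (Q : QuadraticForm F V) (R : Set V) (τ : F) : Prop where
  tau : τ * τ = τ + 1
  two : (2 : F) ≠ 0
  fv : (5 : F) ≠ 0
  self : ∀ u ∈ R, polar Q u u = 2
  ref : ∀ u ∈ R, ∀ w ∈ R, w - polar Q w u • u ∈ R
  val : ∀ u ∈ R, ∀ x ∈ R, Df x u → ∃ z ∈ valL, polar Q x u = ev τ z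
  five : ∀ u ∈ R, ∀ v ∈ R, ∀ x ∈ R, polar Q u v = -τ → x ∉ Submodule.span F {u, v} →
    polar Q x u = 0 ∨ polar Q x v = 0 ∨ polar Q x v + τ * polar Q x u = 0 ∨
      polar Q x u + τ * polar Q x v = 0 ∨ polar Q x u + polar Q x v = 0
  out : ∀ α : List V, α ≠ [] → (∀ v ∈ α, v ∈ R) → α.length ≤ 4 →
    ∃ x, Out Q R (Submodule.span F {v | v ∈ α}) x

/-- the inner products of the roots outside a subspace, up to reflections -/
def Cl (Q : QuadraticForm F V) (R : Set V) (τ : F) (α : List V) (reps : List (List Z)) : Prop :=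
  ∀ U : Submodule F V, (∀ v ∈ α, v ∈ U) → ∀ x, Out Q R U x → ∃ ψ ∈ reps, ∃ y, Out Q R U y ∧ Has Q τ y α ψ

theorem f2_getD {A B : Type*} {P : A → B → Prop} {α : List A} {β : List B} (h : List.Forall₂ P α β)
    (a : A) (b : B) : ∀ i < α.length, P (α.getD i a) (β.getD i b) := by
  induction h with
  | nil => intro i hi; simp at hi
  | cons h _ ih =>
    rintro (_ | i) hi
    · exact h
    · exact ih i (by simpa using hi)

theorem f2_mem {A B : Type*} {P : A → B → Prop} {α : List A} {β : List B} (h : List.Forall₂ P α β) :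
    (∀ b ∈ β, ∃ a ∈ α, P a b) ∧ ∀ a ∈ α, ∃ b ∈ β, P a b := by
  induction h with
  | nil => simp
  | cons h _ ih =>
    refine ⟨fun b hb => ?_, fun a ha => ?_⟩
    · rcases List.mem_cons.1 hb with rfl | hb
      · exact ⟨_, List.mem_cons_self, h⟩
      · obtain ⟨a, ha, e⟩ := ih.1 b hb
        exact ⟨a, List.mem_cons_of_mem _ ha, e⟩
    · rcases List.mem_cons.1 ha with rfl | ha
      · exact ⟨_, List.mem_cons_self, h⟩
      · obtain ⟨b, hb, e⟩ := ih.2 a ha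
        exact ⟨b, List.mem_cons_of_mem _ hb, e⟩

theorem has_sb (h : τ * τ = τ + 1) {x u : V} {α : List V} {φ : List Z} (t : Z) (hx : Has Q τ x α φ) :
    ∀ {g : List Z}, Has Q τ u α g → Has Q τ (x - ev τ t • u) α (sb t φ g) := by
  induction hx with
  | nil => intro g hg; cases hg; exact List.Forall₂.nil
  | cons h1 _ ih =>
    intro g hg
    cases hg with
    | cons h2 hg =>
      refine List.Forall₂.cons ?_ (ih hg)
      rw [polar_sub_left, polar_smul_left, h1, h2, ev_zs, ev_zm h, smul_eq_mul]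

theorem gr_aux {x : V} {α β : List V} {φ : List Z} (hx : Has Q τ x β φ) : ∀ {G : List (List Z)},
    List.Forall₂ (fun v g => Has Q τ v α g) β G →
      List.Forall₂ (fun v g => Has Q τ v (x :: α) g) β (List.zipWith List.cons φ G) := by
  induction hx with
  | nil => intro G hG; cases hG; exact List.Forall₂.nil
  | cons h1 _ ih =>
    intro G hG
    cases hG with
    | cons h2 hG => exact List.Forall₂.cons (List.Forall₂.cons (by rw [polar_comm, h1]) h2) (ih hG)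

namespace Ctx

variable (c : Ctx Q R τ) {α : List V} {G : List (List Z)} {φ : List Z} {x : V}
include c

theorem nz_ne {z : Z} (h : nz z = true) : ev τ z ≠ 0 := fun e => by
  have h1 : ((z.1 * z.1 + z.1 * z.2 - z.2 * z.2 : ℤ) : F) = 0 := by
    have : ((z.1 * z.1 + z.1 * z.2 - z.2 * z.2 : ℤ) : F) = ev τ z * (z.1 + z.2 - z.2 * τ) := by
      simp only [ev]; push_cast; linear_combination ((z.2 : F) * z.2) * c.tau
    rw [this, e, zero_mul]
  obtain ⟨m, hm⟩ := Int.natAbs_dvd.1 (Int.natCast_dvd_natCast.2 (Nat.dvd_of_mod_eq_zero (Nat.eq_of_beq_eq_true h)))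
  have h2 := congrArg (Int.cast (R := F)) hm
  rw [Int.cast_mul, h1, zero_mul] at h2
  have h3 : (2 : F) ^ 8 * 5 ^ 8 = 0 := by rw [← h2]; push_cast; norm_num
  exact mul_ne_zero (pow_ne_zero _ c.two) (pow_ne_zero _ c.fv) h3

theorem has_cons (hx : x ∈ R) (h : Has Q τ x α φ) : Has Q τ x (x :: α) ((2, 0) :: φ) :=
  List.Forall₂.cons (by rw [c.self x hx]; simp [ev]) h

theorem gr_cons (hG : Gr Q τ α G) (hx : x ∈ R) (h : Has Q τ x α φ) : Gr Q τ (x :: α) (ext φ G) :=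
  List.Forall₂.cons (c.has_cons hx h) (gr_aux h hG)

theorem step (hR : ∀ v ∈ α, v ∈ R) (hG : Gr Q τ α G) (hx : x ∈ R) (h : Has Q τ x α φ) (i : ℕ) :
    ∃ y ∈ R, Has Q τ y α (st G i φ) ∧ ∀ U : Submodule F V, (∀ v ∈ α, v ∈ U) → Out Q R U x → Out Q R U y := by
  by_cases hi : i < α.length
  · have hm : α.getD i 0 ∈ α := by rw [List.getD_eq_getElem _ _ hi]; exact List.getElem_mem _
    have e := f2_getD h 0 (0, 0) i hi
    have hy := c.ref _ (hR _ hm) x hx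
    refine ⟨x - ev τ (φ.getD i (0, 0)) • α.getD i 0, e ▸ hy, has_sb c.tau _ h (f2_getD hG 0 [] i hi), ?_⟩
    rintro U hU ⟨-, h1, v, hv, h2⟩
    rw [← e]
    refine ⟨hy, fun e' => h1 (by simpa using add_mem e' (U.smul_mem (polar Q x (α.getD i 0)) (hU _ hm))), ?_⟩
    by_cases h0 : polar Q x (α.getD i 0) = 0
    · exact ⟨v, hv, by rwa [h0, zero_smul, sub_zero]⟩
    · refine ⟨_, hU _ hm, fun e' => h0 ?_⟩
      rw [polar_sub_left, polar_smul_left, c.self _ (hR _ hm), smul_eq_mul] at e'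
      linear_combination -e'
  · refine ⟨x, hx, ?_, fun _ _ h => h⟩
    rw [st, List.getD_eq_default G _ (by rw [← hG.length_eq]; omega)]
    cases φ <;> exact h

theorem act_ex (hR : ∀ v ∈ α, v ∈ R) (hG : Gr Q τ α G) : ∀ (w : List ℕ) {x : V} {φ : List Z}, x ∈ R →
    Has Q τ x α φ → ∃ y ∈ R, Has Q τ y α (act G w φ)
  | [], x, _, hx, h => ⟨x, hx, h⟩
  | i :: w, _, _, hx, h => by
    obtain ⟨y, hy, h', -⟩ := c.step hR hG hx h i
    exact act_ex hR hG w hy h'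

theorem val' {U : Submodule F V} (hx : Out Q R U x) {v : V} (hR : v ∈ R) (hv : v ∈ U) :
    ∃ z ∈ valL, polar Q x v = ev τ z :=
  c.val v hR x hx.1 ⟨fun e => hx.2.1 (e ▸ hv), fun e => hx.2.1 (by rw [← neg_mem_iff, ← e]; exact hv)⟩

theorem not_bad (hR : ∀ v ∈ α, v ∈ R) {k : ℕ} (hk : k + 1 < α.length)
    (hτ : polar Q (α.getD k 0) (α.getD (k + 1) 0) = -τ) {U : Submodule F V} (hU : ∀ v ∈ α, v ∈ U)
    (hx : Out Q R U x) (h : Has Q τ x α φ) : bad k φ ≠ true := fun hb => by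
  rcases Bool.or_eq_true_iff.1 hb with hb | hb
  · obtain ⟨z, hz, hb⟩ := List.any_eq_true.1 hb
    obtain ⟨v, hv, e⟩ := (f2_mem h).1 z hz
    obtain ⟨y, hy, e'⟩ := c.val' hx (hR v hv) (hU v hv)
    exact c.nz_ne (List.all_eq_true.1 hb y hy) (by rw [ev_zs, ← e, e', sub_self])
  · have hm : ∀ i < α.length, α.getD i 0 ∈ α := fun i hi => by
      rw [List.getD_eq_getElem _ _ hi]; exact List.getElem_mem _
    have h1 := hm k (by omega)
    have h2 := hm _ hk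
    have := c.five _ (hR _ h1) _ (hR _ h2) x hx.1 hτ fun hs => hx.2.1 (Submodule.span_le.2 (by
      rintro v (rfl | rfl)
      exacts [hU _ h1, hU _ h2]) hs)
    rw [f2_getD h 0 (0, 0) k (by omega), f2_getD h 0 (0, 0) _ hk] at this
    simp only [HK.five, Bool.and_eq_true] at hb
    obtain ⟨⟨⟨⟨b1, b2⟩, b3⟩, b4⟩, b5⟩ := hb
    have e1 : ev τ (0, -1) = -τ := by simp [ev]
    have e2 : ev τ (-1, 0) = -1 := by simp [ev]
    rcases this with e | e | e | e | e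
    · exact c.nz_ne b1 e
    · exact c.nz_ne b2 e
    · exact c.nz_ne b3 (by rw [ev_zs, ev_zm c.tau, e1]; linear_combination e)
    · exact c.nz_ne b4 (by rw [ev_zs, ev_zm c.tau, e1]; linear_combination e)
    · exact c.nz_ne b5 (by rw [ev_zs, ev_zm c.tau, e2]; linear_combination e)

theorem scan_ex (hR : ∀ v ∈ α, v ∈ R) (hG : Gr Q τ α G) {k : ℕ} (hk : k + 1 < α.length)
    (hτ : polar Q (α.getD k 0) (α.getD (k + 1) 0) = -τ) {U : Submodule F V} (hU : ∀ v ∈ α, v ∈ U)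
    {reps : List (List Z)} : ∀ (w : List ℕ) {x : V} {φ : List Z}, Out Q R U x → Has Q τ x α φ →
      scan G k reps w φ = true → ∃ ψ ∈ reps, ∃ y, Out Q R U y ∧ Has Q τ y α ψ
  | [], x, φ, hx, h, hs => by
    rcases Bool.or_eq_true_iff.1 hs with hs | hs
    · exact absurd hs (c.not_bad hR hk hτ hU hx h)
    · exact ⟨φ, of_decide_eq_true hs, x, hx, h⟩
  | i :: w, x, φ, hx, h, hs => by
    rcases Bool.or_eq_true_iff.1 hs with hs | hs
    · rcases Bool.or_eq_true_iff.1 hs with hs | hs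
      · exact absurd hs (c.not_bad hR hk hτ hU hx h)
      · exact ⟨φ, of_decide_eq_true hs, x, hx, h⟩
    · obtain ⟨y, -, h', hm⟩ := c.step hR hG hx.1 h i
      exact scan_ex hR hG hk hτ hU w (hm U hU hx) h' hs

theorem cl_one {b : V} (hb : b ∈ R) : Cl Q R τ [b] (valL.map fun z => [z]) := fun U hU x hx => by
  obtain ⟨z, hz, e⟩ := c.val' hx hb (hU b List.mem_cons_self)
  exact ⟨[z], List.mem_map_of_mem hz, x, hx, List.Forall₂.cons e List.Forall₂.nil⟩

theorem cl_cons {e : V} (hR : ∀ v ∈ e :: α, v ∈ R) (hG : Gr Q τ (e :: α) G) {k : ℕ}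
    (hk : k + 1 < (e :: α).length) (hτ : (G.getD k []).getD (k + 1) (0, 0) = (0, -1))
    {reps reps' : List (List Z)} (h : Cl Q R τ α reps) {w : List ℕ}
    (chk : ∀ ψ ∈ reps, ∀ z ∈ valL, scan G k reps' w (z :: ψ) = true) : Cl Q R τ (e :: α) reps' :=
  fun U hU x hx => by
  obtain ⟨ψ, hψ, y, hy, h1⟩ := h U (fun v hv => hU v (List.mem_cons_of_mem _ hv)) x hx
  obtain ⟨z, hz, h2⟩ := c.val' hy (hR e List.mem_cons_self) (hU e List.mem_cons_self)
  refine c.scan_ex hR hG hk ?_ hU w hy (List.Forall₂.cons h2 h1) (chk ψ hψ z hz)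
  rw [f2_getD (f2_getD hG 0 [] k (by omega)) 0 (0, 0) _ hk, hτ]; simp [ev]

theorem stage (hR : ∀ v ∈ α, v ∈ R) (h0 : α ≠ []) (h4 : α.length ≤ 4) {reps : List (List Z)}
    (h : Cl Q R τ α reps) : ∃ ψ ∈ reps, ¬ (∀ z ∈ ψ, z = (0, 0)) ∧ ∃ y ∈ R, Has Q τ y α ψ := by
  obtain ⟨x, hx⟩ := c.out α h0 hR h4
  obtain ⟨ψ, hψ, y, ⟨hy, -, v, hv, h1⟩, h2⟩ := h _ (fun v hv => Submodule.subset_span hv) x hx
  refine ⟨ψ, hψ, fun e => h1 ?_, y, hy, h2⟩
  rw [polar_comm]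
  refine mem_perp.1 (mem_perp_span.2 fun u hu => ?_) v hv
  obtain ⟨z, hz, e'⟩ := (f2_mem h2).2 u hu
  rw [polar_comm, e', e z hz]; simp [ev]

theorem next (hR : ∀ v ∈ α, v ∈ R) (hG : Gr Q τ α G) (hx : x ∈ R) (h : Has Q τ x α φ) {w : List ℕ}
    {s : List Z} (e : (act (ext φ G) w ((2, 0) :: φ)).tail = s) :
    ∃ y, (∀ v ∈ y :: α, v ∈ R) ∧ Gr Q τ (y :: α) (ext s G) := by
  obtain ⟨y, hy, h'⟩ := c.act_ex (α := x :: α) (by simpa [hx] using hR) (c.gr_cons hG hx h) w hx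
    (c.has_cons hx h)
  refine ⟨y, by simpa [hy] using hR, c.gr_cons hG hy ?_⟩
  rw [← e]
  generalize act (ext φ G) w ((2, 0) :: φ) = ψ at h'
  cases h' with
  | cons _ h' => exact h'

theorem false {a b : V} (ha : a ∈ R) (hb : b ∈ R) (h : polar Q a b = -τ) : False := by
  have hR : ∀ v ∈ [a, b], v ∈ R := by simp [ha, hb]
  have hG : Gr Q τ [a, b] G2 := by
    simp [Gr, Has, G2, ev, c.self a ha, c.self b hb, h, polar_comm Q b a]
  have c2 := c.cl_cons (k := 0) hR hG (by simp) rfl (c.cl_one hb) chk2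
  obtain ⟨ψ, hψ, h0, x, hx, h1⟩ := c.stage hR (by simp) (by simp) c2
  obtain ⟨w, -, e⟩ := (wd2 ψ hψ).resolve_left h0
  obtain ⟨y, hR3, hG3⟩ := c.next hR hG hx h1 e
  have c3 := c.cl_cons (G := G3) (k := 1) hR3 hG3 (by simp) rfl c2 chk3
  obtain ⟨ψ, hψ, h0, x, hx, h1⟩ := c.stage hR3 (by simp) (by simp) c3
  obtain ⟨w, -, e⟩ := (wd3 ψ hψ).resolve_left h0
  obtain ⟨z, hR4, hG4⟩ := c.next (G := G3) hR3 hG3 hx h1 e
  have c4 := c.cl_cons (G := G4) (k := 2) hR4 hG4 (by simp) rfl c3 chk4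
  obtain ⟨ψ, hψ, h0, -⟩ := c.stage hR4 (by simp) (by simp) c4
  rw [List.mem_singleton.1 hψ] at h0
  exact h0 (by simp)

end Ctx

end CfsgLib.O7.HK
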