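import Cfsg.Agent.Lib.O7.Base
import Cfsg.Agent.Lib.O7.Hka

/-!
HK: no golden pair.  See `plans/O7B.md`.
-/

set_option autoImplicit false

namespace CfsgLib.O7

open CfsgLib.OrthE CfsgLib.OMax Module QuadraticMap Subgroup

variable {F V : Type*} [Field F] [Finite F] [AddCommGroup V] [Module F V] [FiniteDimensional F V]
  {Q : QuadraticForm F V} {H P : Subgroup (O Q)} {R : Set V}

theorem RS.hk_out (h : RS Q H P R) (α : List V) (h0 : α ≠ []) (hR : ∀ v ∈ α, v ∈ R) (h4 : α.length ≤ 4) :
    ∃ x, HK.Out Q R (Submodule.span F {v | v ∈ α}) x := by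
  classical
  obtain ⟨a, ha⟩ := List.exists_mem_of_ne_nil α h0
  obtain ⟨x, hx, h1, h2⟩ := h.exists_out (W := Submodule.span F {v | v ∈ α}) (fun e => by
    have : a = 0 := by simpa [e] using (Submodule.subset_span ha : a ∈ Submodule.span F {v | v ∈ α})
    have h1 := h.one a (hR a ha)
    rw [this, map_zero] at h1
    exact zero_ne_one h1) (fun e => by
    have h1 := finrank_span_finset_le_card (R := F) α.toFinset
    rw [Set.finrank, show (α.toFinset : Set V) = {v | v ∈ α} by ext; simp, e, finrank_top, h.dim] at h1
    have := List.toFinset_card_le α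
    omega)
  refine ⟨x, hx, h1, ?_⟩
  by_contra h3
  push Not at h3
  exact h2 (mem_perp'.2 h3)

theorem RS.hk_ctx (h : RS Q H P R) (t : Tame Q R) (h5 : (5 : F) ≠ 0)
    (h2 : ∀ u ∈ R, ∀ x ∈ R, polar Q x u ^ 2 ≠ 2) {τ : F} (hτ : τ * τ = τ + 1) : HK.Ctx Q R τ where
  tau := hτ
  two := h.two
  fv := h5
  self _ := h.pol_self
  ref u hu w hw := h.refl_ap hu w ▸ h.ref u hu w hw
  val u hu x hx hd := by
    rcases t.val x hx u hu hd with e | e | e | e
    · exact ⟨(0, 0), by decide, by simp [HK.ev, e]⟩
    · rcases sq_eq_one_iff.1 e with e | e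
      · exact ⟨(1, 0), by decide, by simp [HK.ev, e]⟩
      · exact ⟨(-1, 0), by decide, by simp [HK.ev, e]⟩
    · exact absurd e (h2 u hu x hx)
    · have : (polar Q x u - τ) * (polar Q x u + τ) * (polar Q x u - (τ - 1)) * (polar Q x u + (τ - 1)) = 0 := by
        linear_combination e + (τ * τ - τ + 1 - 2 * polar Q x u ^ 2) * hτ
      simp only [mul_eq_zero] at this
      rcases this with ((e | e) | e) | e
      · exact ⟨(0, 1), by decide, by simp only [HK.ev]; push_cast; linear_combination e⟩
      · exact ⟨(0, -1), by decide, by simp only [HK.ev]; push_cast; linear_combination e⟩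
      · exact ⟨(-1, 1), by decide, by simp only [HK.ev]; push_cast; linear_combination e⟩
      · exact ⟨(1, -1), by decide, by simp only [HK.ev]; push_cast; linear_combination e⟩
  five u hu v hv x hx e hs := by
    have hd : Df u v := ⟨fun e' => by
      rw [e', h.pol_self hu] at e
      exact h5 (by linear_combination hτ + (3 - τ) * e), fun e' => by
      rw [e', polar_neg_right, h.pol_self hu] at e
      exact one_ne_zero (α := F) (by linear_combination hτ - (τ + 1) * e)⟩
    have e' : polar Q v u = -τ := by rw [polar_comm, e]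
    have := t.five u hu v hv x hx hd (by rw [Gold, e]; linear_combination (τ * τ + τ - 1) * hτ) hs
    simp only [h.refl_ap hu, h.refl_ap hv, polar_sub_right, polar_smul_right, polar_sub_left, polar_smul_left,
      smul_eq_mul, e, e', h.pol_self hu] at this
    rcases this with e | e | e | e | e
    · exact .inl e
    · exact .inr (.inl e)
    · exact .inr (.inr (.inl (by linear_combination e)))
    · exact .inr (.inr (.inr (.inl (by linear_combination e))))
    · exact .inr (.inr (.inr (.inr (by
        linear_combination (τ - 1) * e - (τ * polar Q x u + polar Q x v) * hτ))))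
  out := h.hk_out

theorem RS.hk (h : RS Q H P R) (t : Tame Q R) (m : NoMix Q R) : NoGold Q R := by
  intro u hu v hv hd hg
  have h5 : (5 : F) ≠ 0 := fun e => by
    have h4 : polar Q u v ^ 2 = 4 := by
      have : (polar Q u v ^ 2 - 4) ^ 2 = 0 := by
        rw [Gold] at hg; linear_combination hg + (3 - polar Q u v ^ 2) * e
      exact sub_eq_zero.1 (pow_eq_zero_iff two_ne_zero |>.1 this)
    exact h.two (by linear_combination e - t.uni u hu v hv hd h4)
  have h2 : ∀ w ∈ R, ∀ x ∈ R, polar Q x w ^ 2 ≠ 2 := fun w hw x hx => by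
    obtain ⟨g, hg', e⟩ := h.trans u hu w hw
    have := m _ (h.inv g hg' u hu) _ (h.inv g hg' v hv) x hx
      ⟨fun e => hd.1 (g.1.injective e), fun e => hd.2 (g.1.injective (by rw [e, map_neg]))⟩
      (by rwa [O_polar])
    rcases e with e | e
    · rwa [e] at this
    · rwa [e, polar_neg_right, neg_sq] at this
  have : (polar Q u v ^ 2 - polar Q u v - 1) * (polar Q u v ^ 2 + polar Q u v - 1) = 0 := by
    rw [Gold] at hg; linear_combination hg
  rcases mul_eq_zero.1 this with e | e
  · exact (h.hk_ctx t h5 h2 (τ := polar Q u v) (by linear_combination e)).false hu (h.neg v hv)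
      (polar_neg_right _ _ _)
  · exact (h.hk_ctx t h5 h2 (τ := -polar Q u v) (by linear_combination e)).false hu hv (neg_neg _).symm

end CfsgLib.O7
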