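import Cfsg.Agent.Lib.O7.Tame
import Cfsg.Agent.Lib.O7.Grow3
import Cfsg.Agent.Lib.O7.Hk
import Cfsg.Agent.Lib.O7.Bk
import Cfsg.Agent.Lib.O7.EndB
import Cfsg.Agent.Lib.O7.EndC
import Cfsg.Agent.Lib.O7.EndE

/-!
AMAIN: a reflection normalises the socle.  See `plans/O7B.md`.
-/

set_option autoImplicit false

namespace CfsgLib.O7

open CfsgLib.OrthE CfsgLib.OMax Module QuadraticMap Subgroup

variable {F V : Type*} [Field F] [Finite F] [AddCommGroup V] [Module F V] [FiniteDimensional F V]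
  {Q : QuadraticForm F V} {H P : Subgroup (O Q)} {R : Set V}

theorem SL.out (h : SL Q H P R) : OutA F P := by
  rcases h.types with ⟨n, h5, T⟩ | ⟨m, h2, T⟩ | ⟨m, h3, T⟩ | ⟨m, h2, T⟩
  · rcases h.symT h5 T with rfl | rfl
    · exact (h.sym8 T).elim
    · exact h.sym9 T
  · obtain rfl := h.spT h2 T
    exact h.sp3 T
  · obtain rfl := h.opT h3 T
    exact (h.op3 T).elim
  · exact (h.omT h2 T).elim

theorem am_three (h : Nat.card F = 3) (x : F) : x = 0 ∨ x = 1 ∨ x = -1 := by
  have := Fintype.ofFinite F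
  have h1 := FiniteField.pow_card x
  rw [← Nat.card_eq_fintype_card, h] at h1
  have h2 : x * (x - 1) * (x + 1) = 0 := by linear_combination h1
  rcases mul_eq_zero.1 h2 with h3 | h3
  · rcases mul_eq_zero.1 h3 with h4 | h4
    · exact .inl h4
    · exact .inr (.inl (sub_eq_zero.1 h4))
  · exact .inr (.inr (eq_neg_of_add_eq_zero_left h3))

theorem RS.sym_of (h : RS Q H P R) (hl : Lace Q R) (h3 : (3 : F) ≠ 0) : SymR Q R := by
  rintro a ha b hb c hc ⟨d1, n1⟩ ⟨d2, n2⟩ ⟨d3, n3⟩ ⟨d4, n4⟩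
  have h2 := h.two
  have e1 := (hl a ha b hb d1).resolve_left n1
  have e2 := (hl c hc a ha d2).resolve_left n2
  have e3 := (hl c hc b hb d3).resolve_left n3
  have e4 := (hl c hc _ (h.ref a ha b hb) d4).resolve_left n4
  rw [h.refl_ap ha, polar_sub_right, polar_smul_right, polar_comm Q b a, smul_eq_mul] at e4 n4
  rcases e1 with e1 | e1 <;> rcases e2 with e2 | e2 <;> rcases e3 with e3 | e3 <;>
    rcases e4 with e4 | e4 <;> rw [e1, e2, e3] at e4 <;>
    first
      | exact one_ne_zero (α := F) (by linear_combination e4)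
      | exact one_ne_zero (α := F) (by linear_combination -e4)
      | exact h3 (by linear_combination e4)
      | exact h3 (by linear_combination -e4)

theorem RS.main (h : RS Q H P R) : OutA F P := by
  obtain ⟨t, m⟩ := h.tame
  have hg := h.hk t m
  by_cases h3 : (3 : F) = 0
  · have hc := h.three h3 t hg
    exact SL.out ⟨h, fun u _ v _ _ => am_three hc _, h.grow3 hc, hc ▸ Nat.prime_three⟩
  · have hb := h.bk t h3 hg
    have hl : Lace Q R := fun u hu v hv d => by
      rcases t.val u hu v hv d with e | e | e | e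
      · exact .inl e
      · exact .inr (mul_self_eq_one_iff.1 (by rw [← e]; ring))
      · exact absurd e (hb u hu v hv)
      · exact absurd e (hg u hu v hv d)
    exact SL.out ⟨h, hl, h.sym_of hl h3, h.prime hl⟩

theorem Core.caseA (h : Core Q H P) {v : V} (hv : Q v ≠ 0) (hn : Nm P (refl Q v)) : OutA F P := by
  obtain ⟨Q', H', P', R, hR, ⟨e⟩⟩ := h.exists_rs hv hn
  rcases hR.main with ⟨⟨f⟩, hc⟩ | ⟨⟨f⟩, hc⟩
  · exact .inl ⟨⟨e.trans f⟩, hc⟩
  · exact .inr ⟨⟨e.trans f⟩, hc⟩

end CfsgLib.O7
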