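import Cfsg.Agent.Lib.O7.DefsA
import Cfsg.Agent.Lib.OrthE.Simple

/-!
BASE: first consequences of `Core` and `RS`.  See `plans/O7B.md`.
-/

set_option autoImplicit false

namespace CfsgLib.O7

open CfsgLib.OrthE CfsgLib.OMax Module QuadraticMap Subgroup

variable {F V : Type*} [Field F] [Finite F] [AddCommGroup V] [Module F V] [FiniteDimensional F V]
  {Q : QuadraticForm F V} {H P : Subgroup (O Q)} {R : Set V}

theorem finite_O (Q : QuadraticForm F V) : Finite (O Q) := by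
  have : Finite V := Module.finite_of_finite F
  have : Finite (V ≃ₗ[F] V) := DFunLike.finite _
  infer_instance

theorem nm_iff {r : O Q} : Nm P r ↔ r ∈ normalizer (P : Set (O Q)) :=
  have := finite_O Q
  ⟨fun h => mem_normalizer_fintype h, fun h x hx => (mem_normalizer_iff.1 h x).1 hx⟩

variable (Q) in
/-- the stabiliser of a set of vectors -/
def bStab (Λ : Set V) : Subgroup (O Q) where
  carrier := {g | ∀ v ∈ Λ, g.1 v ∈ Λ}
  one_mem' _ hv := hv
  mul_mem' ha hb v hv := ha _ (hb v hv)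
  inv_mem' {g} hg := by
    have := finite_O Q
    obtain ⟨n, hn⟩ := mem_powers_iff_mem_zpowers.2 (inv_mem (mem_zpowers g))
    rw [← hn]
    clear hn
    induction n with
    | zero => exact fun _ hv => hv
    | succ n ih => exact fun v hv => by simp only [pow_succ]; exact ih _ (hg v hv)

theorem Core.five (h : Core Q H P) : 5 ≤ finrank F V := by rw [h.dim]; norm_num

theorem Core.ne_bot (h : Core Q H P) : P ≠ ⊥ := fun e => h.ncomm (by rw [e]; infer_instance)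

theorem Core.irr (h : Core Q H P) (W : Submodule F V) (hW : ∀ x ∈ P, ∀ v ∈ W, x.1 v ∈ W) :
    W = ⊥ ∨ W = ⊤ := by
  refine or_iff_not_imp_left.2 fun h0 => eq_top_iff.2 fun v _ => ?_
  obtain ⟨w, hw, w0⟩ := Submodule.exists_mem_ne_zero_of_ne_bot h0
  obtain ⟨y, hy⟩ := h.nd.exists_eq w0 1
  have k : ∀ f ∈ Submodule.span F (en '' (P : Set (O Q))), f w ∈ W := fun f hf => by
    induction hf using Submodule.span_induction with
    | mem f hf => obtain ⟨x, hx, rfl⟩ := hf; exact hW x hx w hw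
    | zero => exact W.zero_mem
    | add f g _ _ h1 h2 => exact W.add_mem h1 h2
    | smul c f _ h1 => exact W.smul_mem c h1
  simpa [hy] using k ((polarBilin Q y).smulRight v) (h.abs ▸ Submodule.mem_top)

/-- `P` is the unique minimal normal subgroup of `H` -/
theorem Core.min (h : Core Q H P) {N : Subgroup (O Q)} (hN : N ≤ H) (hn : ∀ g ∈ H, Nm N g)
    (h0 : N ≠ ⊥) : P ≤ N := by
  have := h.simple
  have hN' : (N.subgroupOf P).Normal := ⟨fun x hx g => hn _ (h.le g.2) _ hx⟩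
  refine subgroupOf_eq_top.1 (hN'.eq_bot_or_eq_top.resolve_left fun e => h0 (eq_bot_iff.2 fun n hn' => ?_))
  refine h.cent n (hN hn') fun x hx => ?_
  have h1 : n * x * n⁻¹ * x⁻¹ ∈ P := mul_mem (h.nrm n (hN hn') x hx) (inv_mem hx)
  have h2 : n * x * n⁻¹ * x⁻¹ ∈ N := by
    rw [mul_assoc, mul_assoc, ← mul_assoc x]
    exact mul_mem hn' (hn x (h.le hx) _ (inv_mem hn'))
  have h3 : (⟨_, h1⟩ : P) ∈ N.subgroupOf P := h2
  rw [e, mem_bot, Subtype.ext_iff] at h3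
  exact mul_inv_eq_iff_eq_mul.1 (mul_inv_eq_one.1 h3)

theorem Core.nm_of (h : Core Q H P) {r : O Q} (hr : Nm H r) : Nm P r := by
  obtain ⟨⟨x, hx⟩, x1⟩ := ne_bot_iff_exists_ne_one.1 h.ne_bot
  refine fun y hy => (h.min (N := H ⊓ P.comap (MulAut.conj r).toMonoidHom) inf_le_left (fun g hg y hy =>
    ⟨H.mul_mem (H.mul_mem hg hy.1) (H.inv_mem hg), ?_⟩) (fun e => x1 (Subtype.ext ?_)) hy).2
  · have := h.nrm _ (hr g hg) _ hy.2
    show r * (g * y * g⁻¹) * r⁻¹ ∈ P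
    convert this using 1
    simp only [MulEquiv.coe_toMonoidHom, MulAut.conj_apply]
    group
  · have : r⁻¹ * x * r⁻¹⁻¹ ∈ H ⊓ P.comap (MulAut.conj r).toMonoidHom :=
      mem_inf.2 ⟨nm_iff.2 (Subgroup.inv_mem _ (nm_iff.1 hr)) x (h.le hx), by simpa [mul_assoc] using hx⟩
    rwa [e, mem_bot, conj_eq_one_iff] at this

theorem Core.mem_of_nm (h : Core Q H P) {g : O Q} (hg : g ∈ commutator (O Q)) (hn : Nm P g) :
    g ∈ H := by
  rcases h.max (commutator (O Q) ⊓ normalizer (P : Set (O Q))) (le_inf h.lt.le fun x hx => nm_iff.1 (h.nrm x hx))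
    inf_le_left with e | e
  · exact e ▸ (⟨hg, nm_iff.1 hn⟩ : g ∈ commutator (O Q) ⊓ normalizer (P : Set (O Q)))
  exfalso
  have hE := E_eq h.nd h.five
  obtain ⟨x, -, x0, hx, -⟩ := exists_sing_orth h.nd ⊤ [] (by simp [h.dim])
  obtain ⟨y, hy⟩ := h.nd.exists_hyp hx x0
  obtain ⟨w, -, w0, hw, hl⟩ := exists_sing_orth h.nd ⊤ [x, y] (by simp [h.dim])
  have hn : (P.subgroupOf (E Q)).Normal := ⟨fun a ha g =>
    nm_iff.2 (inf_eq_left.1 e (hE ▸ g.2)) _ ha⟩
  have hP : P ≤ E Q := hE ▸ h.le.trans h.lt.le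
  rcases hy.normal_le_center_or_eq_top h.nd h.five ⟨w, pc (hl x (by simp)), pc (hl y (by simp)), w0, hw⟩
    (P.subgroupOf (E Q)) with e1 | e1
  · exact h.ncomm ⟨⟨fun a b => Subtype.ext (congrArg (E Q).subtype
      (mem_center_iff.1 (e1 (x := ⟨b.1, hP b.2⟩) b.2) ⟨a.1, hP a.2⟩) :)⟩⟩
  · exact h.lt.not_ge (hE ▸ (subgroupOf_eq_top.1 e1).trans h.le)

theorem Core.not_E (h : Core Q H P) : ¬ E Q ≤ H := by
  rw [E_eq h.nd h.five]
  exact h.lt.not_ge

/-- `H` is the stabiliser of any invariant set of vectors that misses a vector of the same norm -/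
theorem Core.stab (h : Core Q H P) {Λ : Set V} (hH : ∀ g ∈ H, ∀ v ∈ Λ, g.1 v ∈ Λ) {u w : V}
    (hu : u ∈ Λ) (hw : w ∉ Λ) (h0 : Q u ≠ 0) (he : Q w = Q u) {g : O Q}
    (hg : g ∈ commutator (O Q)) (hΛ : ∀ v ∈ Λ, g.1 v ∈ Λ) : g ∈ H := by
  rcases h.max (commutator (O Q) ⊓ bStab Q Λ) (le_inf h.lt.le hH) inf_le_left with e | e
  · exact e ▸ (⟨hg, hΛ⟩ : g ∈ commutator (O Q) ⊓ bStab Q Λ)
  · obtain ⟨k, hk, -, e1⟩ := exists_omega_move h.nd h.five h.two (nd_top h.nd) (by simp [h.dim])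
      Submodule.mem_top Submodule.mem_top h0 he
    exact (hw (e1 ▸ inf_eq_left.1 e hk u hu)).elim

theorem Core.lines (h : Core Q H P) {Λ : Set V} (hne : Λ.Nonempty) (h0 : ∀ u ∈ Λ, Q u ≠ 0)
    (hH : ∀ g ∈ H, ∀ v ∈ Λ, g.1 v ∈ Λ) (hr : ∀ u ∈ Λ, ∀ v ∈ Λ, (refl Q u).1 v ∈ Λ)
    (hp : ∀ u ∈ Λ, ∀ v ∈ Λ, polar Q u v ^ 2 = 4 * (Q u * Q v) → ∃ c : F, v = c • u) :
    ∃ u, Q u ≠ 0 ∧ Nm P (refl Q u) := by
  obtain ⟨u, hu⟩ := hne
  obtain ⟨z, -, z0, hz, hl⟩ := exists_sing_orth h.nd ⊤ [u] (by simp [h.dim])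
  have uz : polar Q u z = 0 := hl u (by simp)
  have q : Q (u + z) = Q u := by rw [Q_add, hz, uz, add_zero, add_zero]
  have k : ∀ g : O Q, (∀ v ∈ Λ, g.1 v ∈ Λ) → g ∈ bStab Q {x | ∃ c : F, c ≠ 0 ∧ ∃ v ∈ Λ, x = c • v} := by
    rintro g hg _ ⟨c, hc, v, hv, rfl⟩
    exact ⟨c, hc, _, hg v hv, map_smul _ _ _⟩
  refine ⟨u, h0 u hu, h.nm_of fun g hg => h.stab (u := u) (w := u + z) (fun g hg => k g (hH g hg))
    ⟨1, one_ne_zero, u, hu, (one_smul _ _).symm⟩ ?_ (h0 u hu) q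
    (Normal.conj_mem inferInstance _ (h.lt.le hg) _)
    (mul_mem (mul_mem (k _ (hr u hu)) (k g (hH g hg))) (inv_mem (k _ (hr u hu))))⟩
  rintro ⟨c, hc, v, hv, e⟩
  have h1 : c * polar Q u v = 2 * Q u := by
    rw [← smul_eq_mul, ← polar_smul_right, ← e, polar_add_right, uz, polar_self', add_zero]
  have h2 : c * c * Q v = Q u := by rw [← Q_smul, ← e, q]
  obtain ⟨d, rfl⟩ := hp u hu v hv (mul_left_cancel₀ (mul_ne_zero hc hc) (by
    linear_combination (c * polar Q u v + 2 * Q u) * h1 - 4 * Q u * h2))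
  have e2 : z = (c * d - 1) • u := by rw [sub_smul, mul_smul, ← e, one_smul, add_sub_cancel_left]
  rw [e2, Q_smul] at hz
  exact z0 (by rw [e2, mul_self_eq_zero.1 ((mul_eq_zero.1 hz).resolve_right (h0 u hu)), zero_smul])

theorem Core.rs_one (h : Core Q H P) {v : V} (hv : Q v = 1) (hn : Nm P (refl Q v)) :
    RS Q H P {w | ∃ g ∈ H, g.1 v = w ∨ g.1 v = -w} := by
  have one : ∀ u ∈ {w | ∃ g ∈ H, g.1 v = w ∨ g.1 v = -w}, Q u = 1 := by
    rintro u ⟨g, -, e | e⟩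
    · rw [← e, O_map, hv]
    · rw [← Q_neg, ← e, O_map, hv]
  have nm : ∀ u ∈ {w | ∃ g ∈ H, g.1 v = w ∨ g.1 v = -w}, Nm P (refl Q u) := by
    rintro u ⟨g, hg, e⟩
    have : refl Q u = g * refl Q v * g⁻¹ := by
      rw [conj_refl]
      rcases e with e | e <;> simp [e, refl_neg]
    have hg' := nm_iff.1 (h.nrm g hg)
    exact this ▸ nm_iff.2 (mul_mem (mul_mem hg' (nm_iff.1 hn)) (inv_mem hg'))
  have mem : ∀ u ∈ {w | ∃ g ∈ H, g.1 v = w ∨ g.1 v = -w}, ∀ w ∈ {w | ∃ g ∈ H, g.1 v = w ∨ g.1 v = -w},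
      refl Q u * refl Q w ∈ H := fun u hu w hw =>
    h.mem_of_nm (refl_mul_refl_mem' h.nd (by rw [one u hu]; exact one_ne_zero) (by rw [one u hu, one w hw]))
      (nm_iff.2 (mul_mem (nm_iff.1 (nm u hu)) (nm_iff.1 (nm w hw))))
  have neg : ∀ u ∈ {w | ∃ g ∈ H, g.1 v = w ∨ g.1 v = -w}, -u ∈ {w | ∃ g ∈ H, g.1 v = w ∨ g.1 v = -w} :=
    fun u ⟨g, hg, e⟩ => ⟨g, hg, by rw [neg_neg]; exact e.symm⟩
  have inv : ∀ k ∈ H, ∀ u ∈ {w | ∃ g ∈ H, g.1 v = w ∨ g.1 v = -w},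
      k.1 u ∈ {w | ∃ g ∈ H, g.1 v = w ∨ g.1 v = -w} := fun k hk u ⟨g, hg, e⟩ =>
    ⟨k * g, mul_mem hk hg, e.imp (fun e => by rw [O_mul_apply, e]) fun e => by rw [O_mul_apply, e, map_neg]⟩
  refine ⟨h, ⟨v, 1, one_mem _, .inl rfl⟩, one, neg, fun u hu w hw => ?_, inv, ?_, mem, nm⟩
  · have := inv _ (mem u hu w hw) _ (neg w hw)
    rwa [O_mul_apply, map_neg, refl_apply_self (by rw [one w hw]; exact one_ne_zero), neg_neg] at this
  · rintro u ⟨g, hg, e⟩ w ⟨k, hk, e'⟩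
    refine ⟨k * g⁻¹, mul_mem hk (inv_mem hg), ?_⟩
    rw [O_mul_apply]
    rcases e with e | e
    · rwa [O_inv_apply_eq g e]
    · rw [← neg_neg u, map_neg, O_inv_apply_eq g e, map_neg, neg_eq_iff_eq_neg, neg_inj]
      exact e'.symm

theorem Core.scale (h : Core Q H P) {Q' : QuadraticForm F V} (hQ : Nondeg Q') (ψ : O Q ≃* O Q')
    (hψ : ∀ g, (ψ g).1 = g.1) : Core Q' (H.map ψ) (P.map ψ) := by
  have hc : (commutator (O Q)).map (ψ : O Q →* O Q') = commutator (O Q') := by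
    rw [commutator_def, map_commutator, map_top_of_surjective _ ψ.surjective, commutator_def]
  have he : ∀ g, en (ψ g) = en g := fun g => by rw [en, en, hψ]
  have i : P ≃* P.map (ψ : O Q →* O Q') := ψ.subgroupMap P
  refine ⟨h.two, hQ, h.dim, hc ▸ ψ.mapSubgroup.strictMono h.lt, fun M h1 h2 => ?_, map_mono h.le, ?_,
    have := h.simple; i.symm.isSimpleGroup, fun e => h.ncomm ⟨⟨fun a b => i.injective (by
      rw [map_mul, map_mul, e.is_comm.comm])⟩⟩, ?_, ?_, fun F₀ hF => h.nosub F₀ fun x hx => ?_⟩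
  · obtain ⟨M, rfl⟩ := ψ.mapSubgroup.surjective M
    rw [← hc] at h2 ⊢
    exact (h.max M (ψ.mapSubgroup.le_iff_le.1 h1) (ψ.mapSubgroup.le_iff_le.1 h2)).imp
      (congrArg ψ.mapSubgroup) (congrArg ψ.mapSubgroup)
  · rintro _ ⟨g, hg, rfl⟩ _ ⟨x, hx, rfl⟩
    exact ⟨_, h.nrm g hg x hx, by simp⟩
  · rintro _ ⟨g, hg, rfl⟩ hc
    rw [h.cent g hg fun x hx => ψ.injective (by simpa using hc _ ⟨x, hx, rfl⟩), map_one]
  · rw [← h.abs, coe_map, Set.image_image]
    exact congrArg _ (Set.image_congr fun g _ => he g)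
  · have := hF _ ⟨x, hx, rfl⟩
    rwa [tr, MonoidHom.coe_coe, he] at this

theorem Core.exists_rs (h : Core Q H P) {v : V} (hv : Q v ≠ 0) (hn : Nm P (refl Q v)) :
    ∃ (Q' : QuadraticForm F V) (H' P' : Subgroup (O Q')) (R : Set V),
      RS Q' H' P' R ∧ Nonempty (P ≃* P') := by
  have c0 := inv_ne_zero hv
  have hO : O Q = O ((Q v)⁻¹ • Q) := Subgroup.ext fun g => by
    simp only [mem_O, QuadraticMap.smul_apply, smul_eq_mul, mul_right_inj' c0]
  have pl : ∀ x y, polar (⇑((Q v)⁻¹ • Q)) x y = (Q v)⁻¹ * polar Q x y := fun x y => by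
    simp only [polar, QuadraticMap.smul_apply, smul_eq_mul]; ring
  have h' := h.scale (Q' := (Q v)⁻¹ • Q) (fun x hx => h.nd x fun y =>
    (mul_eq_zero.1 ((pl x y).symm.trans (hx y))).resolve_left c0) (MulEquiv.subgroupCongr hO) fun _ => rfl
  have q1 : ((Q v)⁻¹ • Q) v = 1 := inv_mul_cancel₀ hv
  have hr : refl ((Q v)⁻¹ • Q) v = MulEquiv.subgroupCongr hO (refl Q v) := O_ext fun x => by
    rw [refl_apply, q1, inv_one, one_mul, pl]
    exact (refl_apply v x).symm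
  refine ⟨_, _, _, _, h'.rs_one q1 ?_, ⟨(MulEquiv.subgroupCongr hO).subgroupMap P⟩⟩
  rintro _ ⟨x, hx, rfl⟩
  exact ⟨_, hn x hx, by rw [hr, map_mul, map_mul, map_inv]; rfl⟩

theorem RS.pol_self (h : RS Q H P R) {u : V} (hu : u ∈ R) : polar Q u u = 2 := by
  rw [polar_self', h.one u hu, mul_one]

theorem RS.refl_ap (h : RS Q H P R) {u : V} (hu : u ∈ R) (w : V) :
    (refl Q u).1 w = w - polar Q w u • u := by
  rw [refl_apply, h.one u hu, inv_one, one_mul]

theorem RS.rc (h : RS Q H P R) {u : V} (hu : u ∈ R) : RC (RG Q R) u := by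
  exact ⟨by rw [h.one u hu]; exact one_ne_zero, subset_closure ⟨u, hu, rfl⟩⟩

theorem RS.rg_inv (h : RS Q H P R) {g : O Q} (hg : g ∈ RG Q R) {u : V} (hu : u ∈ R) :
    g.1 u ∈ R := by
  exact (closure_le (bStab Q R)).2 (by rintro _ ⟨w, hw, rfl⟩; exact h.ref w hw) hg u hu

/-- the even part of the reflection group contains `P` -/
theorem RS.le_even (h : RS Q H P R) :
    P ≤ closure {g | ∃ u ∈ R, ∃ w ∈ R, g = refl Q u * refl Q w} := by
  refine h.min ((closure_le _).2 (by rintro _ ⟨u, hu, w, hw, rfl⟩; exact h.mem u hu w hw))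
    (fun g hg x hx => ?_) fun e => ?_
  · refine (closure_le (comap (MulAut.conj g).toMonoidHom
      (closure {g | ∃ u ∈ R, ∃ w ∈ R, g = refl Q u * refl Q w}))).2 ?_ hx
    rintro _ ⟨u, hu, w, hw, rfl⟩
    refine subset_closure ⟨_, h.inv g hg u hu, _, h.inv g hg w hw, ?_⟩
    rw [← conj_refl, ← conj_refl, conj_mul]
    rfl
  · obtain ⟨u, hu⟩ := h.ne
    have k : ∀ w ∈ R, w ∈ Submodule.span F {u} := fun w hw => by
      have e1 : refl Q u * refl Q w = 1 := mem_bot.1 (e ▸ subset_closure ⟨u, hu, w, hw, rfl⟩)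
      have e2 := h.refl_ap hu w
      rw [eq_inv_of_mul_eq_one_left e1, refl_inv, refl_apply_self (h.rc hw).1] at e2
      refine Submodule.mem_span_singleton.2 ⟨2⁻¹ * polar Q w u, ?_⟩
      rw [mul_smul, inv_smul_eq_iff₀ h.two, two_smul]
      rw [← sub_eq_zero, ← sub_eq_zero.2 e2]
      abel
    rcases h.irr (Submodule.span F {u}) (fun x hx v hv => by
      obtain ⟨c, rfl⟩ := Submodule.mem_span_singleton.1 hv
      rw [map_smul]
      exact Submodule.smul_mem _ c (k _ (h.inv x (h.le hx) u hu))) with e1 | e1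
    · exact ne_zero_of_Q (h.rc hu).1 (Submodule.span_singleton_eq_bot.1 e1)
    · have := finrank_span_singleton (K := F) (ne_zero_of_Q (h.rc hu).1)
      rw [e1, finrank_top, h.dim] at this
      omega

theorem RS.le_RG (h : RS Q H P R) : P ≤ RG Q R := by
  refine h.le_even.trans ((closure_le _).2 ?_)
  rintro _ ⟨u, hu, w, hw, rfl⟩
  exact mul_mem (h.rc hu).2 (h.rc hw).2

theorem RS.mem_H (h : RS Q H P R) {g : O Q} (hg : g ∈ RG Q R) (hΩ : g ∈ commutator (O Q)) :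
    g ∈ H := by
  refine h.mem_of_nm hΩ (nm_iff.2 ((closure_le _).2 ?_ hg))
  rintro _ ⟨u, hu, rfl⟩
  exact nm_iff.1 (h.nm u hu)

theorem RS.notE (h : RS Q H P R) : ¬ E Q ≤ RG Q R := by
  exact fun e => h.not_E fun g hg => h.mem_H (e hg) (E_eq h.nd h.five ▸ hg)

/-- a subspace invariant under all reflections -/
theorem RS.irr' (h : RS Q H P R) (W : Submodule F V)
    (hW : ∀ u ∈ R, ∀ v ∈ W, (refl Q u).1 v ∈ W) : W = ⊥ ∨ W = ⊤ := by
  refine h.irr W fun x hx => (closure_le (bStab Q (W : Set V))).2 ?_ (h.le_RG hx)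
  rintro _ ⟨u, hu, rfl⟩
  exact hW u hu

theorem RS.exists_out (h : RS Q H P R) {W : Submodule F V} (h0 : W ≠ ⊥) (h1 : W ≠ ⊤) :
    ∃ x ∈ R, x ∉ W ∧ x ∉ perp Q W := by
  by_contra k
  push Not at k
  refine (h.irr' W fun u hu v hv => ?_).elim h0 h1
  rw [h.refl_ap hu]
  by_cases e : u ∈ W
  · exact W.sub_mem hv (W.smul_mem _ e)
  · rwa [mem_perp.1 (k u hu e) v hv, zero_smul, sub_zero]

theorem RS.span_eq (h : RS Q H P R) : Submodule.span F R = ⊤ := by
  obtain ⟨u, hu⟩ := h.ne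
  refine (h.irr' _ fun u hu v hv => ?_).resolve_left fun e =>
    ne_zero_of_Q (h.rc hu).1 (Submodule.span_eq_bot.1 e u hu)
  rw [h.refl_ap hu]
  exact Submodule.sub_mem _ hv (Submodule.smul_mem _ _ (Submodule.subset_span hu))

/-- the root groups `{κ | u + κ z ∈ R}` are additive groups -/
theorem RS.root_add (h : RS Q H P R) {u z z' : V} (hu : u ∈ R) (hz : Q z = 0) (hz' : Q z' = 0)
    (h1 : polar Q u z = 0) (h2 : polar Q u z' = 0) (h3 : polar Q z z' = 0) (e : u + z ∈ R)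
    (e' : u + z' ∈ R) : u + (z + z') ∈ R ∧ u - z ∈ R := by
  have k : ∀ a b : V, polar Q u a = 0 → polar Q b u = 0 → polar Q b a = 0 → u + a ∈ R → u + b ∈ R →
      u + (a + a - b) ∈ R := fun a b p1 p2 p3 ha hb => by
    have := h.neg _ (h.ref _ ha _ hb)
    rw [h.refl_ap ha, polar_add_left, polar_add_right, polar_add_right, h.pol_self hu, p1, p2, p3] at this
    convert this using 1
    module
  have k1 : ∀ a : V, polar Q u a = 0 → u + a ∈ R → u - a ∈ R := fun a p ha => by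
    have := k 0 a (by simp) (pc p) (by simp) (by simpa using hu) ha
    rwa [add_zero, zero_sub, ← sub_eq_add_neg] at this
  have k2 : ∀ n : ℕ, u + (n : F) • z ∈ R ∧ u + ((n + 1 : ℕ) : F) • z ∈ R := fun n => by
    induction n with
    | zero => exact ⟨by simpa using hu, by simpa using e⟩
    | succ n ih =>
      refine ⟨ih.2, ?_⟩
      have := k _ _ (by rw [polar_smul_right, h1, smul_zero]) (by rw [polar_smul_left, pc h1, smul_zero])
        (by rw [polar_smul_left, polar_smul_right, pself hz, smul_zero, smul_zero]) ih.2 ih.1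
      convert this using 2
      push_cast
      module
  obtain ⟨n, hn⟩ : ∃ n : ℕ, (n : F) + n = 1 := by
    obtain ⟨m, hm⟩ := (CharP.char_is_prime F (ringChar F)).odd_of_ne_two fun e2 =>
      h.two (by exact_mod_cast e2 ▸ ringChar.Nat.cast_ringChar (R := F))
    refine ⟨m + 1, ?_⟩
    have := ringChar.Nat.cast_ringChar (R := F)
    rw [hm] at this
    push_cast at this ⊢
    linear_combination this
  refine ⟨?_, k1 z h1 e⟩
  have := k _ (-z') (by rw [polar_smul_right, h1, smul_zero]) (by rw [polar_neg_left, pc h2, neg_zero])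
    (by rw [polar_neg_left, polar_smul_right, pc h3, smul_zero, neg_zero]) (k2 n).1
    (by rw [← sub_eq_add_neg]; exact k1 z' h2 e')
  rwa [← add_smul, hn, one_smul, sub_neg_eq_add] at this

theorem RS.ea (h : RS Q H P R) {u z : V} (hu : u ∈ R) (hz : Q z = 0) (h1 : polar Q z u = 0)
    (e : u + z ∈ R) : EA (RG Q R) z u := by
  have := (h.rc hu).ea hz h1 (h.rc e)
  rwa [h.one u hu, inv_one, one_smul] at this

end CfsgLib.O7
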