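import Cfsg.Agent.Lib.O7.Spin
import Cfsg.Agent.Lib.RepChk.Zorn

/-!
BOXG: the stabiliser of a non-singular spinor is `G₂(F)`.  See `plans/O7B.md`.
-/

set_option autoImplicit false

namespace CfsgLib.O7

open CfsgLib.OrthE CfsgLib.OMax Module QuadraticMap Subgroup
open scoped MatrixGroups

variable {F : Type*} [Field F] [Finite F]

/-- `s` is a similarity of the spin module that lifts `g` -/
def Lf' (g : G7 F) (s : Oc F ≃ₗ[F] Oc F) : Prop := ∀ v x, s (L v x) = L (g.1 v) (s x)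

section aux

open Cfsg.Lie CfsgLib.Syl2EA

omit [Finite F]

theorem boxg_mul {g k : G7 F} {s t : Oc F ≃ₗ[F] Oc F} (h : Lf' g s) (h' : Lf' k t) : Lf' (g * k) (s * t) :=
  fun v x => by rw [LinearEquiv.mul_apply, h', h, O_mul_apply, LinearEquiv.mul_apply]

theorem boxg_inv {g : G7 F} {s : Oc F ≃ₗ[F] Oc F} (h : Lf' g s) : Lf' g⁻¹ s⁻¹ := fun v x =>
  s.injective (by
    rw [h, O_apply_inv_apply]
    simp only [← LinearEquiv.mul_apply, mul_inv_cancel]; rfl)

theorem boxg_refl {a : V7 F} (ha : Q7 F a ≠ 0) :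
    ∃ s : Oc F ≃ₗ[F] Oc F, Lf' (ng (Q7 F) * refl (Q7 F) a) s ∧ ∀ x, s x = L a x := by
  have hi : Function.Injective (L a) := fun x y h => by
    have := congrArg (L a) h
    rw [L_L, L_L] at this
    exact smul_right_injective _ ha this
  refine ⟨LinearEquiv.ofInjectiveEndo (L a) hi, fun v x => ?_, fun _ => rfl⟩
  change L a (L v x) = L ((ng (Q7 F)).1 ((refl (Q7 F) a).1 v)) (L a x)
  rw [ng_apply, refl_apply, map_neg, map_sub, map_smul, LinearMap.neg_apply, LinearMap.sub_apply,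
    LinearMap.smul_apply, L_L, smul_smul, mul_right_comm, inv_mul_cancel₀ ha, one_mul, ← L_anti v a x]
  abel

theorem boxg_pure {x : Oc F} (h : x 0 + x 7 = 0) : ∃ v, emb v = x :=
  ⟨Sum.elim (fun _ => x 0) (Sum.elim ![x 1, x 2, x 3] ![x 4, x 5, x 6]), by
    apply ext8 <;> simp [emb]
    linear_combination -h⟩

theorem boxg_inj {v w : V7 F} (h : emb v = emb w) : v = w := by
  have e := fun i => congrFun h i
  funext i
  rcases i with _ | i | i
  · exact e 0
  · fin_cases i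
    exacts [e 1, e 2, e 3]
  · fin_cases i
    exacts [e 4, e 5, e 6]

theorem boxg_N (v : V7 F) : N8 F (emb v) = -Q7 F v := by
  rw [← L_e8, N8_L]; simp [N8_apply, e8]

theorem boxg_move {y : Oc F} (hy : N8 F y ≠ 0) : ∃ k t, Lf' k t ∧ t (e8 F) = y := by
  have key : ∀ p q r : F, p ^ 2 + q * r ≠ 0 → p * (y 0 - y 7) + q * y 4 + r * y 1 = 0 →
      ∃ k t, Lf' k t ∧ t (e8 F) = y := fun p q r h1 h2 => by
    let a : V7 F := Sum.elim (fun _ => p) (Sum.elim ![q, 0, 0] ![r, 0, 0])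
    have ha : Q7 F a ≠ 0 := by simpa [Q7_apply, a] using h1
    obtain ⟨b, hb⟩ := boxg_pure (x := L a y) (by
      simp [L_apply, zornMul_eq, emb, a]
      linear_combination h2)
    have hb' : Q7 F b ≠ 0 := fun e => by
      have := boxg_N b
      rw [hb, N8_L, e, neg_zero] at this
      exact mul_ne_zero (neg_ne_zero.2 ha) hy this
    obtain ⟨s, s1, s2⟩ := boxg_refl ha
    obtain ⟨t, t1, t2⟩ := boxg_refl hb'
    refine ⟨_, _, boxg_mul (boxg_inv s1) t1, s.injective ?_⟩
    rw [← LinearEquiv.mul_apply, mul_inv_cancel_left, t2, s2, L_e8, hb]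
  by_cases h4 : y 4 = 0
  · by_cases h1 : y 1 = 0
    · exact key 0 1 1 (by simp) (by simp [h4, h1])
    · exact key (-y 1) 0 (y 0 - y 7) (by simpa using h1) (by ring)
  · exact key (-y 4) (y 0 - y 7) 0 (by simpa using h4) (by ring)

theorem boxg_sq (x : Oc F) : zornMul x x = (x 0 + x 7) • x - N8 F x • e8 F := by
  apply ext8 <;> simp [zornMul_eq, N8_apply, e8] <;> ring

theorem boxg_res (a : zAut F) : ∃ g : G7 F, ∀ v, emb (g.1 v) = a.1 (emb v) := by
  have he : a.1 (e8 F) = e8 F := zAut_one a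
  have key : ∀ x : Oc F, a.1 x 0 + a.1 x 7 = x 0 + x 7 ∧ N8 F (a.1 x) = N8 F x := fun x => by
    have h := a.2 x x
    rw [boxg_sq, boxg_sq, map_sub, map_smul, map_smul, he] at h
    have h1 : a.1 x 0 + a.1 x 7 = x 0 + x 7 := by
      by_contra hn
      have hn' := sub_ne_zero.2 hn
      have e : a.1 x = ((a.1 x 0 + a.1 x 7 - (x 0 + x 7))⁻¹ * (N8 F (a.1 x) - N8 F x)) • e8 F := by
        rw [mul_smul, eq_inv_smul_iff₀ hn']
        linear_combination (norm := module) -h
      have e' := e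
      nth_rewrite 1 [← he] at e'
      rw [← map_smul] at e'
      exact hn (by rw [e.trans (a.1.injective e').symm])
    refine ⟨h1, ?_⟩
    rw [h1] at h
    simpa [e8] using (congrFun (sub_right_injective h) 0).symm
  choose f hf using fun v : V7 F => boxg_pure (x := a.1 (emb v)) ((key _).1.trans (by simp [emb]))
  have ea : ∀ v w : V7 F, emb (v + w) = emb v + emb w := fun v w => by
    simp only [← L_e8, map_add, LinearMap.add_apply]
  have es : ∀ (c : F) (v : V7 F), emb (c • v) = c • emb v := fun c v => by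
    simp only [← L_e8, map_smul, LinearMap.smul_apply]
  let φ : V7 F →ₗ[F] V7 F :=
    { toFun := f
      map_add' := fun v w => boxg_inj (by rw [ea, hf, hf, hf, ea, map_add])
      map_smul' := fun c v => boxg_inj (by rw [RingHom.id_apply, es, hf, hf, es, map_smul]) }
  have hi : Function.Injective φ := fun v w h =>
    boxg_inj (a.1.injective (by rw [← hf, ← hf]; exact congrArg emb h))
  refine ⟨⟨LinearEquiv.ofInjectiveEndo φ hi, fun v => neg_injective ?_⟩, hf⟩
  rw [← boxg_N, ← boxg_N]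
  exact (congrArg (N8 F) (hf v)).trans (key _).2

theorem boxg_aut (h2 : (2 : F) ≠ 0) {g : G7 F} {s : Oc F ≃ₗ[F] Oc F} (h : Lf' g s) (he : s (e8 F) = e8 F) :
    s ∈ zAut F ∧ ∀ v, emb (g.1 v) = s (emb v) := by
  have h1 : ∀ v, emb (g.1 v) = s (emb v) := fun v => by rw [← L_e8, ← L_e8, h, he]
  refine ⟨fun x y => ?_, h1⟩
  obtain ⟨v, hv⟩ := boxg_pure (x := x - (2⁻¹ * (x 0 + x 7)) • e8 F) (by
    simp [e8]; field_simp; ring)
  have m : ∀ (c : F) (w : V7 F) (z : Oc F), zornMul (c • e8 F + emb w) z = c • z + L w z := fun c w z => by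
    apply ext8 <;> simp [L_apply, zornMul_eq, e8, emb] <;> ring
  rw [← add_sub_cancel ((2⁻¹ * (x 0 + x 7)) • e8 F) x, ← hv, m, map_add, map_add, map_smul, map_smul, he, h, ← h1, m]

end aux

open Cfsg.Lie CfsgLib.Syl2EA in
/-- the stabiliser of a non-singular spinor -/
theorem box_g2 (h2 : (2 : F) ≠ 0) {y : Oc F} (hy : N8 F y ≠ 0) :
    ∃ θ : Cfsg.Lie.G2 F →* G7 F, Function.Injective θ ∧ θ.range < commutator (G7 F) ∧
      ∀ g : G7 F, (∃ s, Lf' g s ∧ s y = y) → g ∈ θ.range := by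
  classical
  obtain ⟨k, t, hk, ht⟩ := boxg_move hy
  let z : G2 F → zAut F := fun a => ⟨Forms.glEquiv a.1, a.2⟩
  have zm : ∀ a b, (z (a * b)).1 = (z a).1 * (z b).1 := fun a b => map_mul Forms.glEquiv a.1 b.1
  choose f hf using fun a : G2 F => boxg_res (z a)
  let θ : G2 F →* G7 F := MonoidHom.mk' f fun a b => O_ext fun v => boxg_inj (by
    rw [O_mul_apply, hf, hf, hf, zm, LinearEquiv.mul_apply])
  have hθ : ∀ a v, emb ((θ a).1 v) = (z a).1 (emb v) := hf
  have hi : Function.Injective θ := (injective_iff_map_eq_one θ).2 fun a ha => by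
    refine Subtype.ext (Forms.glEquiv.map_eq_one_iff.1 (LinearEquiv.ext fun x => ?_))
    obtain ⟨c, v, rfl⟩ := exists_L h2 (y := e8 F) (by simp [N8_apply, e8]) x
    have he : (z a).1 (e8 F) = e8 F := zAut_one _
    change (z a).1 _ = _
    rw [map_add, map_smul, he, L_e8, ← hθ, ha]
    rfl
  have hF : ∃ a : F, a ≠ 0 ∧ a ≠ 1 := ⟨-1, by simp, fun e => h2 (by linear_combination -e)⟩
  obtain ⟨φ, -⟩ := RepChk.exists_zornEquiv hF
  have hp : commutator (G2 F) = ⊤ := by
    rw [← map_top_of_surjective φ.toMonoidHom φ.surjective, ← RGD.commutator_G2 hF, commutator_def, commutator_def,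
      map_commutator, map_top_of_surjective φ.toMonoidHom φ.surjective]
  refine ⟨(MulAut.conj k).toMonoidHom.comp θ, (MulAut.conj k).injective.comp hi, lt_of_le_of_ne ?_ fun e => ?_, ?_⟩
  · rw [MonoidHom.range_eq_map, ← hp, commutator_def, commutator_def, map_commutator]
    exact commutator_mono le_top le_top
  · let w : F → F → F → F → F → V7 F := fun p q r q' r' => Sum.elim (fun _ => p) (Sum.elim ![q, q', 0] ![r, r', 0])
    have h1 : refl (Q7 F) (w 1 0 0 0 0) * refl (Q7 F) (w 0 1 1 0 0) ∈ commutator (G7 F) :=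
      refl_mul_refl_mem' (nondeg_Q7 h2) (by simp [Q7_apply, w]) (by simp [Q7_apply, w])
    obtain ⟨a, ha⟩ : k * _ * k⁻¹ ∈ ((MulAut.conj k).toMonoidHom.comp θ).range :=
      e.ge ((commutator_normal ⊤ ⊤).conj_mem _ h1 k)
    have ha' : θ a = refl (Q7 F) (w 1 0 0 0 0) * refl (Q7 F) (w 0 1 1 0 0) := (MulAut.conj k).injective ha
    have fx : ∀ v, polar (Q7 F) v (w 1 0 0 0 0) = 0 → polar (Q7 F) v (w 0 1 1 0 0) = 0 →
        (z a).1 (emb v) = emb v := fun v v1 v2 => by
      rw [← hθ, ha', O_mul_apply, refl_apply_of_orth v2, refl_apply_of_orth v1]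
    have f1 := fx (w 0 0 0 1 0) (by simp [polar_qOdd, w, Fin.sum_univ_three]) (by simp [polar_qOdd, w, Fin.sum_univ_three])
    have f2 := fx (w 0 0 0 0 1) (by simp [polar_qOdd, w, Fin.sum_univ_three]) (by simp [polar_qOdd, w, Fin.sum_univ_three])
    have f3 : emb (w 1 0 0 0 0) = zornMul (emb (w 0 0 0 1 0)) (emb (w 0 0 0 0 1)) -
        zornMul (emb (w 0 0 0 0 1)) (emb (w 0 0 0 1 0)) := by
      apply ext8 <;> simp [zornMul_eq, emb, w]
    have f4 : (z a).1 (emb (w 1 0 0 0 0)) = emb (w 1 0 0 0 0) := by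
      rw [f3, map_sub, (z a).2, (z a).2, f1, f2]
    rw [← hθ, ha', O_mul_apply, refl_apply_of_orth (v := w 0 1 1 0 0) (by simp [polar_qOdd, w, Fin.sum_univ_three]),
      refl_apply_self (v := w 1 0 0 0 0) (by simp [Q7_apply, w])] at f4
    have f5 : -(1 : F) = 1 := congrFun f4 0
    exact h2 (by linear_combination -f5)
  · rintro g ⟨s, hs, hy⟩
    obtain ⟨h1, h3⟩ := boxg_aut h2 (boxg_mul (boxg_mul (boxg_inv hk) hs) hk) (t.injective (by
      rw [← LinearEquiv.mul_apply, mul_assoc, mul_inv_cancel_left, LinearEquiv.mul_apply, ht, hy]))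
    have h4 : ∃ a : G2 F, (z a).1 = t⁻¹ * s * t := by
      obtain ⟨m, hm⟩ := Forms.glEquiv.surjective (t⁻¹ * s * t)
      rw [← hm] at h1
      exact ⟨⟨m, h1⟩, hm⟩
    obtain ⟨a, ha⟩ := h4
    have h5 : θ a = k⁻¹ * g * k := O_ext fun v => boxg_inj (by rw [hθ, h3, ha])
    exact ⟨a, by
      change k * θ a * k⁻¹ = g
      rw [h5]; group⟩

end CfsgLib.O7
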