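import Cfsg.Agent.Lib.O7.Desc
import Cfsg.Agent.Lib.O7.BoxG
import Cfsg.Agent.Lib.RepChk.Zorn

/-!
BOX: a fixed spinor line gives `G₂(F)`.  See `plans/O7B.md`.
-/

set_option autoImplicit false

namespace CfsgLib.O7

open CfsgLib.OrthE CfsgLib.OMax Module QuadraticMap Subgroup
open scoped MatrixGroups commutatorElement

variable {K G : Type*} [Field K] [Group G] {ρ : G →* G7 K}

section aux

variable {F : Type*} [Field F] {H P : Subgroup (G7 F)}

theorem Lf'.mul {g k : G7 F} {s t : Oc F ≃ₗ[F] Oc F} (h : Lf' g s) (h' : Lf' k t) :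
    Lf' (g * k) (s * t) :=
  fun v x => by rw [LinearEquiv.mul_apply, h', h, O_mul_apply, LinearEquiv.mul_apply]

theorem Lf'.inv {g : G7 F} {s : Oc F ≃ₗ[F] Oc F} (h : Lf' g s) : Lf' g⁻¹ s⁻¹ := fun v x =>
  s.injective (by
    rw [h, O_apply_inv_apply, ← LinearEquiv.mul_apply, ← LinearEquiv.mul_apply, mul_inv_cancel]
    rfl)

/-- the elements with a lift in `A` -/
def boxL (A : Subgroup (Oc F ≃ₗ[F] Oc F)) : Subgroup (G7 F) where
  carrier := {g | ∃ s ∈ A, Lf' g s}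
  one_mem' := ⟨1, A.one_mem, fun _ _ => rfl⟩
  mul_mem' := fun ⟨s, hs, h⟩ ⟨t, ht, h'⟩ => ⟨s * t, A.mul_mem hs ht, h.mul h'⟩
  inv_mem' := fun ⟨s, hs, h⟩ => ⟨s⁻¹, A.inv_mem hs, h.inv⟩

theorem box_eich {u v : V7 F} (hu : Q7 F u = 0) (huv : polar (Q7 F) u v = 0) :
    eich (Q7 F) u v ∈ boxL ⊤ := by
  have a : ∀ z, L u (L u z) = 0 := fun z => by rw [L_L, hu, zero_smul]
  have b : ∀ z, L v (L u z) = -L u (L v z) := fun z => by
    have := L_anti u v z
    rw [huv, zero_smul] at this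
    exact eq_neg_of_add_eq_zero_right this
  have n : ∀ z, L u (L v (L u (L v z))) = 0 := fun z => by rw [b, map_neg, a, neg_zero]
  refine ⟨LinearEquiv.ofLinearMap (1 + L u * L v) (1 - L u * L v) (LinearMap.ext fun z => ?_)
    (LinearMap.ext fun z => ?_), mem_top _, fun x y => ?_⟩
  · simp [n]
  · simp [n]
  · have c : L v (L x y) = polar (Q7 F) x v • y - L x (L v y) := eq_sub_of_add_eq' (L_anti x v y)
    have d : ∀ z, L u (L x z) = polar (Q7 F) x u • z - L x (L u z) := fun z =>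
      eq_sub_of_add_eq' (L_anti x u z)
    rw [eich_apply hu huv]
    simp only [LinearEquiv.coe_ofLinearMap, LinearMap.add_apply, Module.End.one_apply,
      Module.End.mul_apply, map_add, map_sub, map_smul, LinearMap.sub_apply, LinearMap.smul_apply]
    rw [c, map_sub, map_smul, d, a, b, L_L v, map_smul]
    module

/-- the stabiliser of a vector -/
def boxS {Γ W : Type*} [Group Γ] [AddCommGroup W] [Module K W] (φ : Γ →* Module.End K W) (y : W) :
    Subgroup Γ where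
  carrier := {s | φ s y = y}
  one_mem' := by simp
  mul_mem' {s t} hs ht := by
    have hs : φ s y = y := hs
    have ht : φ t y = y := ht
    show φ (s * t) y = y
    rw [map_mul, Module.End.mul_apply, ht, hs]
  inv_mem' {s} hs := by
    have hs : φ s y = y := hs
    show φ s⁻¹ y = y
    conv_lhs => rw [← hs, ← Module.End.mul_apply, ← map_mul, inv_mul_cancel, map_one]
    rfl

theorem box_comm {Γ W : Type*} [Group Γ] [AddCommGroup W] [Module K W] (φ : Γ →* Module.End K W)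
    {y : W} {s t : Γ} (hs : ∃ c : K, φ s y = c • y) (ht : ∃ c : K, φ t y = c • y) :
    ⁅s, t⁆ ∈ boxS φ y := by
  obtain ⟨c, hs⟩ := hs
  obtain ⟨d, ht⟩ := ht
  have h1 : φ (t * s) y = (c * d) • y := by
    rw [map_mul, Module.End.mul_apply, hs, map_smul, ht, smul_smul]
  have h2 : φ (s * t) y = (c * d) • y := by
    rw [map_mul, Module.End.mul_apply, ht, map_smul, hs, smul_smul, mul_comm]
  have h3 : φ ⁅s, t⁆ (φ (t * s) y) = φ (s * t) y := by
    rw [← Module.End.mul_apply, ← map_mul, commutatorElement_def]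
    congr 2
    group
  show φ ⁅s, t⁆ y = y
  by_cases h0 : c * d = 0
  · have : y = φ (t * s)⁻¹ (φ (t * s) y) := by
      rw [← Module.End.mul_apply, ← map_mul, inv_mul_cancel, map_one]
      rfl
    rw [h1, h0, zero_smul, map_zero] at this
    rw [this, map_zero]
  · rw [h1, h2, map_smul] at h3
    exact smul_right_injective W h0 h3

/-- base change of an automorphism of the spin module -/
noncomputable def boxBC (f : F →+* K) : (Oc F ≃ₗ[F] Oc F) →* Module.End K (Oc K) where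
  toFun s := Matrix.toLin' ((LinearMap.toMatrix' (s : Oc F →ₗ[F] Oc F)).map f)
  map_one' := by
    rw [LinearEquiv.coe_toLinearMap_one, LinearMap.toMatrix'_id,
      Matrix.map_one _ (map_zero f) (map_one f), Matrix.toLin'_one]
    rfl
  map_mul' s t := by
    rw [LinearEquiv.coe_toLinearMap_mul, LinearMap.toMatrix'_mul, Matrix.map_mul, Matrix.toLin'_mul]
    rfl

theorem boxBC_c (f : F →+* K) (s : Oc F ≃ₗ[F] Oc F) (x : Oc F) : boxBC f s (f ∘ x) = f ∘ s x :=
  funext fun i => by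
    show Matrix.toLin' _ _ i = _
    rw [Matrix.toLin'_apply, ← RingHom.map_mulVec, LinearMap.toMatrix'_mulVec]
    rfl

theorem boxBC_l {f : F →+* K} {l : K →+ F} (hl : Desc.IsL f l) (s : Oc F ≃ₗ[F] Oc F) (x : Oc K) :
    (l ∘ boxBC f s x : Oc F) = s (l ∘ x) := funext fun i => by
  show l (Matrix.toLin' _ _ i) = (s : Oc F →ₗ[F] Oc F) _ i
  rw [Matrix.toLin'_apply, ← LinearMap.toMatrix'_mulVec, Matrix.mulVec, Matrix.mulVec, dotProduct,
    dotProduct, map_sum]
  exact Finset.sum_congr rfl fun j _ => hl _ _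

theorem box_cL (f : F →+* K) (v : V7 F) (x : Oc F) :
    L (f ∘ v : V7 K) (f ∘ x : Oc K) = f ∘ L v x := funext fun i => by
  fin_cases i <;> simp [L_apply, Cfsg.Lie.zornMul, emb, Cfsg.Lie.dot3, Cfsg.Lie.cross3]

theorem box_lf {f : F →+* K} {g : G7 F} {g' : G7 K} (hg : ∀ v, g'.1 (f ∘ v) = f ∘ g.1 v)
    {s : Oc F ≃ₗ[F] Oc F} (hs : Lf' g s) (v : V7 K) (x : Oc K) :
    boxBC f s (L v x) = L (g'.1 v) (boxBC f s x) := by
  have : L.compr₂ (boxBC f s) = L.compl₁₂ (en g') (boxBC f s) := by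
    refine LinearMap.ext_basis (Pi.basisFun K I7) (Pi.basisFun K (Fin 8)) fun i j => ?_
    have e : (Pi.single j 1 : Oc K) = f ∘ (Pi.single j 1 : Oc F) := funext fun k => by
      simp [Pi.single_apply, apply_ite f]
    rw [LinearMap.compr₂_apply, LinearMap.compl₁₂_apply, Pi.basisFun_apply, Pi.basisFun_apply,
      ← Desc.c_single (f := f), e, en_apply, hg, box_cL, boxBC_c, boxBC_c, box_cL, hs]
  exact LinearMap.congr_fun₂ this v x

theorem box_exists_l (f : F →+* K) {a : K} (ha : a ≠ 0) : ∃ l : K →+ F, Desc.IsL f l ∧ l a ≠ 0 := by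
  let _ := f.toAlgebra
  obtain ⟨l, hl⟩ := Module.Projective.exists_dual_ne_zero F ha
  exact ⟨l.toAddMonoidHom, fun c x => l.map_smul c x, hl⟩

/-- two lifts differ by a scalar -/
theorem Lf'.uniq (h2 : (2 : F) ≠ 0) {g : G7 F} {s t : Oc F ≃ₗ[F] Oc F} (hs : Lf' g s)
    (ht : Lf' g t) : ∃ c : F, ∀ x, t x = c • s x := by
  obtain ⟨c, hc⟩ := comm_L h2 (s⁻¹ * t : Oc F ≃ₗ[F] Oc F) fun v x => by
    simpa using hs.inv.mul ht v x
  refine ⟨c, fun x => ?_⟩
  rw [← map_smul, ← hc]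
  exact (s.apply_symm_apply _).symm

end aux

variable {F : Type*} [Field F] [Finite F] {H P : Subgroup (G7 F)}

theorem Core.box_lift (h : Core (Q7 F) H P) {g : G7 F} (hg : g ∈ H) : ∃ s, Lf' g s := by
  have : g ∈ E (Q7 F) := E_eq h.nd h.five ▸ h.lt.le hg
  obtain ⟨s, -, hs⟩ := E_le (H := boxL ⊤) (fun _ _ => box_eich) this
  exact ⟨s, hs⟩

theorem Core.box_perf (h : Core (Q7 F) H P) {A : Subgroup (Oc F ≃ₗ[F] Oc F)}
    (hA : ∀ g ∈ P, ∀ k ∈ P, ∀ s t, Lf' g s → Lf' k t → ⁅s, t⁆ ∈ A) : P ≤ boxL A := by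
  have := h.simple
  have e : commutator P = ⊤ := (inferInstance : (commutator P).Normal).eq_bot_or_eq_top.resolve_left
    fun e => h.ncomm ⟨⟨fun a b => commutatorElement_eq_one_iff_mul_comm.1
      (mem_bot.1 (e ▸ commutator_mem_commutator (mem_top a) (mem_top b)))⟩⟩
  have e2 : ⁅P, P⁆ = P := by
    rw [← map_subtype_commutator, e, ← MonoidHom.range_eq_map, range_subtype]
  rw [← e2]
  refine commutator_le.2 fun g hg k hk => ?_
  obtain ⟨s, hs⟩ := h.box_lift (h.le hg)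
  obtain ⟨t, ht⟩ := h.box_lift (h.le hk)
  exact ⟨_, hA g hg k hk s t hs ht, ((hs.mul ht).mul hs.inv).mul ht.inv⟩

/-- the fixed line is rational, non-singular and fixed by the lifts of `H` -/
theorem Core.box_line [IsAlgClosed K] (h : Core (Q7 F) H P) {f : F →+* K} {ρ : P →* G7 K}
    (hρ : BC f P.subtype ρ) (hy : Hy ρ) (hf : FixL ρ) :
    ∃ y : Oc F, N8 F y ≠ 0 ∧ ∀ g ∈ H, ∃ s, Lf' g s ∧ s y = y := by
  obtain ⟨y0, y00, hf⟩ := hf
  have ev : ∀ g ∈ P, ∀ s, Lf' g s → ∃ c : K, boxBC f s y0 = c • y0 := fun g hg s hs => by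
    obtain ⟨t, ht⟩ := hy.lift ⟨g, hg⟩
    obtain ⟨d, hd⟩ := hf _ t ht
    obtain ⟨c, hc⟩ := comm_L hy.two (en t⁻¹ * boxBC f s) fun v x => by
      rw [Module.End.mul_apply, Module.End.mul_apply, box_lf (hρ ⟨g, hg⟩) hs, en_apply, en_apply,
        ht.inv, O_inv_apply_apply]
    refine ⟨c * d, ?_⟩
    rw [mul_smul, ← hd, ← map_smul, ← hc, Module.End.mul_apply, en_apply, O_apply_inv_apply]
  have h1 := h.box_perf (A := boxS (boxBC f) y0) fun g hg k hk s t hs ht =>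
    box_comm _ (ev g hg s hs) (ev k hk t ht)
  obtain ⟨i, hi⟩ := Function.ne_iff.1 y00
  obtain ⟨l, hl, li⟩ := box_exists_l f hi
  obtain ⟨y, y0', h2⟩ : ∃ y : Oc F, y ≠ 0 ∧ ∀ g ∈ P, ∃ s, Lf' g s ∧ s y = y := by
    refine ⟨l ∘ y0, fun e => li (congrFun e i), fun g hg => ?_⟩
    obtain ⟨s, hs, hs'⟩ := h1 hg
    exact ⟨s, hs', by rw [← boxBC_l hl, show boxBC f s y0 = y0 from hs]⟩
  have hN : N8 F y ≠ 0 := fun hN => by
    obtain ⟨v, v0, hv⟩ := exists_ann hN
    obtain ⟨w, hw⟩ := exists_not_ann y0'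
    rcases h.irr (LinearMap.ker (L.flip y)) (fun g hg v hv => by
      obtain ⟨s, hs, e⟩ := h2 g hg
      have hv : L v y = 0 := hv
      show L (g.1 v) y = 0
      rw [← e, ← hs, hv, map_zero]) with e | e
    · exact v0 ((Submodule.mem_bot F).1 (e ▸ (hv : v ∈ LinearMap.ker (L.flip y))))
    · exact hw (e ▸ Submodule.mem_top : w ∈ LinearMap.ker (L.flip y))
  refine ⟨y, hN, fun g hg => ?_⟩
  obtain ⟨t, ht⟩ := h.box_lift hg
  let φ : (Oc F ≃ₗ[F] Oc F) →* Module.End F (Oc F) := LinearEquiv.automorphismGroup.toLinearMapMonoidHom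
  have ev1 : ∀ k ∈ P, ∀ s, Lf' k s → ∃ c : F, φ s y = c • y := fun k hk s hs => by
    obtain ⟨s', hs', e⟩ := h2 k hk
    obtain ⟨c, hc⟩ := hs'.uniq h.two hs
    exact ⟨c, (hc y).trans (by rw [e])⟩
  have ev2 : ∀ k ∈ P, ∀ s, Lf' k s → ∃ c : F, φ s (t y) = c • t y := fun k hk s hs => by
    obtain ⟨c, hc⟩ := ev1 _ (h.nrm _ (H.inv_mem hg) k hk) _ ((ht.inv.mul hs).mul ht.inv.inv)
    refine ⟨c, ?_⟩
    rw [← map_smul, ← hc]
    exact (t.apply_symm_apply _).symm
  have h3 := h.box_perf (A := boxS φ y ⊓ boxS φ (t y)) fun a ha k hk s s' hs hs' =>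
    ⟨box_comm _ (ev1 a ha s hs) (ev1 k hk s' hs'), box_comm _ (ev2 a ha s hs) (ev2 k hk s' hs')⟩
  obtain ⟨c, v, e⟩ := exists_L h.two hN (t y)
  have h4 : ∀ k ∈ P, k.1 v = v := fun k hk => by
    obtain ⟨s, ⟨e1, e2⟩, hs⟩ := h3 hk
    have e1 : s y = y := e1
    have e2 : s (t y) = t y := e2
    rw [e, map_add, map_smul, hs, e1, add_right_inj] at e2
    exact sub_eq_zero.1 (L_eq_zero hN (by rw [map_sub, LinearMap.sub_apply, e2, sub_self]))
  have v0 : v = 0 := by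
    rcases h.irr (Submodule.span F {v}) (fun k hk w hw => by
      obtain ⟨a, rfl⟩ := Submodule.mem_span_singleton.1 hw
      rw [map_smul, h4 k hk]
      exact hw) with e | e
    · exact Submodule.span_singleton_eq_bot.1 e
    · have := finrank_span_le_card (R := F) ({v} : Set (V7 F))
      rw [e, finrank_top, finrank_V7] at this
      simp at this
  rw [v0, map_zero, LinearMap.zero_apply, add_zero] at e
  have c0 : c ≠ 0 := fun c0 => y0' (t.injective (by rw [e, c0, zero_smul, map_zero]))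
  refine ⟨LinearEquiv.smulOfNeZero F (Oc F) c⁻¹ (inv_ne_zero c0) * t, fun w x => ?_, ?_⟩
  · simp [ht w x]
  · simp [e, smul_smul, c0]

theorem Core.box [IsAlgClosed K] (h : Core (Q7 F) H P) {f : F →+* K} {ρ : P →* G7 K}
    (hρ : BC f P.subtype ρ) (hy : Hy ρ) (hf : FixL ρ) : Nonempty (P ≃* Cfsg.Lie.G2 F) := by
  obtain ⟨y, hN, h1⟩ := h.box_line hρ hy hf
  obtain ⟨θ, hθ, lt, h2⟩ := box_g2 h.two hN
  have e := (h.max θ.range (fun g hg => h2 g (h1 g hg)) lt.le).resolve_right lt.ne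
  have hF : ∃ a : F, a ≠ 0 ∧ a ≠ 1 := ⟨-1, by simp, fun e => h.two (by linear_combination -e)⟩
  obtain ⟨ψ, -⟩ := RepChk.exists_zornEquiv hF
  have := RGD.isSimpleGroup_G2 hF
  have := ψ.symm.isSimpleGroup
  have := (MonoidHom.ofInjective hθ).symm.isSimpleGroup
  have hn : (P.subgroupOf θ.range).Normal := ⟨fun a ha g => h.nrm _ (e ▸ g.2) _ ha⟩
  have e2 : P = θ.range := le_antisymm (e ▸ h.le) (subgroupOf_eq_top.1 (hn.eq_bot_or_eq_top.resolve_left
    fun e3 => h.ne_bot ((subgroupOf_eq_bot.1 e3).eq_bot_of_le (e ▸ h.le))))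
  exact ⟨(MulEquiv.subgroupCongr e2).trans (MonoidHom.ofInjective hθ).symm⟩

end CfsgLib.O7
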