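import Mathlib
import Cfsg.Agent.Lib.OMax.Spin
import Cfsg.Agent.Lib.RootMax.GL
import Cfsg.Agent.Lib.TriGen.Cyc
import Cfsg.Prelude.Def_G2
import Cfsg.Prelude.Def_KGroupFacts

/-!
Vocabulary for the simple irreducible subgroups of `Ω₇(q)`, `q` odd.  See `plans/O7.md`.
-/

set_option autoImplicit false

namespace CfsgLib.O7

open CfsgLib.OrthE CfsgLib.OMax Module QuadraticMap Subgroup

/-! ### isometries of a general quadratic space -/

section gen

variable {F V : Type*} [Field F] [AddCommGroup V] [Module F V] {Q : QuadraticForm F V}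

/-- the endomorphism of an isometry -/
def en (g : O Q) : Module.End F V := (g.1 : V →ₗ[F] V)

theorem en_apply (g : O Q) (v : V) : en g v = g.1 v := rfl

theorem en_one : en (1 : O Q) = 1 := rfl

theorem en_mul (g k : O Q) : en (g * k) = en g * en k := rfl

/-- `en` as a homomorphism -/
def enH (Q : QuadraticForm F V) : O Q →* Module.End F V := ⟨⟨en, en_one⟩, en_mul⟩

theorem en_pow (g : O Q) (n : ℕ) : en (g ^ n) = en g ^ n := map_pow (enH Q) g n

theorem en_inj {g k : O Q} (h : en g = en k) : g = k := O_ext fun v => LinearMap.congr_fun h v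

/-- the trace -/
noncomputable def tr (g : O Q) : F := LinearMap.trace F V (en g)

/-- the rank of `g - 1` -/
noncomputable def rk (g : O Q) : ℕ := finrank F (LinearMap.range (en g - 1))

/-- the dimension of the fixed space -/
noncomputable def fx (g : O Q) : ℕ := finrank F (LinearMap.ker (en g - 1))

theorem rk_add_fx [FiniteDimensional F V] (g : O Q) : rk g + fx g = finrank F V :=
  LinearMap.finrank_range_add_finrank_ker _

variable (Q) in
/-- minus the identity -/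
def ng : O Q := ⟨LinearEquiv.neg F, fun x => Q_neg Q x⟩

theorem ng_apply (v : V) : (ng Q).1 v = -v := rfl

theorem ng_mul_ng : ng Q * ng Q = 1 := O_ext fun v => neg_neg v

theorem ng_comm (g : O Q) : ng Q * g = g * ng Q := O_ext fun v => (map_neg g.1 v).symm

/-- `r` normalises `P` -/
def Nm (P : Subgroup (O Q)) (r : O Q) : Prop := ∀ x ∈ P, r * x * r⁻¹ ∈ P

/-- The standing hypothesis over the finite field: `H` is maximal in `Ω`, with socle `P`. -/
structure Core (Q : QuadraticForm F V) (H P : Subgroup (O Q)) : Prop where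
  two : (2 : F) ≠ 0
  nd : Nondeg Q
  dim : finrank F V = 7
  lt : H < commutator (O Q)
  max : ∀ M, H ≤ M → M ≤ commutator (O Q) → M = H ∨ M = commutator (O Q)
  le : P ≤ H
  nrm : ∀ h ∈ H, Nm P h
  simple : IsSimpleGroup P
  ncomm : ¬ IsMulCommutative P
  cent : ∀ h ∈ H, (∀ x ∈ P, h * x = x * h) → h = 1
  abs : Submodule.span F (en '' (P : Set (O Q))) = ⊤
  nosub : ∀ F₀ : Subfield F, (∀ x ∈ P, tr x ∈ F₀) → F₀ = ⊤

/-- Part A: the orbit `R` of a vector whose reflection normalises `P`, scaled to norm one. -/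
structure RS (Q : QuadraticForm F V) (H P : Subgroup (O Q)) (R : Set V) : Prop
    extends Core Q H P where
  ne : R.Nonempty
  one : ∀ u ∈ R, Q u = 1
  neg : ∀ u ∈ R, -u ∈ R
  ref : ∀ u ∈ R, ∀ w ∈ R, (refl Q u).1 w ∈ R
  inv : ∀ h ∈ H, ∀ u ∈ R, h.1 u ∈ R
  trans : ∀ u ∈ R, ∀ w ∈ R, ∃ h ∈ H, h.1 u = w ∨ h.1 u = -w
  mem : ∀ u ∈ R, ∀ w ∈ R, refl Q u * refl Q w ∈ H
  nm : ∀ u ∈ R, Nm P (refl Q u)

/-- the group generated by the reflections in the roots -/
def RG (Q : QuadraticForm F V) (R : Set V) : Subgroup (O Q) := closure (refl Q '' R)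

/-- `u` and `v` are different up to sign -/
def Df (u v : V) : Prop := v ≠ u ∧ v ≠ -u

/-- the reflections in the roots `u`, `v` do not commute -/
def NC (Q : QuadraticForm F V) (u v : V) : Prop := Df u v ∧ polar Q u v ≠ 0

/-- symplectic type -/
def SymR (Q : QuadraticForm F V) (R : Set V) : Prop :=
  ∀ a ∈ R, ∀ b ∈ R, ∀ c ∈ R, NC Q a b → NC Q c a → NC Q c b → ¬ NC Q c ((refl Q a).1 b)

/-- `s` is `τ²` or its conjugate -/
def Gold (s : F) : Prop := s ^ 2 - 3 * s + 1 = 0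

/-- what Dickson's theorem leaves when no `Ω₃(q₀)`, `q₀ ≥ 5`, occurs -/
structure Tame (Q : QuadraticForm F V) (R : Set V) : Prop where
  val : ∀ u ∈ R, ∀ v ∈ R, Df u v → polar Q u v = 0 ∨ Spec (polar Q u v ^ 2)
  uni : ∀ u ∈ R, ∀ v ∈ R, Df u v → polar Q u v ^ 2 = 4 → (3 : F) = 0
  five : ∀ u ∈ R, ∀ v ∈ R, ∀ w ∈ R, Df u v → Gold (polar Q u v ^ 2) →
    w ∉ Submodule.span F {u, v} → polar Q w u = 0 ∨ polar Q w v = 0 ∨
      polar Q w ((refl Q u).1 v) = 0 ∨ polar Q w ((refl Q v).1 u) = 0 ∨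
      polar Q w ((refl Q u).1 ((refl Q v).1 u)) = 0
  four : (3 : F) ≠ 0 → ∀ u ∈ R, ∀ v ∈ R, ∀ w ∈ R, polar Q u v ^ 2 = 2 →
    w ∉ Submodule.span F {u, v} → polar Q w u = 0 ∨ polar Q w v = 0 ∨
      polar Q w ((refl Q u).1 v) = 0 ∨ polar Q w ((refl Q v).1 u) = 0

/-- simply laced -/
def Lace (Q : QuadraticForm F V) (R : Set V) : Prop :=
  ∀ u ∈ R, ∀ v ∈ R, Df u v → polar Q u v = 0 ∨ polar Q u v = 1 ∨ polar Q u v = -1

/-- the conclusion of part A -/
def OutA (F : Type*) (P : Type*) [Group P] : Prop :=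
  (Nonempty (P ≃* alternatingGroup (Fin 9)) ∧ Nat.card F = 3) ∨
    (Nonempty (P ≃* Cfsg.PSp 3 (ZMod 2)) ∧ (Nat.card F).Prime)

variable {G : Type*} [Group G]

/-- no invariant subspace -/
def Irr (ρ : G →* O Q) : Prop :=
  ∀ W : Submodule F V, (∀ g, ∀ v ∈ W, (ρ g).1 v ∈ W) → W = ⊥ ∨ W = ⊤

/-- `u` is a non-singular common eigenvector of a Sylow 2-subgroup -/
def Eg (ρ : G →* O Q) (u : V) : Prop :=
  Q u ≠ 0 ∧ ∃ S : Sylow 2 G, ∀ s ∈ S, (ρ s).1 u = u ∨ (ρ s).1 u = -u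

/-- these eigenvectors form a root system without unipotent pairs -/
structure Rig (ρ : G →* O Q) : Prop where
  ne : ∃ u, Eg ρ u
  ref : ∀ u v, Eg ρ u → Eg ρ v → Eg ρ ((refl Q u).1 v)
  par : ∀ u v, Eg ρ u → Eg ρ v → polar Q u v ^ 2 = 4 * (Q u * Q v) → ∃ c : F, v = c • u

end gen

/-! ### the standard form in dimension seven and its spin module -/

/-- the index set -/
abbrev I7 : Type := Unit ⊕ (Fin 3 ⊕ Fin 3)

/-- the natural module -/
abbrev V7 (K : Type*) := I7 → K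

/-- the split octonions -/
abbrev Oc (K : Type*) := Fin 8 → K

variable {K : Type*} [Field K]

/-- `x₀² + Σ xᵢ yᵢ` -/
abbrev Q7 (K : Type*) [Field K] : QuadraticForm K (V7 K) := qOdd K 3

/-- the orthogonal group -/
abbrev G7 (K : Type*) [Field K] : Type _ := O (Q7 K)

/-- the norm form `α β - a · b` -/
def N8 (K : Type*) [Field K] : QuadraticForm K (Oc K) :=
  linMulLin (LinearMap.proj 0) (LinearMap.proj 7) - linMulLin (LinearMap.proj 1) (LinearMap.proj 4)
    - linMulLin (LinearMap.proj 2) (LinearMap.proj 5) - linMulLin (LinearMap.proj 3) (LinearMap.proj 6)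

theorem N8_apply (x : Oc K) : N8 K x = x 0 * x 7 - x 1 * x 4 - x 2 * x 5 - x 3 * x 6 := by
  simp [N8]

theorem polar_N8 (x y : Oc K) : polar (N8 K) x y = x 0 * y 7 + x 7 * y 0 - x 1 * y 4 - x 4 * y 1
    - x 2 * y 5 - x 5 * y 2 - x 3 * y 6 - x 6 * y 3 := by
  simp only [polar, N8_apply, Pi.add_apply]; ring

theorem Q7_apply (v : V7 K) : Q7 K v = v (.inl ()) ^ 2 + v (.inr (.inl 0)) * v (.inr (.inr 0)) +
    v (.inr (.inl 1)) * v (.inr (.inr 1)) + v (.inr (.inl 2)) * v (.inr (.inr 2)) := by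
  rw [qOdd_apply, Fin.sum_univ_three]; ring

/-- the orthogonal group of the norm form -/
abbrev G8 (K : Type*) [Field K] : Type _ := O (N8 K)

/-- the octonions of trace zero -/
def emb (v : V7 K) : Oc K :=
  ![v (.inl ()), v (.inr (.inl 0)), v (.inr (.inl 1)), v (.inr (.inl 2)),
    v (.inr (.inr 0)), v (.inr (.inr 1)), v (.inr (.inr 2)), -v (.inl ())]

/-- the unit -/
def e8 (K : Type*) [Field K] : Oc K := ![1, 0, 0, 0, 0, 0, 0, 1]

/-- left multiplication by the octonion of `v` -/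
def L : V7 K →ₗ[K] Module.End K (Oc K) :=
  LinearMap.mk₂ K (fun v x => Cfsg.Lie.zornMul (emb v) x)
    (fun v w x => funext fun i => by
      fin_cases i <;> simp [Cfsg.Lie.zornMul, emb, Cfsg.Lie.dot3, Cfsg.Lie.cross3] <;> ring)
    (fun c v x => funext fun i => by
      fin_cases i <;> simp [Cfsg.Lie.zornMul, emb, Cfsg.Lie.dot3, Cfsg.Lie.cross3] <;> ring)
    (fun v x y => funext fun i => by
      fin_cases i <;> simp [Cfsg.Lie.zornMul, emb, Cfsg.Lie.dot3, Cfsg.Lie.cross3] <;> ring)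
    (fun c v x => funext fun i => by
      fin_cases i <;> simp [Cfsg.Lie.zornMul, emb, Cfsg.Lie.dot3, Cfsg.Lie.cross3] <;> ring)

theorem L_apply (v : V7 K) (x : Oc K) : L v x = Cfsg.Lie.zornMul (emb v) x := rfl

/-- `s` lifts `g` to the spin module -/
def Lf (g : G7 K) (s : G8 K) : Prop := ∀ v x, s.1 (L v x) = L (g.1 v) (s.1 x)

theorem Lf.one : Lf (1 : G7 K) 1 := fun _ _ => rfl

theorem Lf.mul {g k : G7 K} {s t : G8 K} (h : Lf g s) (h' : Lf k t) : Lf (g * k) (s * t) :=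
  fun v x => by rw [O_mul_apply, h', h, O_mul_apply, O_mul_apply]

theorem Lf.inv {g : G7 K} {s : G8 K} (h : Lf g s) : Lf g⁻¹ s⁻¹ := fun v x =>
  O_inv_apply_eq s (by rw [h, O_apply_inv_apply, O_apply_inv_apply])

theorem Lf.pow {g : G7 K} {s : G8 K} (h : Lf g s) (n : ℕ) : Lf (g ^ n) (s ^ n) := by
  induction n with
  | zero => simpa using Lf.one
  | succ n ih => rw [pow_succ, pow_succ]; exact ih.mul h

theorem Lf.ng1 : Lf (1 : G7 K) (ng (N8 K)) := fun v x => by
  rw [ng_apply, ng_apply, map_neg, O_one_apply]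

theorem Lf.neg {g : G7 K} {s : G8 K} (h : Lf g s) : Lf g (ng (N8 K) * s) := by
  simpa using Lf.ng1.mul h

variable {G : Type*} [Group G]

/-- all lifts fix a line of the spin module -/
def FixL (ρ : G →* G7 K) : Prop :=
  ∃ y : Oc K, y ≠ 0 ∧ ∀ g s, Lf (ρ g) s → ∃ c : K, s.1 y = c • y

/-- `ψ` lifts `ρ` -/
def Spl (ρ : G →* G7 K) (ψ : G →* G8 K) : Prop := ∀ g, Lf (ρ g) (ψ g)

/-- The standing hypothesis of part B. -/
structure Hy (ρ : G →* G7 K) : Prop where
  two : (2 : K) ≠ 0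
  simple : IsSimpleGroup G
  ncomm : ¬ IsMulCommutative G
  inj : Function.Injective ρ
  irr : Irr ρ
  nr : ∀ v, Q7 K v ≠ 0 → ¬ Nm ρ.range (refl (Q7 K) v)

/-- `ρ'` is the base change of `ρ` -/
def BC {F : Type*} [Field F] (f : F →+* K) (ρ : G →* G7 F) (ρ' : G →* G7 K) : Prop :=
  ∀ g v, (ρ' g).1 (f ∘ v) = f ∘ (ρ g).1 v

/-- the generators of `A₄` -/
structure A4 (z₁ z₂ σ : G) : Prop where
  ne : z₁ ≠ 1
  sq : z₁ * z₁ = 1
  comm : z₁ * z₂ = z₂ * z₁
  c₁ : σ * z₁ * σ⁻¹ = z₂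
  c₂ : σ * z₂ * σ⁻¹ = z₁ * z₂
  cube : σ ^ 3 = 1

theorem finrank_V7 : finrank K (V7 K) = 7 := by simp

theorem finrank_Oc : finrank K (Oc K) = 8 := by simp

theorem nondeg_Q7 (h2 : (2 : K) ≠ 0) : Nondeg (Q7 K) := nondeg_qOdd h2 3

theorem nondeg_N8 : Nondeg (N8 K) := fun x h => by
  have := fun i => h (Pi.single i 1)
  funext i
  fin_cases i
  · simpa [polar_N8] using this 7
  · simpa [polar_N8] using this 4
  · simpa [polar_N8] using this 5
  · simpa [polar_N8] using this 6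
  · simpa [polar_N8] using this 1
  · simpa [polar_N8] using this 2
  · simpa [polar_N8] using this 3
  · simpa [polar_N8] using this 0

theorem L_e8 (v : V7 K) : L v (e8 K) = emb v := funext fun i => by
  fin_cases i <;> simp [L_apply, Cfsg.Lie.zornMul, emb, e8, Cfsg.Lie.dot3, Cfsg.Lie.cross3]

theorem L_L (v : V7 K) (x : Oc K) : L v (L v x) = Q7 K v • x := funext fun i => by
  rw [Q7_apply]
  fin_cases i <;> simp [L_apply, Cfsg.Lie.zornMul, emb, Cfsg.Lie.dot3, Cfsg.Lie.cross3] <;> ring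

theorem L_anti (v w : V7 K) (x : Oc K) : L v (L w x) + L w (L v x) = polar (Q7 K) v w • x := by
  have := L_L (v + w) x
  rw [Q_add, add_smul, add_smul, ← L_L, ← L_L] at this
  simp only [map_add, LinearMap.add_apply] at this
  linear_combination (exp := 1) this

theorem L_skew (v : V7 K) (x y : Oc K) : polar (N8 K) (L v x) y = -polar (N8 K) x (L v y) := by
  simp [polar_N8, L_apply, Cfsg.Lie.zornMul, emb, Cfsg.Lie.dot3, Cfsg.Lie.cross3]
  ring

theorem N8_L (v : V7 K) (x : Oc K) : N8 K (L v x) = -Q7 K v * N8 K x := by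
  simp [N8_apply, Q7_apply, L_apply, Cfsg.Lie.zornMul, emb, Cfsg.Lie.dot3, Cfsg.Lie.cross3]
  ring

end CfsgLib.O7
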