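import Cfsg.Agent.Lib.O7.Defs
import Cfsg.Agent.Lib.FTHM.Sympl
import Cfsg.Agent.Lib.FTHM.Ident

/-!
More vocabulary for part A: the negative reflections as 3-transpositions.  See `plans/O7B.md`.
-/

set_option autoImplicit false

namespace CfsgLib.O7

open CfsgLib.OrthE CfsgLib.OMax Module QuadraticMap Subgroup

variable {F V : Type*} [Field F] [AddCommGroup V] [Module F V]

/-- the negative of the reflection in `u` -/
def nr (Q : QuadraticForm F V) (u : V) : O Q := ng Q * refl Q u

/-- the group generated by the negative reflections -/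
def GT (Q : QuadraticForm F V) (R : Set V) : Subgroup (O Q) := closure (nr Q '' R)

/-- the negative reflections inside the group they generate -/
def DT (Q : QuadraticForm F V) (R : Set V) : Set (GT Q R) := {d | ∃ u ∈ R, d.1 = nr Q u}

/-- a string of roots with the Gram matrix of type `A` -/
structure Str (Q : QuadraticForm F V) (R : Set V) {n : ℕ} (a : Fin n → V) : Prop where
  mem : ∀ i, a i ∈ R
  adj : ∀ i j : Fin n, i.1 + 1 = j.1 → polar Q (a i) (a j) = -1
  far : ∀ i j : Fin n, i.1 + 1 < j.1 → polar Q (a i) (a j) = 0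

/-- the simply laced, symplectic situation -/
structure SL (Q : QuadraticForm F V) (H P : Subgroup (O Q)) (R : Set V) : Prop
    extends RS Q H P R where
  lace : Lace Q R
  sym : SymR Q R
  prime : (Nat.card F).Prime

/-- no root is next to both a golden pair and a pair with value `√2` -/
def NoMix (Q : QuadraticForm F V) (R : Set V) : Prop :=
  ∀ u ∈ R, ∀ v ∈ R, ∀ w ∈ R, Df u v → Gold (polar Q u v ^ 2) → polar Q w u ^ 2 ≠ 2

/-- no golden pair -/
def NoGold (Q : QuadraticForm F V) (R : Set V) : Prop :=
  ∀ u ∈ R, ∀ v ∈ R, Df u v → ¬ Gold (polar Q u v ^ 2)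

end CfsgLib.O7
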