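import Cfsg.Agent.Lib.O7.Spin
import Cfsg.Agent.Lib.O7.Base

/-!
DESC: base change to the algebraic closure and descent.  See `plans/O7B.md`.
-/

set_option autoImplicit false

namespace CfsgLib.O7

open CfsgLib.OrthE CfsgLib.OMax Module QuadraticMap Subgroup
open scoped MatrixGroups

variable {K G : Type*} [Field K] [Group G] {ρ : G →* G7 K}

variable {F : Type*} [Field F] {H P : Subgroup (G7 F)}

namespace Desc

variable {f : F →+* K}

theorem c_add (u v : V7 F) : (f ∘ (u + v) : V7 K) = f ∘ u + f ∘ v := funext fun i => by simp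

theorem c_sub (u v : V7 F) : (f ∘ (u - v) : V7 K) = f ∘ u - f ∘ v := funext fun i => by simp

theorem c_neg (u : V7 F) : (f ∘ (-u) : V7 K) = -(f ∘ u) := funext fun i => by simp

theorem c_smul (a : F) (u : V7 F) : (f ∘ (a • u) : V7 K) = f a • (f ∘ u) := funext fun i => by simp

theorem c_inj {u v : V7 F} (h : (f ∘ u : V7 K) = f ∘ v) : u = v :=
  funext fun i => f.injective (congrFun h i)

theorem c_single (i : I7) : (f ∘ (Pi.single i 1 : V7 F) : V7 K) = Pi.single i 1 := funext fun j => by
  simp [Pi.single_apply, apply_ite f]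

theorem c_Q (u : V7 F) : Q7 K (f ∘ u) = f (Q7 F u) := by
  simp [Q7_apply]

theorem c_polar (u v : V7 F) : polar (Q7 K) (f ∘ u) (f ∘ v) = f (polar (Q7 F) u v) := by
  simp only [polar, ← c_add, c_Q, map_sub]

theorem c_refl (u v : V7 F) : (refl (Q7 K) (f ∘ u)).1 (f ∘ v) = f ∘ (refl (Q7 F) u).1 v := by
  rw [refl_apply, refl_apply, c_sub, c_smul, c_Q, c_polar, map_mul, map_inv₀]

theorem ind (f : F →+* K) {p : V7 K → Prop} (h0 : ∀ v : V7 F, p (f ∘ v)) (ha : ∀ x y, p x → p y → p (x + y))
    (hs : ∀ (c : K) x, p x → p (c • x)) (w : V7 K) : p w := by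
  have : w ∈ Submodule.span K (Set.range fun v : V7 F => (f ∘ v : V7 K)) := by
    rw [pi_eq_sum_univ' w]
    exact Submodule.sum_mem _ fun i _ => Submodule.smul_mem _ _ (Submodule.subset_span ⟨_, c_single i⟩)
  induction this using Submodule.span_induction with
  | mem x hx => obtain ⟨v, rfl⟩ := hx; exact h0 v
  | zero => simpa using hs 0 _ (h0 0)
  | add x y _ _ hx hy => exact ha x y hx hy
  | smul c x _ hx => exact hs c x hx

/-- `A` is the base change of `T` -/
def Rel (f : F →+* K) (A : Module.End K (V7 K)) (T : Module.End F (V7 F)) : Prop :=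
  ∀ v, A (f ∘ v) = f ∘ T v

theorem ext (f : F →+* K) {A B : Module.End K (V7 K)} (h : ∀ v : V7 F, A (f ∘ v) = B (f ∘ v)) : A = B :=
  LinearMap.ext (ind f h (fun x y hx hy => by rw [map_add, map_add, hx, hy])
    fun c x hx => by rw [map_smul, map_smul, hx])

/-- base change -/
noncomputable def bc (f : F →+* K) (T : Module.End F (V7 F)) : Module.End K (V7 K) :=
  Matrix.toLin' ((LinearMap.toMatrix' T).map f)

theorem rel_bc (T : Module.End F (V7 F)) : Rel f (bc f T) T := fun v => funext fun i => by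
  rw [bc, Matrix.toLin'_apply, ← RingHom.map_mulVec, LinearMap.toMatrix'_mulVec]
  rfl

theorem Rel.det {A : Module.End K (V7 K)} {T : Module.End F (V7 F)} (h : Rel f A T) :
    LinearMap.det A = f (LinearMap.det T) := by
  rw [ext f (B := bc f T) fun v => (h v).trans (rel_bc T v).symm, bc, LinearMap.det_toLin',
    ← LinearMap.det_toMatrix', RingHom.map_det]
  rfl

theorem Rel.Q {A : Module.End K (V7 K)} {g : G7 F} (h : Rel f A (en g)) (w : V7 K) : Q7 K (A w) = Q7 K w := by
  have h1 : ∀ (u : V7 F) y, polar (Q7 K) (A (f ∘ u)) (A y) = polar (Q7 K) (f ∘ u) y := fun u =>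
    ind f (fun v => by rw [h, h, c_polar, c_polar, en_apply, en_apply, O_polar])
      (fun x y hx hy => by rw [map_add, polar_add_right, polar_add_right, hx, hy])
      fun c x hx => by rw [map_smul, polar_smul_right, polar_smul_right, hx]
  have h2 : ∀ y x, polar (Q7 K) (A x) (A y) = polar (Q7 K) x y := fun y =>
    ind f (fun u => h1 u y) (fun x x' hx hy => by rw [map_add, polar_add_left, polar_add_left, hx, hy])
      fun c x hx => by rw [map_smul, polar_smul_left, polar_smul_left, hx]
  exact ind f (p := fun w => Q7 K (A w) = Q7 K w) (fun v => by rw [h, c_Q, c_Q, en_apply, O_map])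
    (fun x y hx hy => by rw [map_add, Q_add, Q_add, hx, hy, h2])
    (fun c x hx => by rw [map_smul, Q_smul, Q_smul, hx]) w

/-- `l` is `F`-linear -/
def IsL (f : F →+* K) (l : K →+ F) : Prop := ∀ a x, l (f a * x) = a * l x

theorem Rel.desc {A : Module.End K (V7 K)} {T : Module.End F (V7 F)} (h : Rel f A T) {l : K →+ F}
    (hl : IsL f l) (w : V7 K) : (l ∘ A w : V7 F) = T (l ∘ w) := by
  have : ∀ c : K, (l ∘ A (c • w) : V7 F) = T (l ∘ (c • w)) := by
    refine ind f (p := fun w => ∀ c : K, (l ∘ A (c • w) : V7 F) = T (l ∘ (c • w))) (fun v c => ?_)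
      (fun x y hx hy c => ?_) (fun c x hx c' => by rw [smul_smul]; exact hx _) w
    · have e : ∀ u : V7 F, (l ∘ (c • (f ∘ u : V7 K)) : V7 F) = l c • u := fun u => funext fun i => by
        simp only [Function.comp_apply, Pi.smul_apply, smul_eq_mul]
        rw [mul_comm c, hl, mul_comm]
      rw [map_smul, h, e, e, map_smul]
    · have e : ∀ x y : V7 K, (l ∘ (x + y) : V7 F) = l ∘ x + l ∘ y := fun x y => funext fun i => by simp
      rw [smul_add, map_add, e, e, map_add, hx, hy]
  simpa using this 1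

theorem mem_span (f : F →+* K) (w : V7 K) :
    w ∈ Submodule.span K {x : V7 K | ∃ l : K →+ F, IsL f l ∧ x = f ∘ (l ∘ w)} := by
  classical
  let _ := f.toAlgebra
  let b := Basis.ofVectorSpace F K
  have e : w = ∑ k ∈ Finset.univ.biUnion fun i => (b.repr (w i)).support,
      b k • (f ∘ ((b.coord k).toAddMonoidHom ∘ w) : V7 K) := by
    funext i
    conv_lhs => rw [← b.linearCombination_repr (w i), Finsupp.linearCombination_apply,
      Finsupp.sum_of_support_subset _ (Finset.subset_biUnion_of_mem (fun i => (b.repr (w i)).support)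
        (Finset.mem_univ i)) (fun k a => a • b k) (fun _ _ => zero_smul _ _)]
    rw [Finset.sum_apply]
    exact Finset.sum_congr rfl fun k _ => by
      rw [Algebra.smul_def, mul_comm]; rfl
  conv_rhs => rw [e]
  exact Submodule.sum_mem _ fun k _ => Submodule.smul_mem _ _ (Submodule.subset_span
    ⟨(b.coord k).toAddMonoidHom, fun a x => (b.coord k).map_smul a x, rfl⟩)

theorem spanK {ρ : P →* G7 K} (habs : Submodule.span F (en '' (P : Set (G7 F))) = ⊤) (hρ : BC f P.subtype ρ)
    (S : Submodule K (Module.End K (V7 K))) (hS : ∀ x, en (ρ x) ∈ S) (A : Module.End K (V7 K)) : A ∈ S := by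
  have h1 : ∀ T ∈ Submodule.span F (en '' (P : Set (G7 F))), ∃ B ∈ S, Rel f B T := by
    intro T hT
    induction hT using Submodule.span_induction with
    | mem x hx =>
      obtain ⟨g, hg, rfl⟩ := hx
      exact ⟨_, hS ⟨g, hg⟩, hρ ⟨g, hg⟩⟩
    | zero => exact ⟨0, zero_mem _, fun v => funext fun i => by simp⟩
    | add x y _ _ hx hy =>
      obtain ⟨B, hB, r⟩ := hx
      obtain ⟨B', hB', r'⟩ := hy
      exact ⟨B + B', add_mem hB hB', fun v => by rw [LinearMap.add_apply, LinearMap.add_apply, r, r', c_add]⟩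
    | smul c x _ hx =>
      obtain ⟨B, hB, r⟩ := hx
      exact ⟨f c • B, S.smul_mem _ hB, fun v => by rw [LinearMap.smul_apply, LinearMap.smul_apply, r, c_smul]⟩
  have h2 : ∀ i j : I7, (LinearMap.proj j : V7 K →ₗ[K] K).smulRight (Pi.single i 1 : V7 K) ∈ S := by
    intro i j
    obtain ⟨B, hB, r⟩ := h1 ((LinearMap.proj j : V7 F →ₗ[F] F).smulRight (Pi.single i 1 : V7 F))
      (by rw [habs]; trivial)
    convert hB using 1
    refine ext f fun v => ?_
    rw [r, LinearMap.smulRight_apply, LinearMap.smulRight_apply, c_smul, c_single]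
    rfl
  have e : A = ∑ j : I7, ∑ i : I7, A (Pi.single j 1) i •
      (LinearMap.proj j : V7 K →ₗ[K] K).smulRight (Pi.single i 1 : V7 K) := by
    refine LinearMap.ext fun w => ?_
    conv_lhs => rw [pi_eq_sum_univ' w, map_sum]
    rw [LinearMap.sum_apply]
    refine Finset.sum_congr rfl fun j _ => ?_
    rw [map_smul, LinearMap.sum_apply]
    conv_lhs => rw [pi_eq_sum_univ' (A (Pi.single j 1)), Finset.smul_sum]
    refine Finset.sum_congr rfl fun i _ => ?_
    rw [LinearMap.smul_apply, LinearMap.smulRight_apply, smul_comm]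
    rfl
  rw [e]
  exact S.sum_mem fun j _ => S.sum_mem fun i _ => S.smul_mem _ (h2 i j)

theorem schur {ρ : P →* G7 K} (habs : Submodule.span F (en '' (P : Set (G7 F))) = ⊤) (hρ : BC f P.subtype ρ)
    {B : Module.End K (V7 K)} (hB : ∀ x, en (ρ x) * B = B * en (ρ x)) : ∃ c : K, ∀ w, B w = c • w := by
  let S : Submodule K (Module.End K (V7 K)) :=
    { carrier := {A | A * B = B * A}
      zero_mem' := by simp
      add_mem' := fun {a b} ha hb => by
        simp only [Set.mem_ofPred_eq] at ha hb ⊢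
        rw [add_mul, mul_add, ha, hb]
      smul_mem' := fun c a ha => by
        simp only [Set.mem_ofPred_eq] at ha ⊢
        rw [smul_mul_assoc, mul_smul_comm, ha] }
  refine ⟨B (Pi.single (.inl ()) 1) (.inl ()), fun w => ?_⟩
  have := LinearMap.congr_fun (spanK habs hρ S hB
    ((LinearMap.proj (.inl ()) : V7 K →ₗ[K] K).smulRight w)) (Pi.single (.inl ()) 1)
  simpa using this.symm

theorem eg_iff {ρ : P →* G7 K} (hρ : BC f P.subtype ρ) (u : V7 F) : Eg ρ (f ∘ u) ↔ Eg P.subtype u := by
  refine and_congr (by rw [c_Q, map_ne_zero]) (exists_congr fun S => forall₂_congr fun s _ => ?_)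
  rw [hρ, ← c_neg]
  exact or_congr ⟨c_inj, congrArg _⟩ ⟨c_inj, congrArg _⟩

end Desc

open Desc

theorem exists_map (f : F →+* K) :
    ∃ φ : G7 F →* G7 K, Function.Injective φ ∧ ∀ g v, (φ g).1 (f ∘ v) = f ∘ g.1 v := by
  have inv : ∀ g k : G7 F, g * k = 1 → ∀ x, bc f (en g) (bc f (en k) x) = x := fun g k e =>
    LinearMap.congr_fun (ext f (A := bc f (en g) * bc f (en k)) (B := 1) fun v => by
      rw [Module.End.mul_apply, rel_bc, rel_bc, en_apply, en_apply, ← O_mul_apply, e]; rfl)
  let m : G7 F → G7 K := fun g => mkO (bc f (en g)) (bc f (en g⁻¹)) (inv _ _ (mul_inv_cancel g))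
    (inv _ _ (inv_mul_cancel g)) (rel_bc (en g)).Q
  have hm : ∀ g v, (m g).1 (f ∘ v) = f ∘ g.1 v := fun g v => rel_bc (en g) v
  refine ⟨MonoidHom.mk' m fun g k => en_inj (ext f fun v => ?_), fun g k e => O_ext fun v => c_inj (f := f) ?_, hm⟩
  · rw [en_apply, en_apply, O_mul_apply, hm, hm, hm, O_mul_apply]
  · rw [← hm, ← hm]
    exact congrArg (fun x : G7 K => x.1 (f ∘ v)) e

theorem Core.hy [Finite F] [IsAlgClosed K] (h : Core (Q7 F) H P) {f : F →+* K} {ρ : P →* G7 K}
    (hρ : BC f P.subtype ρ) (hn : ∀ v, Q7 F v ≠ 0 → ¬ Nm P (refl (Q7 F) v)) : Hy ρ := by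
  have two : (2 : K) ≠ 0 := by
    rw [← map_ofNat f 2]
    exact (map_ne_zero f).2 h.two
  refine ⟨two, h.simple, h.ncomm, fun g k e => Subtype.ext (O_ext fun v => c_inj (f := f) ?_), fun W hW => ?_,
    fun v hv hr => ?_⟩
  · exact (hρ g v).symm.trans (e ▸ hρ k v)
  · rw [or_iff_not_imp_left]
    intro h0
    obtain ⟨w, hw, w0⟩ := Submodule.exists_mem_ne_zero_of_ne_bot h0
    obtain ⟨j, hj⟩ := Function.ne_iff.1 w0
    let S : Submodule K (Module.End K (V7 K)) :=
      { carrier := {A | A w ∈ W}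
        zero_mem' := W.zero_mem
        add_mem' := fun ha hb => W.add_mem ha hb
        smul_mem' := fun c _ ha => W.smul_mem c ha }
    refine eq_top_iff.2 fun y _ => ?_
    have := spanK h.abs hρ S (fun x => hW x w hw) ((LinearMap.proj j : V7 K →ₗ[K] K).smulRight y)
    exact (W.smul_mem_iff (show w j ≠ 0 from hj)).1 this
  · set r := refl (Q7 K) v with hrd
    have hα : ∀ x : P, ∃ y : P, ∀ w, r.1 ((ρ x).1 w) = (ρ y).1 (r.1 w) := fun x => by
      obtain ⟨y, hy⟩ := hr (ρ x) ⟨x, rfl⟩
      exact ⟨y, fun w => by rw [hy, O_mul_apply, O_mul_apply, O_inv_apply_apply]⟩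
    choose α hα using hα
    have rr : ∀ w, r.1 (r.1 w) = w := fun w => by rw [← O_mul_apply, refl_mul_self]; rfl
    set e : V7 F := Pi.single (.inl ()) 1 with he
    obtain ⟨l, hl, l0⟩ : ∃ l : K →+ F, IsL f l ∧ (l ∘ r.1 (f ∘ e) : V7 F) ≠ 0 := by
      by_contra hc
      push Not at hc
      have : r.1 (f ∘ e) ∈ (⊥ : Submodule K (V7 K)) := by
        refine Submodule.span_le.2 ?_ (mem_span f (r.1 (f ∘ e)))
        rintro _ ⟨l, hl, rfl⟩
        rw [hc l hl]
        exact funext fun i => map_zero f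
      refine O_apply_ne_zero r ?_ this
      rw [he, c_single]
      simp
    let T : Module.End F (V7 F) :=
      { toFun := fun u => l ∘ r.1 (f ∘ u)
        map_add' := fun u u' => by
          rw [c_add, map_add]
          exact funext fun i => map_add l _ _
        map_smul' := fun a u => by
          rw [c_smul, map_smul]
          exact funext fun i => hl _ _ }
    have hT : ∀ (x : P) u, T (x.1.1 u) = (α x).1.1 (T u) := fun x u => by
      change (l ∘ r.1 (f ∘ (P.subtype x).1 u) : V7 F) = en (α x).1 (l ∘ r.1 (f ∘ u))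
      rw [← hρ, hα]
      exact Rel.desc (A := en (ρ (α x))) (hρ (α x)) hl _
    obtain ⟨c, hc⟩ := schur h.abs hρ (B := en r * bc f T) fun x => ext f fun u => by
      simp only [Module.End.mul_apply, en_apply]
      rw [hρ x u, rel_bc, rel_bc]
      change _ = r.1 (f ∘ T (x.1.1 u))
      rw [hT]
      refine Eq.trans ?_ (congrArg r.1 (hρ (α x) (T u)))
      rw [← rr ((ρ x).1 _), hα, rr]
    have hc' : ∀ w, bc f T w = c • r.1 w := fun w => by
      rw [← map_smul, ← hc, Module.End.mul_apply, en_apply, rr]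
    have c0 : c ≠ 0 := by
      rintro rfl
      refine l0 (c_inj (f := f) ?_)
      have := hc' (f ∘ e)
      rw [rel_bc, zero_smul] at this
      exact this.trans (funext fun i => (map_zero f).symm)
    have c2 : c ^ 2 = f (T (T e) (.inl ())) := by
      have := congrFun (rel_bc (f := f) T (T e)) (.inl ())
      rw [← rel_bc T e, hc', hc', map_smul, rr, he, c_single] at this
      simpa [pow_two] using this
    have c7 : c ^ 7 * LinearMap.det (en r) = f (LinearMap.det T) := by
      rw [← (rel_bc (f := f) T).det, show bc f T = c • en r from LinearMap.ext hc', LinearMap.det_smul, finrank_V7]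
    have d2 : LinearMap.det (en r) * LinearMap.det (en r) = 1 := by
      rw [← map_mul, ← en_mul, refl_mul_self, en_one, map_one]
    obtain ⟨a, rfl⟩ : c ∈ f.fieldRange := by
      have m7 : c ^ 7 ∈ f.fieldRange := by
        rcases mul_self_eq_one_iff.1 d2 with e1 | e1
        · exact ⟨_, by rw [← c7, e1, mul_one]⟩
        · exact ⟨-LinearMap.det T, by rw [map_neg, ← c7, e1]; ring⟩
      have m2 : c ^ 2 ∈ f.fieldRange := ⟨_, c2.symm⟩
      rw [show c = c ^ 7 / (c ^ 2) ^ 3 by field_simp]
      exact div_mem m7 (pow_mem m2 3)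
    obtain ⟨u, hu⟩ : ∃ u : V7 F, polar (Q7 K) (f ∘ u) v ≠ 0 := by
      by_contra hc
      push Not at hc
      have := ind f (p := fun w => polar (Q7 K) w v = 0) hc
        (fun x y hx hy => by rw [polar_add_left, hx, hy, add_zero])
        (fun c x hx => by rw [polar_smul_left, hx, smul_zero]) v
      rw [polar_self'] at this
      exact mul_ne_zero two hv this
    have k0 := mul_ne_zero (inv_ne_zero hv) hu
    have ev : (f ∘ (u - a⁻¹ • T u) : V7 K) = ((Q7 K v)⁻¹ * polar (Q7 K) (f ∘ u) v) • v := by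
      rw [c_sub, c_smul, ← rel_bc T u, hc', smul_smul, map_inv₀, inv_mul_cancel₀ c0, one_smul, refl_apply]
      abel
    have er : ∀ w : V7 F, r.1 (f ∘ w) = f ∘ (refl (Q7 F) (u - a⁻¹ • T u)).1 w := fun w => by
      rw [← c_refl, ev, refl_smul k0]
    refine hn (u - a⁻¹ • T u) (fun e0 => ?_) fun x hx => ?_
    · have := c_Q (f := f) (u - a⁻¹ • T u)
      rw [ev, e0, map_zero, Q_smul] at this
      exact mul_ne_zero (mul_ne_zero k0 k0) hv this
    · convert (α ⟨x, hx⟩).2 using 1
      rw [mul_inv_eq_iff_eq_mul]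
      refine O_ext fun w => c_inj (f := f) ?_
      rw [O_mul_apply, O_mul_apply, ← er]
      exact (congrArg r.1 (hρ ⟨x, hx⟩ w).symm).trans ((hα _ _).trans (by rw [er]; exact hρ _ _))

theorem Core.rig [Finite F] (h : Core (Q7 F) H P) {f : F →+* K} {ρ : P →* G7 K}
    (hρ : BC f P.subtype ρ) (hr : Rig ρ) : ∃ v, Q7 F v ≠ 0 ∧ Nm P (refl (Q7 F) v) := by
  have two : (2 : K) ≠ 0 := by
    rw [← map_ofNat f 2]
    exact (map_ne_zero f).2 h.two
  refine h.lines (Λ := {u | Eg P.subtype u}) ?_ (fun u hu => hu.1) (fun g hg u hu => ?_)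
    (fun u hu v hv => ?_) fun u hu v hv e => ?_
  · obtain ⟨w, w0, S, hS⟩ := hr.ne
    by_contra hc
    have sg : ∀ l : K →+ F, IsL f l → ∀ s : P, ((ρ s).1 w = w → s.1.1 (l ∘ w) = l ∘ w) ∧
        ((ρ s).1 w = -w → s.1.1 (l ∘ w) = -(l ∘ w)) := fun l hl s => by
      have := Rel.desc (A := en (ρ s)) (hρ s) hl w
      refine ⟨fun e => ?_, fun e => ?_⟩
      · rw [en_apply, e] at this
        exact this.symm
      · rw [en_apply, e] at this
        exact this.symm.trans (funext fun i => map_neg l _)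
    have q0 : ∀ l : K →+ F, IsL f l → Q7 F (l ∘ w) = 0 := fun l hl => by
      by_contra q
      exact hc ⟨_, q, S, fun s hs => (hS s hs).imp (sg l hl s).1 (sg l hl s).2⟩
    have p0 : ∀ x ∈ Submodule.span K {x : V7 K | ∃ l : K →+ F, IsL f l ∧ x = f ∘ (l ∘ w)},
        ∀ y ∈ Submodule.span K {x : V7 K | ∃ l : K →+ F, IsL f l ∧ x = f ∘ (l ∘ w)}, polar (Q7 K) x y = 0 := by
      intro x hx y hy
      induction hx, hy using Submodule.span_induction₂ with
      | mem_mem x y hx hy =>
        obtain ⟨l, hl, rfl⟩ := hx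
        obtain ⟨l', hl', rfl⟩ := hy
        have := q0 (l + l') fun a x => by rw [AddMonoidHom.add_apply, AddMonoidHom.add_apply, hl, hl', mul_add]
        rw [c_polar, polar, q0 l hl, q0 l' hl', sub_zero, sub_zero]
        exact (congrArg f this).trans (map_zero f)
      | zero_left => exact polar_zero_left _ _
      | zero_right => exact polar_zero_right _ _
      | add_left x y z _ _ _ h1 h2 => rw [polar_add_left, h1, h2, add_zero]
      | add_right x y z _ _ _ h1 h2 => rw [polar_add_right, h1, h2, add_zero]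
      | smul_left c x y _ _ h1 => rw [polar_smul_left, h1, smul_zero]
      | smul_right c x y _ _ h1 => rw [polar_smul_right, h1, smul_zero]
    have := p0 w (mem_span f w) w (mem_span f w)
    rw [polar_self'] at this
    exact mul_ne_zero two w0 this
  · obtain ⟨u0, S, hS⟩ := hu
    let φ := P.normalizerMonoidHom ⟨g⁻¹, nm_iff.1 (h.nrm _ (inv_mem hg))⟩
    refine ⟨by rwa [O_map], S.comapOfInjective φ.toMonoidHom φ.injective
      (fun x _ => φ.surjective x), fun s hs => ?_⟩
    have e : (P.subtype s).1 (g.1 u) = g.1 ((P.subtype (φ s)).1 u) := by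
      change _ = g.1 ((g⁻¹ * s.1 * g⁻¹⁻¹).1 u)
      rw [inv_inv, O_mul_apply, O_mul_apply, O_apply_inv_apply]
      rfl
    rw [e, ← map_neg]
    exact (hS (φ s) hs).imp (congrArg _) (congrArg _)
  · have := hr.ref _ _ ((eg_iff hρ u).2 hu) ((eg_iff hρ v).2 hv)
    rwa [c_refl, eg_iff hρ] at this
  · obtain ⟨c, hc⟩ := hr.par _ _ ((eg_iff hρ u).2 hu) ((eg_iff hρ v).2 hv) (by
      rw [c_polar, c_Q, c_Q, ← map_pow, e, map_mul, map_mul, map_ofNat])
    have u0 : u ≠ 0 := by
      rintro rfl
      exact hu.1 (map_zero _)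
    obtain ⟨i, hi⟩ := Function.ne_iff.1 u0
    refine ⟨v i / u i, c_inj (f := f) ?_⟩
    have := congrFun hc i
    simp only [Function.comp_apply, Pi.smul_apply, smul_eq_mul] at this
    rw [c_smul, map_div₀, this, mul_div_cancel_right₀ _ ((map_ne_zero f).2 hi), hc]

end CfsgLib.O7
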