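import Cfsg.Agent.Lib.O7.Defs
import Cfsg.Agent.Lib.LS.Weight
import Cfsg.Agent.Lib.Inv2.Diag

/-!
EIG: eigenvalue tools for isometries.  See `plans/O7B.md`.
-/

set_option autoImplicit false

namespace CfsgLib.O7

open CfsgLib.OrthE CfsgLib.OMax Module QuadraticMap Subgroup
open scoped MatrixGroups

variable {K G : Type*} [Field K] [Group G] {ρ : G →* G7 K}

variable {V : Type*} [AddCommGroup V] [Module K V] [FiniteDimensional K V] {Q : QuadraticForm K V}

omit [FiniteDimensional K V] in
theorem eig_mem {g : O Q} {v : V} : v ∈ LinearMap.ker (en g - 1) ↔ g.1 v = v := by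
  rw [LinearMap.mem_ker, LinearMap.sub_apply, sub_eq_zero]; rfl

omit [FiniteDimensional K V] in
theorem eig_mem' {g : O Q} {c : K} {v : V} : v ∈ LinearMap.ker (en g - c • 1) ↔ g.1 v = c • v := by
  rw [LinearMap.mem_ker, LinearMap.sub_apply, sub_eq_zero]; rfl

theorem fx_conj (g k : O Q) : fx (k * g * k⁻¹) = fx g := by
  have key : ∀ g k : O Q, fx g ≤ fx (k * g * k⁻¹) := fun g k => by
    rw [fx, ← LinearEquiv.finrank_map_eq k.1]
    refine Submodule.finrank_mono ?_
    rintro _ ⟨v, hv, rfl⟩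
    refine eig_mem.2 ?_
    show k.1 (g.1 ((k⁻¹).1 (k.1 v))) = k.1 v
    rw [O_inv_apply_apply, eig_mem.1 hv]
  refine le_antisymm ?_ (key g k)
  have := key (k * g * k⁻¹) k⁻¹
  rwa [show k⁻¹ * (k * g * k⁻¹) * k⁻¹⁻¹ = g by group] at this

theorem rk_conj (g k : O Q) : rk (k * g * k⁻¹) = rk g := by
  have h1 := rk_add_fx (k * g * k⁻¹)
  have h2 := rk_add_fx g
  have h3 := fx_conj g k
  omega

theorem rk_isConj {σ : G →* O Q} {x y : G} (h : IsConj x y) : rk (σ x) = rk (σ y) := by
  obtain ⟨c, rfl⟩ := isConj_iff.1 h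
  rw [map_mul, map_mul, map_inv, rk_conj]

theorem rk_inv (g : O Q) : rk g⁻¹ = rk g := by
  have h1 := rk_add_fx g⁻¹
  have h2 := rk_add_fx g
  have h3 : fx g⁻¹ = fx g := by
    have : LinearMap.ker (en g⁻¹ - 1) = LinearMap.ker (en g - 1) := Submodule.ext fun v => by
      rw [eig_mem, eig_mem]
      exact ⟨O_inv_apply_eq g⁻¹, O_inv_apply_eq g⟩
    rw [fx, this, fx]
  omega

theorem rk_eq_zero {g : O Q} (h : rk g = 0) : g = 1 := by
  rw [rk, Submodule.finrank_eq_zero, LinearMap.range_eq_bot, sub_eq_zero] at h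
  exact en_inj h

omit [FiniteDimensional K V] in
theorem eig_le_perp (g : O Q) {a c : K} (h : a * c = 1) :
    LinearMap.range (en g - a • 1) ≤ perp Q (LinearMap.ker (en g - c • 1)) := by
  rintro _ ⟨x, rfl⟩
  refine mem_perp.2 fun y hy => ?_
  have e := O_polar g y x
  rw [eig_mem'.1 hy, polar_smul_left] at e
  show polar Q y (g.1 x - a • x) = 0
  rw [polar_sub_right, polar_smul_right, ← e, smul_smul, h, one_smul, sub_self]

/-- the commutator space is the orthogonal complement of the fixed space -/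
theorem range_eq_perp (hQ : Nondeg Q) (g : O Q) :
    LinearMap.range (en g - 1) = perp Q (LinearMap.ker (en g - 1)) := by
  have h1 := eig_le_perp g (mul_one (1 : K))
  rw [one_smul] at h1
  refine Submodule.eq_of_le_of_finrank_eq h1 ?_
  have h2 := finrank_perp hQ (LinearMap.ker (en g - 1))
  have h3 := LinearMap.finrank_range_add_finrank_ker (en g - 1)
  omega

/-- the fixed space of an element of order prime to the characteristic is non-degenerate -/
theorem nd_fix (hQ : Nondeg Q) {g : O Q} {n : ℕ} (hn : (n : K) ≠ 0) (hg : g ^ n = 1) :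
    ND Q (LinearMap.ker (en g - 1)) := by
  rw [ND, ← range_eq_perp hQ, Submodule.disjoint_def]
  rintro _ hx ⟨y, rfl⟩
  generalize e : (en g - 1) y = x at hx
  have e1 : g.1 y = y + x := by rw [← e]; exact (add_sub_cancel _ _).symm
  have k : ∀ m : ℕ, (g ^ m).1 y = y + (m : K) • x := fun m => by
    induction m with
    | zero => simp [O_one_apply]
    | succ m ih =>
      rw [pow_succ', O_mul_apply, ih, map_add, map_smul, e1, eig_mem.1 hx, Nat.cast_succ, add_smul, one_smul]
      abel
  have := k n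
  rw [hg, O_one_apply, left_eq_add, smul_eq_zero] at this
  exact this.resolve_left hn

/-- the determinant of an isometry -/
theorem eig_det (hQ : Nondeg Q) (g : O Q) : LinearMap.det (en g) = (-1) ^ rk g := by
  classical
  set U := LinearMap.ker (en g - 1) with hU
  have he : U ≤ U.comap (en g) := fun v hv => by
    show g.1 v ∈ U
    rwa [eig_mem.1 hv]
  have h1 : (en g).restrict he = LinearMap.id := LinearMap.ext fun v => Subtype.ext (eig_mem.1 v.2)
  let β : V →ₗ[K] V →ₗ[K] K := (polarBilin Q).comp (en g - 1)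
  have hβ : ∀ x y, β x y = polar Q (g.1 x - x) y := fun _ _ => rfl
  let B := β.liftQ₂ U U (fun v hv => LinearMap.ext fun y => by
      rw [hβ, eig_mem.1 hv, sub_self, polar_zero_left]; rfl)
    (fun v hv => LinearMap.ext fun y => by
      show β y v = 0
      rw [hβ, polar_comm, polar_fix_sub (eig_mem.1 hv)])
  have hB : B.SeparatingLeft := fun x hx => by
    obtain ⟨x, rfl⟩ := Submodule.Quotient.mk_surjective U x
    exact (Submodule.Quotient.mk_eq_zero U).2 (eig_mem.2 (sub_eq_zero.1 (hQ _ fun y => hx (Submodule.Quotient.mk y))))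
  let b := Module.finBasis K (V ⧸ U)
  have h2 := (LinearMap.separatingLeft_iff_det_ne_zero b).1 hB
  have h3 := LinearMap.toMatrix₂_compl₂ b b b B (U.mapQ U (en g) he)
  have h4 : LinearMap.toMatrix₂ b b (B.compl₂ (U.mapQ U (en g) he)) = -(LinearMap.toMatrix₂ b b B).transpose := by
    ext i j
    rw [Matrix.neg_apply, Matrix.transpose_apply, LinearMap.toMatrix₂_apply, LinearMap.toMatrix₂_apply]
    obtain ⟨x, hx⟩ := Submodule.Quotient.mk_surjective U (b i)
    obtain ⟨y, hy⟩ := Submodule.Quotient.mk_surjective U (b j)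
    rw [← hx, ← hy]
    show polar Q (g.1 x - x) (g.1 y) = -polar Q (g.1 y - y) x
    rw [polar_sub_left, polar_sub_left, O_polar, polar_comm Q x, polar_comm Q x, neg_sub]
  have h5 := congrArg Matrix.det (h4.symm.trans h3)
  rw [Matrix.det_neg, Matrix.det_transpose, Matrix.det_mul, mul_comm, LinearMap.det_toMatrix, Fintype.card_fin] at h5
  have h6 : finrank K (V ⧸ U) = rk g := by
    have a := U.finrank_quotient_add_finrank
    have c := rk_add_fx g
    rw [fx, ← hU] at c
    omega
  rw [LinearMap.det_eq_det_mul_det U (en g) he, h1, LinearMap.det_id, one_mul, ← mul_left_cancel₀ h2 h5, h6]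

theorem eig_even (h2 : (2 : K) ≠ 0) {m : ℕ} (h : (-1 : K) ^ m = 1) : Even m := by
  by_contra hm
  rw [(Nat.not_even_iff_odd.1 hm).neg_one_pow] at h
  exact h2 (by linear_combination -h)

/-- parity -/
theorem even_rk (h2 : (2 : K) ≠ 0) (hQ : Nondeg Q) {g : O Q} (hg : LinearMap.det (en g) = 1) :
    Even (rk g) := eig_even h2 ((eig_det hQ g).symm.trans hg)

/-- elements of odd order have even rank -/
theorem eig_even_odd (h2 : (2 : K) ≠ 0) (hQ : Nondeg Q) {g : O Q} {n : ℕ} (hn : Odd n) (hg : g ^ n = 1) :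
    Even (rk g) := by
  have h := congrArg (fun g => LinearMap.det (en g)) hg
  simp only [en_pow, map_pow, en_one, map_one] at h
  rw [eig_det hQ, ← pow_mul] at h
  exact (Nat.even_mul.1 (eig_even h2 h)).resolve_right (Nat.not_even_iff_odd.2 hn)

/-- Scott's lemma for isometries -/
theorem scottO (hQ : Nondeg Q) (a b : O Q) (h : finrank K V < fx a + fx b + fx (a * b)) :
    ∃ y, y ≠ 0 ∧ a.1 y = y ∧ b.1 y = y := by
  have h1 := TriGen.scott (en a) (en b)
  have h2 := finrank_perp hQ (LinearMap.range (en a - 1) ⊔ LinearMap.range (en b - 1))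
  have k : ∀ g : O Q, ∀ v, (∀ w ∈ LinearMap.range (en g - 1), polar Q w v = 0) → v ∈ LinearMap.ker (en g - 1) :=
    fun g v hv => by rw [← perp_perp hQ (LinearMap.ker _), ← range_eq_perp hQ]; exact mem_perp.2 hv
  have h3 : finrank K (perp Q (LinearMap.range (en a - 1) ⊔ LinearMap.range (en b - 1))) ≤
      finrank K (LinearMap.ker (en a - 1) ⊓ LinearMap.ker (en b - 1) : Submodule K V) :=
    Submodule.finrank_mono fun v hv => ⟨k a v fun w hw => mem_perp.1 hv w (Submodule.mem_sup_left hw),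
      k b v fun w hw => mem_perp.1 hv w (Submodule.mem_sup_right hw)⟩
  rw [fx, fx, fx, en_mul] at h
  have h4 : LinearMap.ker (en a - 1) ⊓ LinearMap.ker (en b - 1) ≠ ⊥ := fun e => by
    rw [e, finrank_bot] at h1 h3
    omega
  obtain ⟨y, hy, y0⟩ := Submodule.exists_mem_ne_zero_of_ne_bot h4
  exact ⟨y, y0, eig_mem.1 hy.1, eig_mem.1 hy.2⟩

theorem eig_ker_mul_le (f g : Module.End K V) : finrank K (LinearMap.ker (f * g)) ≤
    finrank K (LinearMap.ker f) + finrank K (LinearMap.ker g) := by
  rw [← LinearMap.finrank_range_add_finrank_ker (g.domRestrict (LinearMap.ker (f * g)))]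
  refine add_le_add (Submodule.finrank_mono ?_) ?_
  · rintro _ ⟨v, rfl⟩
    exact v.2
  · rw [← Submodule.finrank_map_subtype_eq]
    refine Submodule.finrank_mono ?_
    rintro _ ⟨v, hv, rfl⟩
    exact hv

theorem fx_three (h3 : (3 : K) = 0) {g : O Q} (hg : g ^ 3 = 1) : finrank K V ≤ 3 * fx g := by
  rw [fx]
  have h0 : en g ^ 3 = 1 := by rw [← en_pow, hg, en_one]
  generalize en g = f at h0
  have h4 : (f - 1) * (f - 1) * (f - 1) = 0 := by
    have : (f - 1) * (f - 1) * (f - 1) = f ^ 3 - 1 - (3 : K) • (f * f - f) := by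
      rw [show (3 : K) = 1 + 1 + 1 by norm_num, add_smul, add_smul, one_smul, pow_three]
      simp only [mul_sub, sub_mul, mul_one, one_mul, mul_assoc]
      abel
    rw [this, h0, h3, zero_smul, sub_zero, sub_self]
  have h1 := eig_ker_mul_le ((f - 1) * (f - 1)) (f - 1)
  have h2 := eig_ker_mul_le (f - 1) (f - 1)
  rw [h4, LinearMap.ker_zero, finrank_top] at h1
  omega

/-- a unipotent isometry of an even-dimensional space has two Jordan blocks -/
theorem fx_unip (h2 : (2 : K) ≠ 0) (hQ : Nondeg Q) (he : Even (finrank K V)) (h0 : 0 < finrank K V)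
    (p : ℕ) [Fact p.Prime] [CharP K p] {g : O Q} {k : ℕ} (hg : g ^ p ^ k = 1) : 2 ≤ fx g := by
  have hp : Odd p := (Fact.out : p.Prime).odd_of_ne_two fun e => h2 (by
    have := CharP.cast_eq_zero K p
    rwa [e] at this)
  have h1 := eig_even_odd h2 hQ hp.pow hg
  have h3 := rk_add_fx g
  have h4 : fx g ≠ 0 := fun e => by
    rw [fx, Submodule.finrank_eq_zero, LinearMap.ker_eq_bot] at e
    haveI := Module.nontrivial_of_finrank_pos h0
    haveI : CharP (Module.End K V) p := charP_of_injective_algebraMap (algebraMap K _).injective p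
    have h5 : (en g - 1) ^ p ^ k = 0 := by
      rw [sub_pow_char_pow_of_commute _ _ (Commute.one_right _), ← en_pow, hg, en_one, one_pow, sub_self]
    obtain ⟨v, hv⟩ := exists_ne (0 : V)
    have h6 : Function.Injective ((en g - 1) ^ p ^ k : Module.End K V) := by
      rw [Module.End.coe_pow]; exact e.iterate _
    exact hv (h6 (by rw [h5]; rfl))
  obtain ⟨a, ha⟩ := he
  obtain ⟨b, hb⟩ := h1
  omega

/-- the restriction of an isometry to an invariant subspace -/
noncomputable def eigRes (W : Submodule K V) (g : O Q) (hg : ∀ w ∈ W, g.1 w ∈ W) : O (Q.comp W.subtype) :=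
  ⟨LinearEquiv.ofInjectiveEndo ((en g).restrict hg) fun _ _ e => Subtype.ext (g.1.injective (congrArg Subtype.val e)),
    fun x => g.2 x⟩

theorem eigRes_apply (W : Submodule K V) (g : O Q) (hg : ∀ w ∈ W, g.1 w ∈ W) (x : W) :
    ((eigRes W g hg).1 x : V) = g.1 x := rfl

theorem eigRes_pow (W : Submodule K V) (g : O Q) (hg : ∀ w ∈ W, g.1 w ∈ W) (n : ℕ) (x : W) :
    ((eigRes W g hg ^ n).1 x : V) = (g ^ n).1 x := by
  induction n with
  | zero => rfl
  | succ n ih => rw [pow_succ', pow_succ', O_mul_apply, O_mul_apply, eigRes_apply, ih]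

omit [FiniteDimensional K V] in
theorem eig_polar_res (W : Submodule K V) (x y : W) : polar (Q.comp W.subtype) x y = polar Q x.1 y.1 := rfl

omit [FiniteDimensional K V] in
theorem eig_nondeg {W : Submodule K V} (hW : ND Q W) : Nondeg (Q.comp W.subtype) := fun x hx =>
  Subtype.ext (nd_iff.1 hW x x.2 fun y hy => hx ⟨y, hy⟩)

/-- isometries of odd order of a plane that fix a vector, or are unipotent, are trivial -/
theorem plane_triv (h2 : (2 : K) ≠ 0) {W : Submodule K V} (hW : ND Q W) (h : finrank K W = 2)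
    {g : O Q} (hg : ∀ w ∈ W, g.1 w ∈ W) {n : ℕ} (hn : Odd n) (hgn : ∀ w ∈ W, (g ^ n).1 w = w)
    {y : V} (hy : y ∈ W) (h0 : y ≠ 0) (hf : g.1 y = y) : ∀ w ∈ W, g.1 w = w := by
  obtain ⟨a, ha⟩ := eig_even_odd h2 (eig_nondeg hW) hn (g := eigRes W g hg)
    (O_ext fun x => Subtype.ext ((eigRes_pow W g hg n x).trans (hgn x x.2)))
  have h1 := rk_add_fx (eigRes W g hg)
  have h3 : fx (eigRes W g hg) ≠ 0 := fun e => by
    rw [fx, Submodule.finrank_eq_zero, eq_bot_iff] at e
    exact h0 (congrArg Subtype.val (e (x := ⟨y, hy⟩) (eig_mem.2 (Subtype.ext hf))))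
  have h4 : eigRes W g hg = 1 := rk_eq_zero (by omega)
  intro w hw
  rw [← eigRes_apply W g hg ⟨w, hw⟩, h4]; rfl

omit [FiniteDimensional K V] in
open _root_.Classical in
/-- the rank of a diagonal map -/
theorem eig_range {ι : Type*} [Fintype ι] (b : Basis ι K V) {f : Module.End K V} {d : ι → K}
    (h : ∀ i, f (b i) = d i • b i) : finrank K (LinearMap.range f) = (Finset.univ.filter fun i => d i ≠ 0).card := by
  have e : LinearMap.range f = Submodule.span K (Set.range (b ∘ (Subtype.val : {i // d i ≠ 0} → ι))) := by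
    refine le_antisymm ?_ (Submodule.span_le.2 ?_)
    · rw [LinearMap.range_eq_map, ← b.span_eq, Submodule.map_span_le]
      rintro _ ⟨i, rfl⟩
      rw [h]
      by_cases hi : d i = 0
      · rw [hi, zero_smul]; exact zero_mem _
      · exact Submodule.smul_mem _ _ (Submodule.subset_span ⟨⟨i, hi⟩, rfl⟩)
    · rintro _ ⟨⟨i, hi⟩, rfl⟩
      exact ⟨(d i)⁻¹ • b i, by rw [map_smul, h, smul_smul, inv_mul_cancel₀ hi, one_smul]; rfl⟩
  rw [e, finrank_span_eq_card (b.linearIndependent.comp _ Subtype.val_injective), Fintype.card_subtype]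

omit [FiniteDimensional K V] in
open _root_.Classical in
theorem eig_range' {ι : Type*} [Fintype ι] (b : Basis ι K V) {g : O Q} {d : ι → K}
    (h : ∀ i, g.1 (b i) = d i • b i) (c : K) :
    finrank K (LinearMap.range (en g - c • 1)) = ∑ i, if d i = c then 0 else 1 := by
  rw [eig_range b (d := fun i => d i - c) fun i => by
    show g.1 (b i) - c • b i = _
    rw [h, sub_smul], Finset.card_filter]
  simp only [sub_ne_zero, ite_not]

omit [FiniteDimensional K V] in
open _root_.Classical in
theorem eig_rk {ι : Type*} [Fintype ι] (b : Basis ι K V) {g : O Q} {d : ι → K}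
    (h : ∀ i, g.1 (b i) = d i • b i) : rk g = ∑ i, if d i = 1 then 0 else 1 := by
  rw [← eig_range' b h, one_smul, rk]

open _root_.Classical in
theorem eig_ker {ι : Type*} [Fintype ι] (b : Basis ι K V) {g : O Q} {d : ι → K}
    (h : ∀ i, g.1 (b i) = d i • b i) (c : K) :
    finrank K (LinearMap.ker (en g - c • 1)) = ∑ i, if d i = c then 1 else 0 := by
  have h1 := LinearMap.finrank_range_add_finrank_ker (en g - c • 1)
  have h2 : (∑ i, if d i = c then 0 else 1) + (∑ i, if d i = c then 1 else 0) = finrank K V := by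
    rw [← Finset.sum_add_distrib, finrank_eq_card_basis b, Fintype.card_eq_sum_ones]
    exact Finset.sum_congr rfl fun i _ => by split_ifs <;> rfl
  rw [eig_range' b h] at h1
  omega

/-- commuting involutions are simultaneously diagonal in an orthogonal basis -/
theorem exists_diag2 (h2 : (2 : K) ≠ 0) (hQ : Nondeg Q) {A : Type*} [Finite A] (u : A → O Q)
    (hc : ∀ a b, u a * u b = u b * u a) (hu : ∀ a, u a * u a = 1) {n : ℕ} (hn : finrank K V = n) :
    ∃ (b : Basis (Fin n) K V) (d : A → Fin n → Bool), (∀ i, Q (b i) ≠ 0) ∧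
      (∀ i j, i ≠ j → polar Q (b i) (b j) = 0) ∧
      (∀ a i, (u a).1 (b i) = if d a i then -b i else b i) ∧
      ∀ a, rk (u a) = (Finset.univ.filter fun i => d a i = true).card := by
  classical
  haveI := Fintype.ofFinite A
  haveI := invertibleOfNonzero h2
  let W : (A → Bool) → Submodule K V := fun t => LS.wsp (fun a => en (u a)) fun a => if t a then -1 else 1
  have hW : ∀ t v, v ∈ W t ↔ ∀ a, (u a).1 v = if t a then -v else v := fun t v =>
    forall_congr' fun a => by
      show (u a).1 v = (if t a then (-1 : K) else 1) • v ↔ _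
      by_cases h : t a = true <;> simp [h]
  have ex : ∀ t, ∃ c : Basis (Fin (finrank K (W t))) K (W t), (polarBilin (Q.comp (W t).subtype)).IsOrthoᵢ c :=
    fun t => LinearMap.BilinForm.exists_orthogonal_basis ⟨fun x y => polar_comm _ x y⟩
  choose c hc' using ex
  let v : (Σ t, Fin (finrank K (W t))) → V := fun p => c p.1 p.2
  have sp : ⊤ ≤ Submodule.span K (Set.range v) := fun x _ => by
    refine Submodule.span_le.2 ?_ (Inv2.span_common_eigen h2 (ρ := fun a => en (u a))
      (fun a b x => congrArg (fun g : O Q => g.1 x) (hc a b)) (fun a x => congrArg (fun g : O Q => g.1 x) (hu a))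
      Finset.univ x)
    intro w hw
    have m : w ∈ W fun a => decide ((u a).1 w ≠ w) := (hW _ _).2 fun a => by
      by_cases e : (u a).1 w = w
      · simp [e]
      · have e' : (u a).1 w = -w := (hw a (Finset.mem_univ a)).resolve_left e
        rw [if_pos (decide_eq_true e), e']
    generalize (fun a => decide ((u a).1 w ≠ w)) = t at m
    have : W t ≤ Submodule.span K (Set.range v) := by
      rw [← (W t).range_subtype, LinearMap.range_eq_map, ← (c t).span_eq, Submodule.map_span_le]
      rintro _ ⟨i, rfl⟩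
      exact Submodule.subset_span ⟨⟨t, i⟩, rfl⟩
    exact this m
  have ot : ∀ p q, p ≠ q → polar Q (v p) (v q) = 0 := by
    rintro ⟨t, i⟩ ⟨s, j⟩ hpq
    by_cases e : t = s
    · subst e
      exact hc' t fun e => hpq (congrArg (Sigma.mk t) e)
    · obtain ⟨a, ha⟩ := Function.ne_iff.1 e
      have e1 := O_polar (u a) (v ⟨t, i⟩) (v ⟨s, j⟩)
      rw [(hW _ _).1 (c t i).2 a, (hW _ _).1 (c s j).2 a] at e1
      have e2 : -polar Q (v ⟨t, i⟩) (v ⟨s, j⟩) = polar Q (v ⟨t, i⟩) (v ⟨s, j⟩) := by
        revert ha e1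
        cases t a <;> cases s a <;> simp [polar_neg_left, polar_neg_right, v]
      exact (mul_eq_zero.1 (by linear_combination -e2 : 2 * polar Q (v ⟨t, i⟩) (v ⟨s, j⟩) = 0)).resolve_left h2
  have ns : ∀ p, Q (v p) ≠ 0 := fun p e => by
    refine (c p.1).ne_zero p.2 (Subtype.ext (hQ _ fun y => ?_))
    have : Submodule.span K (Set.range v) ≤ LinearMap.ker (polarBilin Q (v p)) := Submodule.span_le.2 (by
      rintro _ ⟨q, rfl⟩
      by_cases h : p = q
      · exact h ▸ pself e
      · exact ot p q h)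
    exact this (sp (Submodule.mem_top (x := y)))
  have li : LinearIndependent K v := LinearMap.linearIndependent_of_isOrthoᵢ (B := polarBilin Q) (fun p q h => ot p q h)
    fun p => by
      show polar Q (v p) (v p) ≠ 0
      rw [polar_self']
      exact mul_ne_zero h2 (ns p)
  let b := Basis.mk li sp
  let e := Fintype.equivFinOfCardEq ((finrank_eq_card_basis b).symm.trans hn)
  have hb : ∀ i, b.reindex e i = v (e.symm i) := fun i => by rw [Basis.reindex_apply, Basis.mk_apply]
  have hd : ∀ a i, (u a).1 (b.reindex e i) = if (e.symm i).1 a then -b.reindex e i else b.reindex e i := fun a i => by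
    rw [hb]; exact (hW _ _).1 (c _ _).2 a
  refine ⟨b.reindex e, fun a i => (e.symm i).1 a, fun i => hb i ▸ ns _,
    fun i j h => by rw [hb, hb]; exact ot _ _ (e.symm.injective.ne h), hd, fun a => ?_⟩
  rw [eig_rk (b.reindex e) (d := fun i => if (e.symm i).1 a then -1 else 1) fun i => by
    rw [hd]; split_ifs <;> simp, Finset.card_filter]
  refine Finset.sum_congr rfl fun i _ => ?_
  have : (-1 : K) ≠ 1 := fun e => h2 (by linear_combination -e)
  by_cases hh : (e.symm i).1 a = true <;> simp [hh, this]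

theorem eig_dvd_sum {Γ : Type*} [Group Γ] [Fintype Γ] (H : Subgroup Γ) (m : Γ → ℕ)
    (h : ∀ a ∈ H, ∀ j, m (j * a) = m j) : Nat.card H ∣ ∑ j, m j := by
  classical
  rw [← Finset.sum_fiberwise Finset.univ (QuotientGroup.mk : Γ → Γ ⧸ H) m]
  refine Finset.dvd_sum fun q _ => ?_
  obtain ⟨j, rfl⟩ := QuotientGroup.mk_surjective q
  rw [Finset.sum_congr rfl (g := fun _ => m j) fun i hi => by
    rw [← h _ (QuotientGroup.eq.1 (Finset.mem_filter.1 hi).2) i, mul_inv_cancel_left], Finset.sum_const, smul_eq_mul]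
  refine Dvd.dvd.mul_right ⟨1, ?_⟩ _
  have := QuotientGroup.card_preimage_mk H {(j : Γ ⧸ H)}
  rw [show Nat.card ({(j : Γ ⧸ H)} : Set (Γ ⧸ H)) = 1 from Nat.card_unique] at this
  rw [← this, Nat.card_eq_fintype_card, Fintype.card_subtype]
  exact congrArg Finset.card (Finset.ext fun x => by simp)

variable [IsAlgClosed K]

/-- simultaneous diagonalisation -/
theorem eig_basis {A : Type*} (u : A → O Q) (hc : ∀ a b, u a * u b = u b * u a) {N : ℕ} (hN : (N : K) ≠ 0)
    (hp : ∀ a, u a ^ N = 1) : ∃ (b : Basis (Fin (finrank K V)) K V) (d : A → Fin (finrank K V) → K),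
      (∀ a i, d a i ^ N = 1) ∧ ∀ a i, (u a).1 (b i) = d a i • b i := by
  let π : A → Module.End K V := fun a => en (u a)
  have h1 := LS.iSup_wsp_eq_top π (fun a b => by
      show en _ * en _ = en _ * en _
      rw [← en_mul, ← en_mul, hc]) hN fun a => by
    show en _ ^ N = 1
    rw [← en_pow, hp, en_one]
  have h2 : ⊤ ≤ Submodule.span K {v | ∃ l, v ∈ LS.wsp π l} := by
    rw [← h1]
    exact iSup_le fun l v hv => Submodule.subset_span ⟨l, hv⟩
  let b := Module.Basis.ofSpan h2
  have := Module.Finite.finite_basis b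
  have := Fintype.ofFinite ((linearIndepOn_empty K id).extend (Set.empty_subset {v | ∃ l, v ∈ LS.wsp π l}))
  let e := Fintype.equivFinOfCardEq (Module.finrank_eq_card_basis b).symm
  have key : ∀ i, ∃ l, b.reindex e i ∈ LS.wsp π l := fun i =>
    Module.Basis.ofSpan_subset h2 ⟨e.symm i, (b.reindex_apply e i).symm⟩
  choose l hl using key
  refine ⟨b.reindex e, fun a i => l i a, fun a i => ?_, fun a i => hl i a⟩
  have k : ∀ n : ℕ, (u a ^ n).1 (b.reindex e i) = l i a ^ n • b.reindex e i := fun n => by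
    induction n with
    | zero => rw [pow_zero, pow_zero, one_smul, O_one_apply]
    | succ n ih => rw [pow_succ', O_mul_apply, ih, map_smul, show (u a).1 _ = _ from hl i a, smul_smul, pow_succ]
  have := k N
  rw [hp, O_one_apply] at this
  exact (smul_left_injective K ((b.reindex e).ne_zero i) ((one_smul _ _).trans this)).symm

theorem dvd_rkO (hQ : Nondeg Q) {r k : ℕ} [Fact r.Prime] (hr : (r : K) ≠ 0) {g c : O Q}
    (hg : g ^ r = 1) (hk : c * g * c⁻¹ = g ^ k) (hk0 : ¬ r ∣ k) :
    Nat.card (Subgroup.closure {ZMod.unitOfCoprime k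
      ((Nat.Prime.coprime_iff_not_dvd Fact.out).2 hk0).symm, -1}) ∣ rk g := by
  classical
  haveI : NeZero (r : K) := ⟨hr⟩
  obtain ⟨ζ, hζ⟩ := HasEnoughRootsOfUnity.exists_primitiveRoot K r
  obtain ⟨b, d, hd, e⟩ := eig_basis (fun _ : Unit => g) (fun _ _ => rfl) hr fun _ => hg
  let z : (ZMod r)ˣ → K := fun j => ζ ^ (j : ZMod r).val
  let m : (ZMod r)ˣ → ℕ := fun j => finrank K (LinearMap.ker (en g - z j • 1))
  have z1 : ∀ j, z j ≠ 1 := fun j => hζ.pow_ne_one_of_pos_of_lt (by simp) (ZMod.val_lt _)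
  have zi : Function.Injective z := fun i j h => Units.ext (ZMod.val_injective r
    (hζ.pow_inj (ZMod.val_lt _) (ZMod.val_lt _) h))
  have zp : ∀ n : ℕ, ζ ^ (n : ZMod r).val = ζ ^ n := fun n => by
    rw [ZMod.val_natCast, ← pow_eq_pow_mod n hζ.pow_eq_one]
  have h1 : rk g = ∑ j, m j := by
    rw [eig_rk b (e ()), Finset.sum_congr rfl fun j _ => eig_ker b (e ()) (z j), Finset.sum_comm]
    refine Finset.sum_congr rfl fun i _ => ?_
    split_ifs with h
    · exact (Finset.sum_eq_zero fun j _ => if_neg fun e => z1 j (e.symm.trans h)).symm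
    · obtain ⟨n, hn, en⟩ := hζ.eq_pow_of_pow_eq_one (hd () i)
      have n0 : (n : ZMod r) ≠ 0 := fun e => h (by rw [← en, ← zp, e, ZMod.val_zero, pow_zero])
      have e1 : d () i = z (Units.mk0 _ n0) := en.symm.trans (zp n).symm
      rw [Finset.sum_eq_single (Units.mk0 _ n0) (fun j _ hj => if_neg fun e => hj (zi (e.symm.trans e1)))
        (fun h => absurd (Finset.mem_univ _) h), if_pos e1]
  have eq : ∀ a, (∀ j, m j ≤ m (j * a)) → ∀ j, m (j * a) = m j := fun a h j =>
    ((Finset.sum_eq_sum_iff_of_le fun j _ => h j).1 (Equiv.sum_comp (Equiv.mulRight a) m).symm j (Finset.mem_univ j)).symm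
  rw [h1]
  refine eig_dvd_sum _ m fun a ha => ?_
  induction ha using closure_induction with
  | one => simp
  | mul x y _ _ hx hy => intro j; rw [← mul_assoc, hy, hx]
  | inv x _ hx => intro j; rw [← hx, inv_mul_cancel_right]
  | mem x hx =>
    refine eq _ fun j => ?_
    rcases hx with rfl | rfl
    · have e1 : z (j * ZMod.unitOfCoprime k ((Nat.Prime.coprime_iff_not_dvd Fact.out).2 hk0).symm) = z j ^ k := by
        show ζ ^ ((j : ZMod r) * (k : ZMod r)).val = _
        rw [← pow_mul, ← zp ((j : ZMod r).val * k), Nat.cast_mul, ZMod.natCast_zmod_val]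
      show finrank K _ ≤ finrank K _
      rw [e1, ← LinearEquiv.finrank_map_eq (c⁻¹).1]
      refine Submodule.finrank_mono ?_
      rintro _ ⟨w, hw, rfl⟩
      have k : ∀ n : ℕ, (g ^ n).1 w = z j ^ n • w := fun n => by
        induction n with
        | zero => rw [pow_zero, pow_zero, one_smul, O_one_apply]
        | succ n ih => rw [pow_succ', O_mul_apply, ih, map_smul, eig_mem'.1 hw, smul_smul, pow_succ]
      refine eig_mem'.2 ?_
      show g.1 ((c⁻¹).1 w) = _ • (c⁻¹).1 w
      rw [← map_smul, ← k, ← hk, O_mul_apply, O_mul_apply, O_inv_apply_apply]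
    · have e1 : z (j * -1) * z j = 1 := by
        show ζ ^ _ * ζ ^ _ = 1
        rw [← pow_add, ← zp, Nat.cast_add, ZMod.natCast_zmod_val, ZMod.natCast_zmod_val]
        simp
      have a1 := Submodule.finrank_mono (eig_le_perp g e1)
      have a2 := finrank_perp hQ (LinearMap.ker (en g - z j • 1))
      have a3 := LinearMap.finrank_range_add_finrank_ker (en g - z (j * -1) • 1)
      show finrank K _ ≤ finrank K _
      omega

theorem eig_dvd (hQ : Nondeg Q) {r k : ℕ} [Fact r.Prime] (hr : (r : K) ≠ 0) {g c : O Q}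
    (hg : g ^ r = 1) (hk : c * g * c⁻¹ = g ^ k) (hk0 : ¬ r ∣ k) (p : ℕ) [Fact p.Prime] (a1 : k ^ p ≡ 1 [MOD r])
    (a2 : ¬ k ≡ 1 [MOD r]) (a3 : 2 < r) : 2 ∣ rk g ∧ p ∣ rk g := by
  have h := dvd_rkO hQ hr hg hk hk0
  have h1 : (k : ZMod r) ^ p = 1 := by
    rw [← Nat.cast_pow, (ZMod.natCast_eq_natCast_iff _ _ _).2 a1, Nat.cast_one]
  have h2 : (k : ZMod r) ≠ 1 := fun e => a2 ((ZMod.natCast_eq_natCast_iff _ _ _).1 (e.trans Nat.cast_one.symm))
  have h3 : (-1 : ZMod r) ≠ 1 := haveI := Fact.mk a3; ZMod.neg_one_ne_one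
  refine ⟨Dvd.dvd.trans ?_ h, Dvd.dvd.trans ?_ h⟩
  · rw [← orderOf_eq_prime (x := (-1 : (ZMod r)ˣ)) (p := 2) (by simp) fun e => h3 (congrArg Units.val e)]
    exact orderOf_dvd_natCard _ (subset_closure (by simp))
  · rw [← orderOf_eq_prime (x := ZMod.unitOfCoprime k ((Nat.Prime.coprime_iff_not_dvd Fact.out).2 hk0).symm) (p := p)
      (Units.ext h1) fun e => h2 (congrArg Units.val e)]
    exact orderOf_dvd_natCard _ (subset_closure (by simp))

theorem six_dvd (hQ : Nondeg Q) {g c : O Q}
    (h : ((7 : K) ≠ 0 ∧ g ^ 7 = 1 ∧ c * g * c⁻¹ = g ^ 2) ∨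
      ((13 : K) ≠ 0 ∧ g ^ 13 = 1 ∧ c * g * c⁻¹ = g ^ 3)) : 6 ∣ rk g := by
  haveI : Fact (Nat.Prime 7) := ⟨by norm_num⟩
  haveI : Fact (Nat.Prime 13) := ⟨by norm_num⟩
  rcases h with ⟨h1, h2, h3⟩ | ⟨h1, h2, h3⟩
  · have := eig_dvd hQ (r := 7) h1 h2 h3 (by norm_num) 3 (by decide) (by decide) (by decide)
    omega
  · have := eig_dvd hQ (r := 13) h1 h2 h3 (by norm_num) 3 (by decide) (by decide) (by decide)
    omega

theorem ten_dvd (hQ : Nondeg Q) {g c : O Q} (h11 : (11 : K) ≠ 0) (hg : g ^ 11 = 1)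
    (hc : c * g * c⁻¹ = g ^ 3) : 10 ∣ rk g := by
  haveI : Fact (Nat.Prime 11) := ⟨by norm_num⟩
  haveI : Fact (Nat.Prime 5) := ⟨by norm_num⟩
  have := eig_dvd hQ (r := 11) h11 hg hc (by norm_num) 5 (by decide) (by decide) (by decide)
  omega

omit [IsAlgClosed K] in
open _root_.Classical in
theorem eig_nine {a b : K} (ha : a ^ 3 = 1) (hb : b ^ 3 = 1) :
    (if a = 1 then 0 else 1) + (if b = 1 then 0 else 1) + (if a * b = 1 then 0 else 1) +
      (if a * (b * b) = 1 then 0 else 1) = 3 * (if a = 1 ∧ b = 1 then 0 else 1) := by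
  have s : ∀ c : K, c ^ 3 = 1 → (c * c = 1 ↔ c = 1) := fun c hc =>
    ⟨fun e => by linear_combination hc - c * e, fun e => by rw [e, one_mul]⟩
  by_cases h1 : a = 1
  · subst h1
    by_cases h2 : b = 1 <;> simp [h2, s b hb]
  by_cases h2 : b = 1
  · simp [h1, h2]
  have a2 : a ^ 2 + a + 1 = 0 := (mul_eq_zero.1 (by linear_combination ha : (a - 1) * (a ^ 2 + a + 1) = 0)).resolve_left
    (sub_ne_zero.2 h1)
  have b2 : b ^ 2 + b + 1 = 0 := (mul_eq_zero.1 (by linear_combination hb : (b - 1) * (b ^ 2 + b + 1) = 0)).resolve_left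
    (sub_ne_zero.2 h2)
  rcases mul_eq_zero.1 (by linear_combination b2 - b * a2 + ha : (b - a) * (b - a * a) = 0) with e | e
  · obtain rfl := sub_eq_zero.1 e
    have : b * (b * b) = 1 := by linear_combination hb
    simp [h1, this, s b hb]
  · obtain rfl := sub_eq_zero.1 e
    have e1 : a * (a * a) = 1 := by linear_combination ha
    have e2 : a * (a * a * (a * a)) = a * a := by linear_combination a * a * ha
    simp [h1, h2, e1, e2]

/-- a nine-group whose four subgroups of order three have the same rank -/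
theorem enine (hQ : Nondeg Q) (h7 : finrank K V = 7) (h3 : (3 : K) ≠ 0) {x y : O Q}
    (hx : x ^ 3 = 1) (hy : y ^ 3 = 1) (hc : x * y = y * x) (h1 : rk y = rk x)
    (h2 : rk (x * y) = rk x) (h4 : rk (x * y⁻¹) = rk x) : x = 1 := by
  classical
  obtain ⟨b, d, hd, e⟩ := eig_basis (fun a : Bool => bif a then x else y)
    (fun a b => by cases a <;> cases b <;> simp [hc]) (N := 3) h3 fun a => by cases a <;> assumption
  have ex : ∀ i, x.1 (b i) = d true i • b i := e true
  have ey : ∀ i, y.1 (b i) = d false i • b i := e false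
  have yi : y⁻¹ = y * y := by rw [inv_eq_iff_mul_eq_one, ← pow_three, hy]
  have r1 := eig_rk b ex
  have r2 := eig_rk b ey
  have r3 := eig_rk b (g := x * y) (d := fun i => d true i * d false i) fun i => by
    rw [O_mul_apply, ey, map_smul, ex, smul_smul, mul_comm]
  have r4 := eig_rk b (g := x * y⁻¹) (d := fun i => d true i * (d false i * d false i)) fun i => by
    rw [yi, O_mul_apply, O_mul_apply, ey, map_smul, ey, smul_smul, map_smul, ex, smul_smul, mul_comm]
  have r5 : rk x + rk y + rk (x * y) + rk (x * y⁻¹) = 3 * ∑ i, if d true i = 1 ∧ d false i = 1 then 0 else 1 := by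
    rw [r1, r2, r3, r4, ← Finset.sum_add_distrib, ← Finset.sum_add_distrib, ← Finset.sum_add_distrib, Finset.mul_sum]
    exact Finset.sum_congr rfl fun i _ => eig_nine (hd true i) (hd false i)
  have r6 : (∑ i, if d true i = 1 ∧ d false i = 1 then 0 else 1) ≤ 7 := by
    rw [← h7]
    refine (Finset.sum_le_card_nsmul _ _ 1 fun i _ => by split_ifs <;> omega).trans (by simp)
  have r7 : 2 ∣ rk x := by
    refine Dvd.dvd.trans ?_ (dvd_rkO hQ (r := 3) (k := 1) (g := x) (c := 1) h3 hx (by group) (by norm_num))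
    rw [← orderOf_eq_prime (x := (-1 : (ZMod 3)ˣ)) (p := 2) (by simp) (by decide)]
    exact orderOf_dvd_natCard _ (subset_closure (by simp))
  exact rk_eq_zero (by omega)

end CfsgLib.O7
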