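import Cfsg.Agent.Lib.O7.Base

/-!
ENDA: the negative reflections are a primitive class of 3-transpositions.  See `plans/O7B.md`.
-/

set_option autoImplicit false

namespace CfsgLib.O7

open CfsgLib.OrthE CfsgLib.OMax Module QuadraticMap Subgroup

variable {F V : Type*} [Field F] [Finite F] [AddCommGroup V] [Module F V] [FiniteDimensional F V]
  {Q : QuadraticForm F V} {H P : Subgroup (O Q)} {R : Set V}

section
omit [Finite F] [FiniteDimensional F V]

theorem enda_ap (u w : V) : (nr Q u).1 w = -(refl Q u).1 w := rfl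

theorem enda_mul (u v : V) : nr Q u * nr Q v = refl Q u * refl Q v :=
  O_ext fun w => by simp only [O_mul_apply, enda_ap, map_neg, neg_neg]

theorem enda_sq (u : V) : nr Q u * nr Q u = 1 := by rw [enda_mul, refl_mul_self]

theorem enda_inv (u : V) : (nr Q u)⁻¹ = nr Q u := inv_eq_of_mul_eq_one_right (enda_sq u)

theorem enda_neg (u : V) : nr Q (-u) = nr Q u := by rw [nr, refl_neg, nr]

theorem enda_conj (g : O Q) (u : V) : g * nr Q u * g⁻¹ = nr Q (g.1 u) := by
  rw [nr, nr, ← conj_refl, ← mul_assoc, ← ng_comm]; simp only [mul_assoc]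

theorem enda_conj' (u v : V) : nr Q u * nr Q v * nr Q u = nr Q ((refl Q u).1 v) := by
  rw [← enda_neg ((refl Q u).1 v), ← enda_ap, ← enda_conj, enda_inv]

theorem enda_df {u v : V} : ¬ Df u v ↔ v = u ∨ v = -u := by
  unfold Df; tauto

/-- the negative reflection as a member of the group -/
def dd {u : V} (hu : u ∈ R) : GT Q R := ⟨nr Q u, subset_closure ⟨u, hu, rfl⟩⟩

theorem dd_mem {u : V} (hu : u ∈ R) : dd hu ∈ DT Q R := ⟨u, hu, rfl⟩

theorem exists_dd {d : GT Q R} (hd : d ∈ DT Q R) : ∃ u, ∃ hu : u ∈ R, d = dd hu :=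
  let ⟨u, hu, e⟩ := hd; ⟨u, hu, Subtype.ext e⟩

theorem RS.enda_par (h : RS Q H P R) {u v : V} (hu : u ∈ R) (hv : v ∈ R) {c : F}
    (e : (2 : F) • v = c • u) : v = u ∨ v = -u := by
  have h1 := congrArg Q e
  rw [Q_smul, Q_smul, h.one u hu, h.one v hv, mul_one, mul_one] at h1
  rcases mul_self_eq_mul_self_iff.1 h1 with rfl | h2
  · exact Or.inl (smul_right_injective V h.two e)
  · refine Or.inr (smul_right_injective V h.two ?_)
    change (2 : F) • v = (2 : F) • -u
    rw [e, h2, neg_smul_neg]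

end

theorem RS.enda_eq (h : RS Q H P R) {u v : V} (hu : u ∈ R) (hv : v ∈ R) :
    nr Q u = nr Q v ↔ ¬ Df u v := by
  rw [enda_df]
  refine ⟨fun e => ?_, ?_⟩
  · have := congrArg (fun g : O Q => g.1 v) e
    simp only [enda_ap, h.refl_ap hu, h.refl_ap hv, h.pol_self hv, neg_inj, sub_right_inj] at this
    exact h.enda_par hu hv this.symm
  · rintro (rfl | rfl)
    · rfl
    · exact (enda_neg u).symm

theorem RS.nr_comm (h : RS Q H P R) {u v : V} (hu : u ∈ R) (hv : v ∈ R) :
    Commute (nr Q u) (nr Q v) ↔ ¬ NC Q u v := by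
  have e1 : Commute (nr Q u) (nr Q v) ↔ nr Q v = nr Q ((refl Q u).1 v) := by
    rw [← enda_conj']
    refine ⟨fun c => by rw [c.eq, mul_assoc, enda_sq, mul_one], fun e => ?_⟩
    change _ * _ = _ * _
    conv_rhs => rw [e, mul_assoc, enda_sq, mul_one]
  rw [e1, h.enda_eq hv (h.ref u hu v hv), enda_df, h.refl_ap hu, NC, not_and_or, enda_df, not_not,
    polar_comm Q u v]
  have u0 : u ≠ 0 := fun e => by simpa [e] using h.one u hu
  constructor
  · rintro (e | e)
    · exact Or.inr ((smul_eq_zero.1 (sub_eq_self.1 e)).resolve_right u0)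
    · exact Or.inl (h.enda_par hu hv (c := polar Q v u) (by linear_combination (norm := module) e))
  · rintro ((rfl | rfl) | e)
    · right; rw [h.pol_self hu]; module
    · right; rw [polar_neg_left, h.pol_self hu]; module
    · left; rw [e, zero_smul, sub_zero]

theorem RS.nr_eq (h : RS Q H P R) {u v : V} (hu : u ∈ R) (hv : v ∈ R) :
    nr Q u = nr Q v ↔ ¬ Df u v := h.enda_eq hu hv

omit [Finite F] [FiniteDimensional F V] in
theorem closure_DT : closure (DT Q R) = ⊤ := by
  have : DT Q R = Subtype.val ⁻¹' (nr Q '' R) := Set.ext fun d =>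
    ⟨fun ⟨u, hu, e⟩ => ⟨u, hu, e.symm⟩, fun ⟨u, hu, e⟩ => ⟨u, hu, e.symm⟩⟩
  rw [this]
  exact closure_closure_coe_preimage

theorem RS.dd_comm (h : RS Q H P R) {u v : V} (hu : u ∈ R) (hv : v ∈ R) :
    Commute (dd hu : GT Q R) (dd hv) ↔ ¬ NC Q u v :=
  Subtype.ext_iff.trans (h.nr_comm hu hv)

theorem RS.dd_conj (h : RS Q H P R) {u v : V} (hu : u ∈ R) (hv : v ∈ R) :
    (dd hu : GT Q R) * dd hv * dd hu = dd (h.ref u hu v hv) := Subtype.ext (enda_conj' u v)

theorem RS.gt_inv (h : RS Q H P R) {g : O Q} (hg : g ∈ GT Q R) : ∀ u ∈ R, g.1 u ∈ R := by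
  induction hg using closure_induction_left with
  | one => exact fun u hu => hu
  | mul_left x hx y _ ih =>
    obtain ⟨v, hv, rfl⟩ := hx
    exact fun u hu => h.neg _ (h.ref v hv _ (ih u hu))
  | inv_mul_cancel x hx y _ ih =>
    obtain ⟨v, hv, rfl⟩ := hx
    rw [enda_inv]
    exact fun u hu => h.neg _ (h.ref v hv _ (ih u hu))

theorem RS.exists_root_out (h : RS Q H P R) (s : Finset V) (hs : s.card < 7) :
    ∃ x ∈ R, x ∉ Submodule.span F (s : Set V) := by
  by_contra! hn
  have h1 := Submodule.finrank_mono (Submodule.span_le.2 hn)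
  rw [h.span_eq, finrank_top, h.dim] at h1
  exact absurd (h1.trans (finrank_span_finset_le_card s)) (by omega)

theorem RS.exists_df (h : RS Q H P R) {S : Set V} (hS : Submodule.span F S = ⊤) (u : V) :
    ∃ v ∈ S, Df u v := by
  by_contra! hn
  have h1 : Submodule.span F S ≤ F ∙ u := Submodule.span_le.2 fun v hv => by
    rcases enda_df.1 (hn v hv) with rfl | rfl
    · exact Submodule.mem_span_singleton_self _
    · exact Submodule.neg_mem _ (Submodule.mem_span_singleton_self _)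
  have h2 := Submodule.finrank_mono h1
  rw [hS, finrank_top, h.dim] at h2
  have := finrank_span_finset_le_card (R := F) ({u} : Finset V)
  rw [Set.finrank, Finset.coe_singleton, Finset.card_singleton] at this
  omega

theorem RS.exists_pol (h : RS Q H P R) {S : Set V} (hS : Submodule.span F S = ⊤) {e : V} (he : e ∈ R) :
    ∃ v ∈ S, polar Q e v ≠ 0 := by
  by_contra! hn
  have h1 : Submodule.span F S ≤ LinearMap.ker (polarBilin Q e) := Submodule.span_le.2 hn
  exact h.two ((h.pol_self he).symm.trans (h1 (hS.ge trivial)))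

theorem RS.span_closed (h : RS Q H P R) {S : Set V} {u : V} (hu : u ∈ R) (hS : u ∈ S)
    (hr : ∀ x ∈ R, ∀ v ∈ S, (refl Q x).1 v ∈ S) : Submodule.span F S = ⊤ :=
  (h.irr' _ fun x hx _ hv => (Submodule.span_le.2 fun w hw => Submodule.subset_span (hr x hx w hw) :
    Submodule.span F S ≤ (Submodule.span F S).comap (en (refl Q x))) hv).resolve_left fun e => by
    have := h.one u hu
    rw [(Submodule.mem_bot F).1 (e.le (Submodule.subset_span hS))] at this
    simp at this

theorem SL.braid (h : SL Q H P R) {u v : V} (hu : u ∈ R) (hv : v ∈ R) (n : NC Q u v) :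
    (dd hu : GT Q R) * dd hv * dd hu = dd hv * dd hu * dd hv := by
  rw [h.dd_conj, h.dd_conj]
  refine Subtype.ext ((h.nr_eq (h.ref u hu v hv) (h.ref v hv u hu)).2 (enda_df.2 ?_))
  rw [h.refl_ap hu, h.refl_ap hv, polar_comm Q v u]
  rcases (h.lace u hu v hv n.1).resolve_left n.2 with e | e <;> rw [e]
  · right; module
  · left; module

omit [Finite F] [FiniteDimensional F V] in
theorem dd_sq {u : V} (hu : u ∈ R) : (dd hu : GT Q R) * dd hu = 1 := Subtype.ext (enda_sq u)

theorem SL.cube (h : SL Q H P R) {u v : V} (hu : u ∈ R) (hv : v ∈ R) (n : NC Q u v) :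
    ((dd hu : GT Q R) * dd hv) ^ 3 = 1 := by
  have e : ((dd hu : GT Q R) * dd hv) ^ 3 = (dd hu * dd hv * dd hu) * (dd hv * dd hu * dd hv) := by
    simp only [pow_succ, pow_zero, one_mul, mul_assoc]
  rw [e, ← h.braid hu hv n, h.dd_conj, dd_sq]

theorem RS.sq (h : RS Q H P R) {u v : V} (hu : u ∈ R) (hv : v ∈ R) (n : ¬ NC Q u v) :
    ((dd hu : GT Q R) * dd hv) ^ 2 = 1 := by
  rw [((h.dd_comm hu hv).2 n).mul_pow, pow_two, pow_two, dd_sq, dd_sq, mul_one]

theorem SL.tt (h : SL Q H P R) : Cfsg.IsThreeTranspositionClass (DT Q R) := by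
  obtain ⟨u, hu⟩ := h.ne
  refine ⟨⟨fun d hd => ?_, fun d hd e he => ?_⟩, ⟨dd hu, dd_mem hu, Set.ext fun d => ⟨fun hd => ?_, ?_⟩⟩,
    closure_DT⟩
  · obtain ⟨v, hv, rfl⟩ := exists_dd hd
    refine orderOf_eq_prime ((pow_two _).trans (dd_sq hv)) fun e => ?_
    obtain ⟨w, hw, d⟩ := h.exists_df h.span_eq v
    have := congrArg (fun g : GT Q R => g.1.1 w) e
    change -(refl Q v).1 w = w at this
    rw [h.refl_ap hv] at this
    exact enda_df.2 (h.enda_par hv hw (c := polar Q w v) (by linear_combination (norm := module) -this)) d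
  · obtain ⟨v, hv, rfl⟩ := exists_dd hd
    obtain ⟨w, hw, rfl⟩ := exists_dd he
    by_cases n : NC Q v w
    · exact Or.inr (h.cube hv hw n)
    · exact Or.inl (h.sq hv hw n)
  · obtain ⟨e, he, rfl⟩ := exists_dd hd
    obtain ⟨v, ⟨hv, c⟩, p⟩ := h.exists_pol (h.span_closed (S := {v | ∃ hv : v ∈ R, IsConj (dd hu : GT Q R) (dd hv)})
      hu ⟨hu, IsConj.refl _⟩ fun x hx v ⟨hv, c⟩ => ⟨h.ref x hx v hv, c.trans (isConj_iff.2 ⟨dd hx, by
        rw [inv_eq_of_mul_eq_one_right (dd_sq hx), h.dd_conj]⟩)⟩) he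
    by_cases d : Df e v
    · refine c.trans (isConj_iff.2 ⟨dd hv * dd he, ?_⟩)
      rw [← h.braid he hv ⟨d, p⟩, mul_inv_eq_iff_eq_mul, mul_assoc]
    · rwa [show dd he = dd hv from Subtype.ext ((h.nr_eq he hv).2 d)]
  · intro c
    obtain ⟨g, rfl⟩ := isConj_iff.1 c
    exact ⟨_, h.gt_inv g.2 u hu, enda_conj g.1 u⟩

theorem RS.gt_cases (h : RS Q H P R) {u : V} (hu : u ∈ R) {g : O Q} (hg : g ∈ GT Q R) :
    g ∈ H ∨ nr Q u * g ∈ H := by
  have key : ∀ v ∈ R, ∀ y, y ∈ H ∨ nr Q u * y ∈ H → nr Q v * y ∈ H ∨ nr Q u * (nr Q v * y) ∈ H := by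
    rintro v hv y (e | e)
    · right; rw [← mul_assoc, enda_mul]; exact H.mul_mem (h.mem u hu v hv) e
    · left
      have := H.mul_mem (h.mem v hv u hu) e
      rwa [← enda_mul, mul_assoc, ← mul_assoc (nr Q u), enda_sq, one_mul] at this
  induction hg using closure_induction_left with
  | one => exact Or.inl H.one_mem
  | mul_left x hx y _ ih => obtain ⟨v, hv, rfl⟩ := hx; exact key v hv y ih
  | inv_mul_cancel x hx y _ ih => obtain ⟨v, hv, rfl⟩ := hx; rw [enda_inv]; exact key v hv y ih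

theorem SL.center (h : SL Q H P R) : center (GT Q R) = ⊥ := by
  refine eq_bot_iff.2 fun z hz => Subtype.ext ?_
  obtain ⟨u, hu⟩ := h.ne
  have c : ∀ x ∈ R, z.1 * nr Q x = nr Q x * z.1 := fun x hx =>
    (congrArg Subtype.val (mem_center_iff.1 hz (dd hx))).symm
  have key : ∀ ε : F, z.1.1 u = ε • u → ∀ v, z.1.1 v = ε • v := fun ε e v =>
    (Submodule.span_le.2 fun w hw => hw : Submodule.span F {v | z.1.1 v = ε • v} ≤
      LinearMap.eqLocus (en z.1) (ε • LinearMap.id)) ((h.span_closed hu e fun x hx w hw => by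
        have := congrArg (fun g : O Q => g.1 w) (c x hx)
        simp only [O_mul_apply, enda_ap, map_neg, neg_inj] at this
        change z.1.1 _ = _
        rw [this, show z.1.1 w = ε • w from hw, map_smul]).ge trivial)
  rcases enda_df.1 ((h.nr_eq hu (h.gt_inv z.2 u hu)).1 (by
    rw [← enda_conj, c u hu, mul_inv_cancel_right])) with e | e
  · exact O_ext fun v => (key 1 (by rw [e, one_smul]) v).trans (one_smul F v)
  have e1 : z.1 = ng Q := O_ext fun v => (key (-1) (by rw [e, neg_one_smul]) v).trans (neg_one_smul F v)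
  exfalso
  rcases h.gt_cases hu z.2 with m | m <;> rw [e1] at m
  · have := congrArg (fun g : O Q => polar Q (g.1 u) u) (h.cent _ m fun x _ => ng_comm x)
    simp only [ng_apply, polar_neg_left, O_one_apply, h.pol_self hu] at this
    exact mul_ne_zero h.two h.two (by linear_combination -this)
  · rw [nr, ng_comm, mul_assoc, ng_mul_ng, mul_one] at m
    exact refl_not_mem h.nd (by rw [h.dim]; norm_num) (by rw [h.one u hu]; exact one_ne_zero) (h.lt.le m)

theorem RS.le_GT (h : RS Q H P R) : P ≤ GT Q R :=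
  h.le_even.trans ((closure_le _).2 fun _ ⟨_, hu, _, hw, e⟩ =>
    e ▸ enda_mul (Q := Q) _ _ ▸ (dd hu * dd hw : GT Q R).2)

theorem RS.normal_GT (h : RS Q H P R) : (P.subgroupOf (GT Q R)).Normal := by
  have := finite_O Q
  refine (normal_subgroupOf_iff_le_normalizer h.le_GT).2 ((closure_le _).2 ?_)
  rintro _ ⟨u, hu, rfl⟩
  refine mem_normalizer_fintype fun x hx => ?_
  have := h.nm u hu x hx
  rwa [show nr Q u * x * (nr Q u)⁻¹ = refl Q u * x * (refl Q u)⁻¹ from O_ext fun v => by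
    simp only [enda_inv, refl_inv, O_mul_apply, enda_ap, map_neg, neg_neg]]

theorem SL.enda_mul_mem (h : SL Q H P R) {u e : V} (hu : u ∈ R) (he : e ∈ R) :
    (dd hu : GT Q R)⁻¹ * dd he ∈ P.subgroupOf (GT Q R) := by
  have := h.normal_GT
  rw [← QuotientGroup.eq]
  let π := QuotientGroup.mk' (P.subgroupOf (GT Q R))
  change π _ = π _
  by_contra hne
  let S := {v | ∃ hv : v ∈ R, π (dd hu) = π (dd hv)}
  have hP : ∀ x ∈ P, ∀ v ∈ S, x.1 v ∈ S := fun x hx v ⟨hv, e⟩ => ⟨h.inv x (h.le hx) v hv, by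
    have h1 : π ⟨x, h.le_GT hx⟩ = 1 := (QuotientGroup.eq_one_iff _).2 hx
    rw [show dd (h.inv x (h.le hx) v hv) = ⟨x, h.le_GT hx⟩ * dd hv * (⟨x, h.le_GT hx⟩ : GT Q R)⁻¹ from
      Subtype.ext (enda_conj x v).symm, map_mul, map_mul, map_inv, h1, one_mul, inv_one, mul_one, e]⟩
  have u0 : u ≠ 0 := fun e => by simpa [e] using h.one u hu
  have hS : Submodule.span F S = ⊤ := (h.irr _ fun x hx _ hv => (Submodule.span_le.2 fun w hw =>
    Submodule.subset_span (hP x hx w hw) : Submodule.span F S ≤ (Submodule.span F S).comap (en x))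
      hv).resolve_left fun e => u0 (e.le (Submodule.subset_span ⟨hu, rfl⟩))
  obtain ⟨v, ⟨hv, ev⟩, p⟩ := h.exists_pol hS he
  have h3 : (π (dd he) * π (dd hu)) ^ 3 = 1 := by
    rw [ev, ← map_mul, ← map_pow, h.cube he hv ⟨by
      by_contra d
      exact hne (ev.trans (congrArg π (Subtype.ext ((h.nr_eq he hv).2 d).symm))), p⟩, map_one]
  have nc : ∀ w ∈ S, NC Q e w := fun w ⟨hw, ew⟩ => by
    by_contra n
    have h2 : (π (dd he) * π (dd hu)) ^ 2 = 1 := by rw [ew, ← map_mul, ← map_pow, h.sq he hw n, map_one]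
    rw [pow_succ, h2, one_mul] at h3
    refine hne ((eq_inv_of_mul_eq_one_right h3).trans ?_)
    rw [← map_inv, inv_eq_of_mul_eq_one_right (dd_sq he)]
  have cm : ∀ a ∈ S, ∀ b ∈ S, Commute (nr Q a) (nr Q b) := fun a ⟨ha, ea⟩ b ⟨hb, eb⟩ =>
    (h.nr_comm ha hb).2 fun n => h.sym a ha b hb e he n (nc a ⟨ha, ea⟩) (nc b ⟨hb, eb⟩)
      (nc _ ⟨h.ref a ha b hb, by
        rw [← h.dd_conj ha hb, map_mul, map_mul, ← ea, ← eb, ← map_mul, dd_sq, map_one, one_mul]⟩)
  obtain ⟨w, ⟨hw, ew⟩, d⟩ := h.exists_df hS u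
  have := h.simple
  let N : Subgroup P := (centralizer (nr Q '' S)).subgroupOf P
  have hN : N.Normal := ⟨fun n hn g => by
    rintro _ ⟨a, ha, rfl⟩
    have h1 : nr Q (g⁻¹.1.1 a) * n = n * nr Q (g⁻¹.1.1 a) := hn _ ⟨_, hP _ g⁻¹.2 a ha, rfl⟩
    rw [← enda_conj] at h1
    have := congrArg (fun y => g.1 * y * g.1⁻¹) h1
    simpa [mul_assoc] using this⟩
  rcases hN.eq_bot_or_eq_top with e1 | e1
  · have m : (nr Q u)⁻¹ * nr Q w ∈ P := (QuotientGroup.eq (s := P.subgroupOf (GT Q R))).1 ew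
    have : (⟨_, m⟩ : P) ∈ N := by
      rintro _ ⟨a, ha, rfl⟩
      exact ((cm a ha u ⟨hu, rfl⟩).inv_right.mul_right (cm a ha w ⟨hw, ew⟩)).eq
    rw [e1] at this
    exact (h.nr_eq hu hw).1 (inv_mul_eq_one.1 (congrArg Subtype.val this)) d
  · rcases h.irr (F ∙ u) fun x hx y hy => by
      obtain ⟨c, rfl⟩ := Submodule.mem_span_singleton.1 hy
      have h1 : nr Q u * x = x * nr Q u := e1.ge (mem_top (⟨x, hx⟩ : P)) _ ⟨u, ⟨hu, rfl⟩, rfl⟩
      rw [map_smul]
      refine Submodule.smul_mem _ _ ?_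
      rcases enda_df.1 ((h.nr_eq hu (h.inv x (h.le hx) u hu)).1 (by
        rw [← enda_conj, ← h1, mul_inv_cancel_right])) with e | e <;> rw [e]
      · exact Submodule.mem_span_singleton_self _
      · exact Submodule.neg_mem _ (Submodule.mem_span_singleton_self _) with e2 | e2
    · exact u0 (Submodule.span_singleton_eq_bot.1 e2)
    · obtain ⟨_, rfl, d⟩ := h.exists_df e2 u
      exact d.1 rfl

theorem SL.comm_eq (h : SL Q H P R) : commutator (GT Q R) = P.subgroupOf (GT Q R) := by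
  have := h.normal_GT
  obtain ⟨u, hu⟩ := h.ne
  refine le_antisymm ?_ ?_
  · let π := QuotientGroup.mk' (P.subgroupOf (GT Q R))
    have key : ∀ g, π g ∈ zpowers (π (dd hu)) := fun g =>
      (closure_DT.ge.trans ((closure_le _).2 fun d hd => by
        obtain ⟨v, hv, rfl⟩ := exists_dd hd
        exact (show π (dd hu) = π (dd hv) from QuotientGroup.eq.2 (h.enda_mul_mem hu hv)) ▸ mem_zpowers _) :
        ⊤ ≤ (zpowers (π (dd hu))).comap π) (mem_top g)
    refine commutator_le.2 fun a _ b _ => (QuotientGroup.eq_one_iff _).1 ?_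
    change π _ = 1
    obtain ⟨m, hm⟩ := key a
    obtain ⟨n, hn⟩ := key b
    rw [map_commutatorElement, commutatorElement_eq_one_iff_commute, ← hm, ← hn]
    exact Commute.zpow_zpow_self _ _ _
  · have := h.simple
    have h1 : commutator P = ⊤ := (IsSimpleGroup.eq_bot_or_eq_top_of_normal _ inferInstance).resolve_left
      fun e => h.ncomm ⟨⟨fun a b => commutatorElement_eq_one_iff_mul_comm.1
        (e.le (commutator_mem_commutator (mem_top a) (mem_top b)))⟩⟩
    intro x hx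
    have : (commutator P).map (inclusion h.le_GT) ≤ commutator (GT Q R) := by
      rw [commutator_def, map_commutator]; exact commutator_mono le_top le_top
    exact this ⟨⟨x, hx⟩, h1.ge trivial, rfl⟩

theorem SL.comm (h : SL Q H P R) : Nonempty (P ≃* commutator (GT Q R)) := by
  rw [h.comm_eq]
  exact ⟨(subgroupOfEquivOfLe h.le_GT).symm⟩

theorem SL.types (h : SL Q H P R) : (∃ n, 5 ≤ n ∧ FTHM.SymT (DT Q R) n) ∨
    (∃ m, 2 ≤ m ∧ FTHM.SpT (DT Q R) m) ∨ (∃ m, 3 ≤ m ∧ FTHM.OPT (DT Q R) m) ∨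
    (∃ m, 2 ≤ m ∧ FTHM.OMT (DT Q R) m) := by
  classical
  have := finite_O Q
  have := h.simple
  obtain ⟨e⟩ := h.comm
  refine FTHM.sympl (FTHM.kprim_of_prim (ThreeTrans.prim_of_simple h.tt ?_ e.symm.isSimpleGroup))
    fun a ha b hb c hc n1 n2 n3 => ?_
  · by_contra! hn
    have key : ∀ u ∈ R, ∀ v ∈ R, Df u v → NC Q u v := fun u hu v hv d => by
      by_contra n
      exact hn _ (dd_mem hu) _ (dd_mem hv) (fun e => (h.nr_eq hu hv).1 (congrArg Subtype.val e) d)
        ((h.dd_comm hu hv).2 n)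
    obtain ⟨u, hu⟩ := h.ne
    obtain ⟨v, hv, d⟩ := h.exists_df h.span_eq u
    obtain ⟨x, hx, o⟩ := h.exists_root_out {u, v} (Finset.card_le_two.trans_lt (by norm_num))
    have k : ∀ y ∈ R, y ∈ Submodule.span F (({u, v} : Finset V) : Set V) → NC Q x y := fun y hy m =>
      key x hx y hy ⟨fun e => o (e ▸ m), fun e => o ((Submodule.neg_mem_iff _).1 (e ▸ m))⟩
    have m1 : u ∈ Submodule.span F (({u, v} : Finset V) : Set V) := Submodule.subset_span (by simp)
    have m2 : v ∈ Submodule.span F (({u, v} : Finset V) : Set V) := Submodule.subset_span (by simp)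
    exact h.sym u hu v hv x hx (key u hu v hv d) (k u hu m1) (k v hv m2) (k _ (h.ref u hu v hv) (by
      rw [h.refl_ap hu]; exact Submodule.sub_mem _ m2 (Submodule.smul_mem _ _ m1)))
  · obtain ⟨u, hu, rfl⟩ := exists_dd ha
    obtain ⟨v, hv, rfl⟩ := exists_dd hb
    obtain ⟨w, hw, rfl⟩ := exists_dd hc
    rw [h.dd_comm, not_not] at n1 n2 n3
    rw [h.dd_conj, h.dd_comm]
    exact h.sym u hu v hv w hw n1 n2 n3

/-- signs can be chosen along a string -/
theorem SL.exists_str (h : SL Q H P R) {n : ℕ} (d : Fin n → GT Q R) (hd : ∀ i, d i ∈ DT Q R)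
    (h1 : ∀ i j : Fin n, i.1 + 1 = j.1 → ¬ Commute (d i) (d j))
    (h2 : ∀ i j : Fin n, i.1 + 1 < j.1 → Commute (d i) (d j) ∧ d i ≠ d j) :
    ∃ a : Fin n → V, Str Q R a ∧ ∀ i, (d i).1 = nr Q (a i) := by
  choose u hu e using fun i => exists_dd (hd i)
  let u' : ℕ → V := fun k => if hk : k < n then u ⟨k, hk⟩ else 0
  let a : ℕ → V := fun k => Nat.rec (u' 0) (fun k x => -polar Q x (u' (k + 1)) • u' (k + 1)) k
  have a1 : ∀ k, a (k + 1) = -polar Q (a k) (u' (k + 1)) • u' (k + 1) := fun _ => rfl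
  have p : ∀ i j : Fin n, i.1 + 1 = j.1 → polar Q (u i) (u j) = 1 ∨ polar Q (u i) (u j) = -1 :=
    fun i j hij => by
      have := h1 i j hij
      rw [e, e, h.dd_comm, not_not] at this
      exact (h.lace _ (hu i) _ (hu j) this.1).resolve_left this.2
  have key : ∀ k (hk : k < n), a k = u ⟨k, hk⟩ ∨ a k = -u ⟨k, hk⟩ := fun k => by
    induction k with
    | zero => exact fun hk => Or.inl (dif_pos hk)
    | succ k ih =>
      intro hk
      rw [a1, show u' (k + 1) = u ⟨k + 1, hk⟩ from dif_pos hk]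
      rcases ih (by omega) with e | e <;> rcases p ⟨k, by omega⟩ ⟨k + 1, hk⟩ rfl with f | f <;>
        simp [e, f]
  refine ⟨fun i => a i, ⟨fun i => ?_, fun i j hij => ?_, fun i j hij => ?_⟩, fun i => ?_⟩
  · rcases key i i.2 with e | e <;> rw [e]
    exacts [hu i, h.neg _ (hu i)]
  · rw [← hij, a1, hij, show u' j = u j from dif_pos j.2]
    rcases key i i.2 with e | e <;> rcases p i j hij with f | f <;> simp [e, f]
  · obtain ⟨c, ne⟩ := h2 i j hij
    rw [e, e] at c ne
    have : polar Q (u i) (u j) = 0 := by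
      by_contra z
      exact (h.dd_comm _ _).1 c ⟨by
        by_contra x; exact ne (Subtype.ext ((h.nr_eq (hu i) (hu j)).2 x)), z⟩
    rcases key i i.2 with e | e <;> rcases key j j.2 with f | f <;> simp [e, f, this]
  · rw [e]
    change _ = nr Q (a i)
    rcases key i i.2 with e | e <;> rw [e]
    exacts [rfl, (enda_neg _).symm]

end CfsgLib.O7
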