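import Cfsg.Agent.Lib.O7.EndA

/-!
ENDD: the root system `A₇` lies in `E₇`.  See `plans/O7B.md`.
-/

set_option autoImplicit false
set_option linter.unusedSectionVars false

namespace CfsgLib.O7

open CfsgLib.OrthE CfsgLib.OMax Module QuadraticMap Subgroup

namespace EndD

abbrev Z8 := Fin 8 → ℤ

def rt (i j : Fin 8) : Z8 := fun m => (if m = i then 1 else 0) - (if m = j then 1 else 0)
def sg (b : Fin 8 → Bool) : Z8 := fun m => if b m then 1 else -1
def f0 : Z8 := ![1, 1, 1, 1, -1, -1, -1, -1]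
def s0 : Z8 := ![1, -1, -1, -1, -1, 1, 1, 1]
def w0 : Z8 := ![1, 1, 1, 1, -1, 0, 0, -3]

/-- twice the roots of `E₇` -/
def Ph (x : Z8) : Prop :=
  (∃ i j, i ≠ j ∧ x = (2 : ℤ) • rt i j) ∨ ((∀ m, x m = 1 ∨ x m = -1) ∧ ∑ m, x m = 0)

instance (x : Z8) : Decidable (Ph x) := inferInstanceAs (Decidable (_ ∨ _))

theorem Ph.ind {p : Z8 → Prop} (h1 : ∀ i j, i ≠ j → p ((2 : ℤ) • rt i j))
    (h2 : ∀ b, ∑ m, sg b m = 0 → p (sg b)) {x : Z8} (h : Ph x) : p x := by
  rcases h with ⟨i, j, hij, rfl⟩ | ⟨h, hs⟩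
  · exact h1 i j hij
  · have : x = sg fun m => x m = 1 := funext fun m => by
      rcases h m with e | e <;> simp [sg, e]
    rw [this] at hs ⊢
    exact h2 _ hs

theorem rt_sum : ∀ i j, ∑ m, rt i j m = 0 := by decide +kernel
theorem rt_sq : ∀ i j, i ≠ j → rt i j ⬝ᵥ rt i j = 2 := by decide +kernel
theorem rt_val : ∀ i j m, i ≠ j → rt i j m = 0 ∨ rt i j m = 1 ∨ rt i j m = -1 := by decide +kernel
theorem rt_dot : ∀ i j k l, i ≠ j → k ≠ l → (∀ m, rt i j m * rt k l m = 0) ∨ rt i j ⬝ᵥ rt k l = 1 ∨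
    rt i j ⬝ᵥ rt k l = -1 ∨ rt i j ⬝ᵥ rt k l = 2 ∨ rt i j ⬝ᵥ rt k l = -2 := by decide +kernel
theorem rt_step : ∀ i j k, i ≠ j → j ≠ k → i ≠ k →
    rt i j - (rt i j ⬝ᵥ rt j k) • rt j k = rt i k := by decide +kernel
theorem rt_neg : ∀ i j, -rt i j = rt j i := by decide +kernel
theorem rt_ref : ∀ i j, i ≠ j → ∀ k : Fin 7, ∃ i' j', i' ≠ j' ∧
    rt i j - (rt i j ⬝ᵥ rt k.castSucc k.succ) • rt k.castSucc k.succ = rt i' j' := by decide +kernel

def ps (b : Fin 8 → Bool) (c : Bool) (k : Fin 4) : Fin 8 :=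
  ((List.finRange 8).filter fun m => b m = c).getD k 0

theorem pair : ∀ b, ∑ m, sg b m = 0 → (∀ k, ps b true k ≠ ps b false k) ∧
    (∀ k l, k ≠ l → rt (ps b true k) (ps b false k) ⬝ᵥ rt (ps b true l) (ps b false l) = 0) ∧
    sg b = ∑ k, rt (ps b true k) (ps b false k) := by decide +kernel

theorem Ph.sum {x : Z8} (h : Ph x) : ∑ m, x m = 0 :=
  h.ind (p := fun x => ∑ m, x m = 0) (by decide +kernel) fun _ h => h

theorem Ph.ref {x : Z8} (h : Ph x) : x ⬝ᵥ f0 = 4 * (x ⬝ᵥ f0 / 4) ∧ Ph (x - (x ⬝ᵥ f0 / 4) • f0) :=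
  h.ind (p := fun x => x ⬝ᵥ f0 = 4 * (x ⬝ᵥ f0 / 4) ∧ Ph (x - (x ⬝ᵥ f0 / 4) • f0))
    (by decide +kernel) (by decide +kernel)

theorem Ph.three {x : Z8} (h : Ph x) : ∃ m m', (((2 : ℤ) • w0 - x) ⬝ᵥ rt m m') % 3 = 1 :=
  h.ind (p := fun x => ∃ m m', (((2 : ℤ) • w0 - x) ⬝ᵥ rt m m') % 3 = 1)
    (by decide +kernel) (by decide +kernel)

theorem Ph.five {x : Z8} (h : Ph x) : x = (2 : ℤ) • rt 0 1 ∨ x ⬝ᵥ rt 0 1 = 2 ∨ x ⬝ᵥ rt 0 1 = 0 ∨
    x ⬝ᵥ rt 0 1 = -2 ∨ x ⬝ᵥ rt 0 1 = -4 :=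
  h.ind (p := fun x => x = (2 : ℤ) • rt 0 1 ∨ x ⬝ᵥ rt 0 1 = 2 ∨ x ⬝ᵥ rt 0 1 = 0 ∨
    x ⬝ᵥ rt 0 1 = -2 ∨ x ⬝ᵥ rt 0 1 = -4) (by decide +kernel) (by decide +kernel)

theorem s0_not : ∀ i j, ∃ m m', (s0 - (2 : ℤ) • rt i j) ⬝ᵥ rt m m' = 2 := by decide +kernel

/-- half the sum of four orthogonal roots -/
theorem four {p n : Fin 4 → Fin 8} (h : ∀ k, p k ≠ n k)
    (ho : ∀ k l, k ≠ l → ∀ m, rt (p k) (n k) m * rt (p l) (n l) m = 0) : Ph (∑ k, rt (p k) (n k)) := by
  have key : ∀ a b c d : ℤ, (a = 0 ∨ a = 1 ∨ a = -1) → (b = 0 ∨ b = 1 ∨ b = -1) → (c = 0 ∨ c = 1 ∨ c = -1) →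
      (d = 0 ∨ d = 1 ∨ d = -1) → a * b = 0 → a * c = 0 → a * d = 0 → b * c = 0 → b * d = 0 → c * d = 0 →
      (a + b + c + d) ^ 2 ≤ 1 ∧ (a + b + c + d) ^ 2 = a * a + b * b + c * c + d * d := by
    rintro a b c d (rfl | rfl | rfl) (rfl | rfl | rfl) (rfl | rfl | rfl) (rfl | rfl | rfl) <;> simp
  have k1 := fun m => key _ _ _ _ (rt_val _ _ m (h 0)) (rt_val _ _ m (h 1)) (rt_val _ _ m (h 2))
    (rt_val _ _ m (h 3)) (ho 0 1 (by decide) m) (ho 0 2 (by decide) m) (ho 0 3 (by decide) m)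
    (ho 1 2 (by decide) m) (ho 1 3 (by decide) m) (ho 2 3 (by decide) m)
  refine Or.inr ⟨fun m => ?_, ?_⟩
  · have k2 := (Finset.sum_eq_sum_iff_of_le (s := Finset.univ) fun m _ => (k1 m).1).1 (by
      simp only [fun m => (k1 m).2, Finset.sum_add_distrib]
      have e0 := rt_sq _ _ (h 0)
      have e1 := rt_sq _ _ (h 1)
      have e2 := rt_sq _ _ (h 2)
      have e3 := rt_sq _ _ (h 3)
      simp only [dotProduct] at e0 e1 e2 e3
      rw [e0, e1, e2, e3]
      simp) m (Finset.mem_univ _)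
    simpa [Fin.sum_univ_four] using sq_eq_one_iff.1 k2
  · simp [Fin.sum_univ_four, Finset.sum_add_distrib, rt_sum]

variable {F V : Type*} [Field F] [Finite F] [AddCommGroup V] [Module F V] [FiniteDimensional F V]
  {Q : QuadraticForm F V} {H P : Subgroup (O Q)} {R : Set V} {a : Fin 7 → V}

def tl (a : Fin 7 → V) (m : Fin 8) : V := ∑ i : Fin 7, if m.1 ≤ i.1 then a i else 0

def io (a : Fin 7 → V) : Z8 →ₗ[ℤ] V := Fintype.linearCombination ℤ (tl a)

theorem io_rt (i j : Fin 8) : io a (rt i j) = tl a i - tl a j := by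
  simp [io, Fintype.linearCombination_apply, rt, sub_smul, Finset.sum_sub_distrib]

theorem io_a (k : Fin 7) : io a (rt k.castSucc k.succ) = a k := by
  rw [io_rt]
  fin_cases k <;> simp [tl, Fin.sum_univ_seven]

theorem gram (h : RS Q H P R) (ha : Str Q R a) (i j : Fin 7) : polar Q (a i) (a j) =
    if i = j then 2 else if i.1 + 1 = j.1 ∨ j.1 + 1 = i.1 then -1 else 0 := by
  split_ifs with h1 h2
  · rw [h1, h.pol_self (ha.mem j)]
  · rcases h2 with e | e
    exacts [ha.adj i j e, by rw [polar_comm]; exact ha.adj j i e]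
  · rcases lt_or_gt_of_ne (Fin.val_ne_of_ne h1) with e | e
    exacts [ha.far i j (by omega), by rw [polar_comm]; exact ha.far j i (by omega)]

theorem pol_tl (h : RS Q H P R) (ha : Str Q R a) (m : Fin 8) (j : Fin 7) :
    polar Q (tl a m) (a j) = (rt j.castSucc j.succ m - rt j.castSucc j.succ 7 : ℤ) := by
  fin_cases m <;> fin_cases j <;>
    simp [tl, Fin.sum_univ_seven, polar_add_left, gram h ha, rt, Fin.ext_iff] <;> norm_num

theorem pol_io (x : Z8) (v : V) : polar Q (io a x) v = ∑ m, (x m : F) * polar Q (tl a m) v := by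
  rw [← polarBilin_apply_apply, io, Fintype.linearCombination_apply, map_sum, LinearMap.sum_apply]
  simp

theorem pol_a (h : RS Q H P R) (ha : Str Q R a) {x : Z8} (hx : ∑ m, x m = 0) (j : Fin 7) :
    polar Q (io a x) (a j) = (x j.castSucc - x j.succ : ℤ) := by
  have hx' : ∑ m, (x m : F) = 0 := by exact_mod_cast congrArg (Int.cast : ℤ → F) hx
  rw [pol_io]
  simp only [pol_tl h ha, Int.cast_sub, mul_sub, Finset.sum_sub_distrib, ← Finset.sum_mul, hx']
  simp [rt, mul_sub, Finset.sum_sub_distrib]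

theorem pol (h : RS Q H P R) (ha : Str Q R a) {x y : Z8} (hx : ∑ m, x m = 0) (hy : ∑ m, y m = 0) :
    polar Q (io a x) (io a y) = (x ⬝ᵥ y : ℤ) := by
  have hy' : ∑ m, (y m : F) = 0 := by exact_mod_cast congrArg (Int.cast : ℤ → F) hy
  have : ∀ m, polar Q (tl a m) (io a x) = x m - x 7 := fun m => by
    rw [polar_comm]
    fin_cases m <;> simp [tl, Fin.sum_univ_seven, polar_add_right, pol_a h ha hx]
  rw [polar_comm, pol_io]
  simp only [this, mul_sub, Finset.sum_sub_distrib, ← Finset.sum_mul, hy']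
  simp [dotProduct, mul_comm]

theorem ref_rt (h : RS Q H P R) (ha : Str Q R a) {x : Z8} (hx : ∑ m, x m = 0) {i j : Fin 8}
    (hr : io a (rt i j) ∈ R) :
    (refl Q (io a (rt i j))).1 (io a x) = io a (x - (x ⬝ᵥ rt i j) • rt i j) := by
  rw [h.refl_ap hr, pol h ha hx (rt_sum i j), map_sub, map_smul, Int.cast_smul_eq_zsmul]

theorem rt_mem (h : RS Q H P R) (ha : Str Q R a) {i j : Fin 8} (hij : i ≠ j) : io a (rt i j) ∈ R := by
  have key : ∀ n, ∀ i j : Fin 8, j.1 = i.1 + n + 1 → io a (rt i j) ∈ R := by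
    intro n
    induction n with
    | zero =>
      intro i j e
      have := ha.mem ⟨i.1, by omega⟩
      rw [← io_a (a := a)] at this
      convert this <;> simp [Fin.ext_iff, e]
    | succ n ih =>
      intro i j e
      let k : Fin 7 := ⟨i.1 + n + 1, by omega⟩
      have h1 := ih i k.castSucc rfl
      have h2 := ha.mem k
      rw [← io_a (a := a)] at h2
      have h3 := h.ref _ h2 _ h1
      rw [ref_rt h ha (rt_sum _ _) h2, rt_step _ _ _ (by simp [Fin.ext_iff, k]; omega)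
        k.castSucc_lt_succ.ne (by simp [Fin.ext_iff, k]; omega)] at h3
      convert h3
      simp [Fin.ext_iff, e, k]; omega
  rcases lt_or_gt_of_ne (Fin.val_ne_of_ne hij) with e | e
  · exact key (j.1 - i.1 - 1) i j (by omega)
  · rw [← rt_neg, map_neg]
    exact h.neg _ (key (i.1 - j.1 - 1) j i (by omega))

theorem mem_rt (h : SL Q H P R) (ha : Str Q R a)
    (hg : closure (Set.range fun i => nr Q (a i)) = GT Q R) {u : V} (hu : u ∈ R) :
    ∃ i j, i ≠ j ∧ u = io a (rt i j) := by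
  have k1 : GT Q R ≤ bStab Q {u | ∃ i j, i ≠ j ∧ u = io a (rt i j)} := by
    rw [← hg, closure_le]
    rintro _ ⟨k, rfl⟩ _ ⟨i, j, hij, rfl⟩
    obtain ⟨i', j', h1, h2⟩ := rt_ref i j hij k
    refine ⟨j', i', h1.symm, ?_⟩
    have h3 := ha.mem k
    rw [← io_a (a := a)] at h3
    show -(refl Q (a k)).1 _ = _
    rw [← io_a (a := a) k, ref_rt h.toRS ha (rt_sum _ _) h3, h2, ← map_neg, rt_neg]
  obtain ⟨-, ⟨d, -, hd⟩, -⟩ := h.tt
  have m : ∀ {v : V}, v ∈ R → ∃ e : GT Q R, e.1 = nr Q v ∧ IsConj d e := fun {v} hv =>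
    ⟨⟨nr Q v, subset_closure ⟨v, hv, rfl⟩⟩, rfl, by
      show _ ∈ conjugatesOf d
      rw [← hd]; exact ⟨v, hv, rfl⟩⟩
  obtain ⟨e, e1, e2⟩ := m hu
  obtain ⟨e', e1', e2'⟩ := m (ha.mem 0)
  obtain ⟨g, hg'⟩ := isConj_iff.1 (e2'.symm.trans e2)
  have h4 : nr Q (g.1.1 (a 0)) = nr Q u := by
    rw [← e1, ← hg', coe_mul, coe_mul, coe_inv, e1', nr, nr, ← conj_refl, ← mul_assoc, ← mul_assoc,
      ← mul_assoc, ng_comm]
  obtain ⟨i, j, hij, h5⟩ := k1 g.2 (a 0) ⟨_, _, (0 : Fin 7).castSucc_lt_succ.ne, (io_a 0).symm⟩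
  rw [h5] at h4
  have h6 := (h.nr_eq (rt_mem h.toRS ha hij) hu).1 h4
  by_cases c : u = io a (rt i j)
  · exact ⟨i, j, hij, c⟩
  · refine ⟨j, i, hij.symm, ?_⟩
    rw [← rt_neg, map_neg]
    exact not_not.1 fun c' => h6 ⟨c, c'⟩

variable (F) in
def vv (a : Fin 7 → V) (x : Z8) : V := (2⁻¹ : F) • io a x

theorem vv_two (h2 : (2 : F) ≠ 0) (x : Z8) : vv F a ((2 : ℤ) • x) = io a x := by
  rw [vv, map_smul, ← Int.cast_smul_eq_zsmul F, smul_smul]
  simp [h2]

theorem vv_sub (x y : Z8) : vv F a (x - y) = vv F a x - vv F a y := by rw [vv, map_sub, smul_sub]; rfl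

theorem vv_pol (h : RS Q H P R) (ha : Str Q R a) {x y : Z8} (hx : ∑ m, x m = 0) (hy : ∑ m, y m = 0)
    (e : vv F a x = vv F a y) (i j : Fin 8) : (((x - y) ⬝ᵥ rt i j : ℤ) : F) = 0 := by
  have h1 : io a (x - y) = 0 := by
    have := sub_eq_zero.2 e
    rw [← vv_sub, vv, smul_eq_zero] at this
    exact this.resolve_left (inv_ne_zero h.two)
  rw [← pol h ha (by simp [Finset.sum_sub_distrib, hx, hy]) (rt_sum i j), h1, polar_zero_left]

end EndD

open EndD

variable {F V : Type*} [Field F] [Finite F] [AddCommGroup V] [Module F V] [FiniteDimensional F V]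
  {Q : QuadraticForm F V} {H P : Subgroup (O Q)} {R : Set V}

theorem SL.str7 (h : SL Q H P R) {a : Fin 7 → V} (ha : Str Q R a)
    (hg : closure (Set.range fun i => nr Q (a i)) = GT Q R) : False := by
  have h2 := h.two
  let Φ : Set V := {w | ∃ x, Ph x ∧ w = vv F a x}
  have hR : ∀ u ∈ R, u ∈ Φ := fun u hu => by
    obtain ⟨i, j, hij, rfl⟩ := mem_rt h ha hg hu
    exact ⟨_, Or.inl ⟨i, j, hij, rfl⟩, (vv_two h2 _).symm⟩
  have inv : ∀ g : O Q, (∀ u ∈ R, g.1 u ∈ R) → ∀ w ∈ Φ, g.1 w ∈ Φ := by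
    rintro g hgR _ ⟨x, hx, rfl⟩
    refine hx.ind (p := fun x => g.1 (vv F a x) ∈ Φ) (fun i j hij => ?_) fun b hb => ?_
    · rw [vv_two h2]
      exact hR _ (hgR _ (rt_mem h.toRS ha hij))
    · obtain ⟨p1, p2, p3⟩ := pair b hb
      choose p n hpn e using fun k => mem_rt h ha hg (hgR _ (rt_mem h.toRS ha (p1 k)))
      refine ⟨_, four hpn fun k l hkl => ?_, ?_⟩
      · have e1 := O_polar g (io a (rt (ps b true k) (ps b false k))) (io a (rt (ps b true l) (ps b false l)))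
        rw [e, e, pol h.toRS ha (rt_sum _ _) (rt_sum _ _), pol h.toRS ha (rt_sum _ _) (rt_sum _ _),
          p2 k l hkl] at e1
        rcases rt_dot _ _ _ _ (hpn k) (hpn l) with c | c | c | c | c
        · exact c
        all_goals rw [c] at e1; simp [h2] at e1
      · rw [p3, vv, vv, map_smul, map_sum, map_sum, map_sum]
        simp only [e]
  have qf : Q (vv F a f0) = 1 := by
    have := pol h.toRS ha (x := f0) (y := f0) (by decide) (by decide)
    rw [polar_self', show f0 ⬝ᵥ f0 = 8 by decide] at this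
    rw [vv, Q_smul]
    push_cast at this
    field_simp
    apply mul_left_cancel₀ h2
    linear_combination this
  have rf : ∀ x, Ph x → (refl Q (vv F a f0)).1 (vv F a x) = vv F a (x - (x ⬝ᵥ f0 / 4) • f0) := fun x hx => by
    have e1 : polar Q (vv F a x) (vv F a f0) = (x ⬝ᵥ f0 / 4 : ℤ) := by
      rw [vv, vv, polar_smul_left, polar_smul_right, pol h.toRS ha hx.sum (by decide), hx.ref.1]
      generalize x ⬝ᵥ f0 / 4 = k
      rw [Int.mul_ediv_cancel_left _ (by norm_num)]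
      simp only [smul_eq_mul]
      push_cast
      field_simp
      ring
    rw [refl_apply, qf, inv_one, one_mul, e1, vv_sub]
    congr 1
    rw [vv, vv, map_smul, ← Int.cast_smul_eq_zsmul F, smul_comm]
  have u1 := rt_mem h.toRS ha (i := 0) (j := 1) (by decide)
  obtain ⟨w, hw, qw⟩ : ∃ w, w ∉ Φ ∧ Q w = 1 := by
    by_cases h3 : (3 : F) = 0
    · refine ⟨io a w0, ?_, ?_⟩
      · rintro ⟨x, hx, e⟩
        obtain ⟨m, m', e1⟩ := hx.three
        rw [← vv_two h2] at e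
        have e2 := vv_pol h.toRS ha (by decide) hx.sum e m m'
        rw [← Int.emod_add_mul_ediv (_ ⬝ᵥ _) 3, e1] at e2
        push_cast at e2
        rw [h3] at e2
        simp at e2
      · have := pol h.toRS ha (x := w0) (y := w0) (by decide) (by decide)
        rw [polar_self', show w0 ⬝ᵥ w0 = 14 by decide] at this
        push_cast at this
        apply mul_left_cancel₀ h2
        linear_combination this + 4 * h3
    · obtain ⟨z, -, z0, hz, hl⟩ := exists_sing_orth h.nd ⊤ [io a (rt 0 1)] (by simp [h.dim])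
      have uz := hl _ (List.mem_singleton_self _)
      refine ⟨io a (rt 0 1) + z, ?_, by rw [Q_add, h.one _ u1, hz, uz, add_zero, add_zero]⟩
      rintro ⟨x, hx, e⟩
      have e1 : polar Q (vv F a x) (io a (rt 0 1)) = 2 := by
        rw [← e, polar_add_left, h.pol_self u1, polar_comm, uz, add_zero]
      rw [vv, polar_smul_left, pol h.toRS ha hx.sum (rt_sum _ _), smul_eq_mul] at e1
      field_simp at e1
      rcases hx.five with c | c | c | c | c
      · rw [c, vv_two h2] at e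
        exact z0 (by simpa using e)
      all_goals rw [c] at e1; push_cast at e1
      · exact h2 (by linear_combination -e1)
      · exact mul_ne_zero h2 h2 (by linear_combination -e1)
      · exact mul_ne_zero h2 h3 (by linear_combination -e1)
      · exact mul_ne_zero h2 (mul_ne_zero h2 h2) (by linear_combination -e1)
  have u4 := rt_mem h.toRS ha (i := 0) (j := 4) (by decide)
  have hH := h.stab (Λ := Φ) (fun g hg => inv g (h.inv g hg)) (hR _ u1) hw (by rw [h.one _ u1]; exact one_ne_zero)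
    (by rw [qw, h.one _ u1]) (g := refl Q (vv F a f0) * refl Q (io a (rt 0 4)))
    (refl_mul_refl_mem' h.nd (by rw [qf]; exact one_ne_zero) (by rw [qf, h.one _ u4])) fun v hv => by
      obtain ⟨x, hx, e⟩ := inv _ (h.ref _ u4) v hv
      rw [O_mul_apply, e, rf x hx]
      exact ⟨_, hx.ref.2, rfl⟩
  have h5 := h.inv _ hH _ (h.ref _ u4 _ u4)
  rw [O_mul_apply, ← O_mul_apply (refl Q (io a (rt 0 4))), refl_mul_self, O_one_apply, ← vv_two h2,
    rf _ (Or.inl ⟨0, 4, by decide, rfl⟩), show _ - _ • f0 = s0 by decide] at h5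
  obtain ⟨i, j, hij, e⟩ := mem_rt h ha hg h5
  obtain ⟨m, m', e1⟩ := s0_not i j
  rw [← vv_two h2] at e
  have e2 := vv_pol h.toRS ha (by decide) (Ph.sum (Or.inl ⟨i, j, hij, rfl⟩)) e m m'
  rw [e1] at e2
  exact h2 (by exact_mod_cast e2)

end CfsgLib.O7
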