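import Cfsg.Agent.Lib.O7.Gr

/-!
FX: four-dimensional orthogonal modules of `PSL₂(E)`.  See `plans/O7B.md`.
-/

set_option autoImplicit false

namespace CfsgLib.O7

open CfsgLib.OrthE CfsgLib.OMax Module QuadraticMap Subgroup Cfsg
open scoped MatrixGroups

section small

variable {K : Type*} [Field K] {E : Type} [Field E] [Fintype E]

theorem fxa_triv (h5 : 5 ≤ Fintype.card E) {M : Type*} [Monoid M] (f : SL(2, E) →* M)
    (hc : ∀ a b, f a * f b = f b * f a) (g : SL(2, E)) : f g = 1 := by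
  classical
  obtain ⟨a, ha, ha2⟩ : ∃ a : E, a ≠ 0 ∧ a ^ 2 ≠ 1 := by
    by_contra! hh
    have h1 : (Finset.univ : Finset E) ⊆ {0, 1, -1} := fun x _ => by
      by_cases h0 : x = 0
      · simp [h0]
      · rcases sq_eq_one_iff.1 (hh x h0) with e | e <;> simp [e]
    have h2 := (Finset.card_le_card h1).trans Finset.card_le_three
    rw [Finset.card_univ] at h2
    omega
  have : commutator SL(2, E) ≤ f.ker := by
    rw [commutator_def, commutator_le]
    intro a _ b _
    rw [MonoidHom.mem_ker, commutatorElement_def, map_mul, map_mul, map_mul, hc a b, mul_assoc (f b),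
      ← map_mul, mul_inv_cancel, map_one, mul_one, ← map_mul, mul_inv_cancel, map_one]
  exact this (Matrix.SL2.commutator_eq_top ha ha2 ▸ mem_top g)

theorem fxa_scal (h2 : (2 : K) ≠ 0) {M : Matrix (Fin 2) (Fin 2) K} (h : M * M = 1) (hd : M.det = 1)
    (N : Matrix (Fin 2) (Fin 2) K) : M * N = N * M := by
  have e := fun i j => congrFun (congrFun h i) j
  have e0 := e 0 0
  have e1 := e 0 1
  have e2 := e 1 0
  have e3 := e 1 1
  simp only [Matrix.mul_apply, Fin.sum_univ_two, Matrix.one_apply_eq, ne_eq, zero_ne_one,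
    not_false_eq_true, Matrix.one_apply_ne, one_ne_zero] at e0 e1 e2 e3
  rw [Matrix.det_fin_two] at hd
  have t0 : M 0 0 + M 1 1 ≠ 0 := fun t => h2 (by linear_combination M 0 0 * t - e0 - hd)
  have b0 : M 0 1 = 0 := mul_right_cancel₀ t0 (by linear_combination e1)
  have c0 : M 1 0 = 0 := mul_right_cancel₀ t0 (by linear_combination e2)
  have d0 : M 1 1 = M 0 0 := mul_right_cancel₀ t0 (by linear_combination e3 - e0)
  ext i j
  fin_cases i <;> fin_cases j <;> simp [Matrix.mul_apply, Fin.sum_univ_two, b0, c0, d0, mul_comm]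

open Matrix.SpecialLinearGroup in
theorem fxa_two (h2 : (2 : K) ≠ 0) (h5 : 5 ≤ Fintype.card E)
    (f : SL(2, E) →* Matrix (Fin 2) (Fin 2) K) (hm : f (-1) = 1) (g : SL(2, E)) : f g = 1 := by
  obtain ⟨w, ew⟩ : ∃ w : SL(2, E), w.1 = !![0, 1; -1, 0] :=
    ⟨⟨!![0, 1; -1, 0], by simp [Matrix.det_fin_two]⟩, rfl⟩
  have w2 : w * w = -1 := by
    ext i j
    rw [Matrix.SpecialLinearGroup.coe_mul, ew]
    fin_cases i <;> fin_cases j <;> simp [Matrix.mul_apply, Fin.sum_univ_two]
  have hw := fxa_scal h2 (M := f w) (by rw [← map_mul, w2, hm])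
    (fxa_triv h5 (Matrix.detMonoidHom.comp f) (fun _ _ => mul_comm _ _) w)
  have wu : ∀ t : E, w * transvection zero_ne_one (-t) * w⁻¹ = transvection one_ne_zero t := fun t => by
    rw [mul_inv_eq_iff_eq_mul]
    ext i j
    rw [Matrix.SpecialLinearGroup.coe_mul, Matrix.SpecialLinearGroup.coe_mul, ew]
    fin_cases i <;> fin_cases j <;>
      simp [transvection_coe, Matrix.mul_apply, Fin.sum_univ_two, Matrix.single, Matrix.one_apply]
  have fu : ∀ t : E, f (transvection one_ne_zero t) = f (transvection zero_ne_one (-t)) := fun t => by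
    rw [← wu, map_mul, map_mul, hw, mul_assoc, ← map_mul, mul_inv_cancel, map_one, mul_one]
  have tr : ∀ (i j : Fin 2) (h : i ≠ j) (c : E), ∃ s : E,
      f (transvection h c) = f (transvection zero_ne_one s) := fun i j h c => by
    fin_cases i
    · obtain rfl : j = 1 := by fin_cases j <;> tauto
      exact ⟨c, rfl⟩
    · obtain rfl : j = 0 := by fin_cases j <;> tauto
      exact ⟨-c, fu c⟩
  have c1 : ∀ (s : E) a, Commute (f a) (f (transvection zero_ne_one s)) := fun s =>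
    Matrix.SL2.transvection_induction _ (fun i j h c => by
      obtain ⟨t, e⟩ := tr i j h c
      rw [e, Commute, SemiconjBy, ← map_mul, ← map_mul, ← transvection_add, ← transvection_add, add_comm])
      fun A B hA hB => by rw [map_mul]; exact hA.mul_left hB
  refine fxa_triv h5 f (fun a => Matrix.SL2.transvection_induction
    (fun b => Commute (f a) (f b)) (fun i j h c => ?_) fun A B hA hB => ?_) g
  · obtain ⟨t, e⟩ := tr i j h c
    rw [e]; exact c1 t a
  · rw [map_mul]; exact hA.mul_right hB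

variable {V : Type*} [AddCommGroup V] [Module K V] [FiniteDimensional K V] {Q : QuadraticForm K V}

/-- restriction to an invariant subspace -/
noncomputable def fxaRes {G : Type*} [Group G] (σ : G →* O Q) (W : Submodule K V)
    (hi : ∀ g, ∀ w ∈ W, (σ g).1 w ∈ W) : G →* O (Q.comp W.subtype) :=
  MonoidHom.mk' (fun g => eigRes W (σ g) (hi g)) fun a b => O_ext fun x => Subtype.ext (by
    rw [O_mul_apply, eigRes_apply, eigRes_apply, eigRes_apply, map_mul, O_mul_apply])

theorem fxaRes_apply {G : Type*} [Group G] (σ : G →* O Q) (W : Submodule K V)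
    (hi : ∀ g, ∀ w ∈ W, (σ g).1 w ∈ W) (g : G) (x : W) :
    ((fxaRes σ W hi g).1 x : V) = (σ g).1 x := eigRes_apply W (σ g) (hi g) x

theorem fxa_small (h2 : (2 : K) ≠ 0) (h5 : 5 ≤ Fintype.card E) (σ : SL(2, E) →* O Q)
    (hm : σ (-1) = 1) (hd : finrank K V = 1 ∨ finrank K V = 2) (g : SL(2, E)) : σ g = 1 := by
  have key : ∀ n, finrank K V = n →
      (∀ f : SL(2, E) →* Matrix (Fin n) (Fin n) K, f (-1) = 1 → f g = 1) → σ g = 1 := fun n hn hf => by
    let b := Module.finBasisOfFinrankEq K V hn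
    let e : Module.End K V →* Matrix (Fin n) (Fin n) K := (LinearMap.toMatrixAlgEquiv b).toMonoidHom
    have := hf (e.comp ((enH Q).comp σ)) (by
      rw [MonoidHom.comp_apply, MonoidHom.comp_apply, hm, map_one, map_one])
    exact en_inj ((LinearMap.toMatrixAlgEquiv b).injective (this.trans (map_one _).symm))
  rcases hd with hd | hd
  · refine key 1 hd fun f _ => fxa_triv h5 f (fun a b => ?_) g
    ext i j
    simp [Matrix.mul_apply, Subsingleton.elim i 0, Subsingleton.elim j 0, mul_comm]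
  · exact key 2 hd fun f hf => fxa_two h2 h5 f hf g

theorem fxa_fix (h2 : (2 : K) ≠ 0) (h5 : 5 ≤ Fintype.card E) (σ : SL(2, E) →* O Q)
    (hm : σ (-1) = 1) {S : Submodule K V} (hS : ∀ g, ∀ v ∈ S, (σ g).1 v ∈ S)
    (hd : finrank K S = 1 ∨ finrank K S = 2) : ∃ y, y ≠ 0 ∧ ∀ g, (σ g).1 y = y := by
  obtain ⟨y, hy, y0⟩ := Submodule.exists_mem_ne_zero_of_ne_bot (p := S) (by
    rintro rfl
    simp at hd)
  refine ⟨y, y0, fun g => ?_⟩
  have := fxa_small h2 h5 (fxaRes σ S hS) (O_ext fun x => Subtype.ext (by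
    rw [fxaRes_apply, hm]; rfl)) hd g
  rw [← fxaRes_apply σ S hS g ⟨y, hy⟩, this]
  rfl

theorem fxa_red (h2 : (2 : K) ≠ 0) (h5 : 5 ≤ Fintype.card E) (hQ : Nondeg Q) (h4 : finrank K V = 4)
    (σ : SL(2, E) →* O Q) (hm : σ (-1) = 1) (hi : ¬ Irr σ) : ∃ y, y ≠ 0 ∧ ∀ g, (σ g).1 y = y := by
  unfold Irr at hi
  push Not at hi
  obtain ⟨S, hS, h0, h1⟩ := hi
  have d0 : finrank K S ≠ 0 := fun e => h0 (Submodule.finrank_eq_zero.1 e)
  have d1 := Submodule.finrank_lt h1
  have d2 := finrank_perp hQ S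
  by_cases h3 : finrank K S = 3
  · refine fxa_fix h2 h5 σ hm (S := perp Q S) (fun g v hv => mem_perp'.2 fun w hw => ?_) (.inl (by omega))
    rw [O_polar_left, ← map_inv]
    exact mem_perp'.1 hv _ (hS _ w hw)
  · exact fxa_fix h2 h5 σ hm hS (by omega)

end small

section eig

variable {K : Type*} [Field K]

theorem fxa_root {A N : Matrix (Fin 2) (Fin 2) K} {l : K} (hA : A.det = 1) (hN : N ≠ 0)
    (h : A * N = l • N) : l ^ 2 + 1 = A.trace * l := by
  have h1 : (A - l • 1) * N = 0 := by rw [sub_mul, h, smul_mul_assoc, one_mul, sub_self]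
  have h2 : (A - l • 1).det = 0 := by
    by_contra h0
    exact hN ((Matrix.isUnit_iff_isUnit_det _).2 (Ne.isUnit h0) |>.mul_right_eq_zero.1 h1)
  rw [Matrix.det_fin_two] at h2 hA
  simp only [Matrix.sub_apply, Matrix.smul_apply, Matrix.one_apply_eq, smul_eq_mul, ne_eq,
    zero_ne_one, one_ne_zero, not_false_eq_true, Matrix.one_apply_ne] at h2
  rw [Matrix.trace_fin_two]
  linear_combination h2 - hA

theorem fxa_det {A : Matrix (Fin 2) (Fin 2) K} {l : K} (hA : A.det = 1)
    (h : l ^ 2 + 1 = A.trace * l) : (A - l • 1).det = 0 := by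
  rw [Matrix.det_fin_two] at hA ⊢
  simp only [Matrix.sub_apply, Matrix.smul_apply, Matrix.one_apply_eq, smul_eq_mul, ne_eq,
    zero_ne_one, one_ne_zero, not_false_eq_true, Matrix.one_apply_ne]
  rw [Matrix.trace_fin_two] at h
  linear_combination h + hA

theorem fxa_eig [IsAlgClosed K] {A B : Matrix (Fin 2) (Fin 2) K} (hA : A.det = 1) (hB : B.det = 1)
    (μ : K) : (∃ M, M ≠ 0 ∧ A * M * B = μ • M) ↔
      ∃ l m : K, l ^ 2 + 1 = A.trace * l ∧ m ^ 2 + 1 = B.trace * m ∧ μ = l * m := by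
  constructor
  · rintro ⟨M, h0, h⟩
    have key : ∀ (N : Matrix (Fin 2) (Fin 2) K) (m m' : K), N ≠ 0 → A * N * B = μ • N →
        N * B = m • N → m * m' = 1 → m + m' = B.trace →
        ∃ l m : K, l ^ 2 + 1 = A.trace * l ∧ m ^ 2 + 1 = B.trace * m ∧ μ = l * m :=
      fun N m m' n0 e1 e2 e3 e4 => by
        refine ⟨μ * m', m, fxa_root hA n0 ?_, by linear_combination m * e4 - e3,
          by linear_combination -μ * e3⟩
        rw [mul_assoc, e2, mul_smul_comm] at e1
        rw [mul_comm μ, mul_smul, ← e1, smul_smul, mul_comm m', e3, one_smul]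
    obtain ⟨m, hm⟩ := IsAlgClosed.exists_root
      (Polynomial.C 1 * Polynomial.X ^ 2 + Polynomial.C (-B.trace) * Polynomial.X + Polynomial.C 1)
      (by rw [Polynomial.degree_quadratic one_ne_zero]; decide)
    simp only [Polynomial.IsRoot.def, Polynomial.eval_add, Polynomial.eval_mul, Polynomial.eval_C,
      Polynomial.eval_pow, Polynomial.eval_X] at hm
    have e3 : m * (B.trace - m) = 1 := by linear_combination -hm
    have ch : (B - (B.trace - m) • 1) * B = m • (B - (B.trace - m) • 1) := by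
      rw [Matrix.det_fin_two] at hB
      rw [Matrix.trace_fin_two] at e3 ⊢
      ext i j
      fin_cases i <;> fin_cases j <;> simp [Matrix.mul_apply, Fin.sum_univ_two]
      · linear_combination e3 - hB
      · ring
      · ring
      · linear_combination e3 - hB
    by_cases n0 : M * (B - (B.trace - m) • 1) = 0
    · refine key M (B.trace - m) m h0 h ?_ (by rw [mul_comm, e3]) (sub_add_cancel _ _)
      rwa [mul_sub, mul_smul_comm, mul_one, sub_eq_zero] at n0
    · refine key _ m (B.trace - m) n0 ?_ (by rw [mul_assoc, ch, mul_smul_comm]) e3 (add_sub_cancel _ _)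
      have c : (B - (B.trace - m) • 1) * B = B * (B - (B.trace - m) • 1) := by
        rw [sub_mul, mul_sub, smul_mul_assoc, mul_smul_comm, one_mul, mul_one]
      rw [mul_assoc, mul_assoc, c, ← mul_assoc M, ← mul_assoc, ← mul_assoc, h, smul_mul_assoc]
  · rintro ⟨l, m, hl, hm, rfl⟩
    obtain ⟨x, x0, hx⟩ := Matrix.exists_mulVec_eq_zero_iff.2 (fxa_det hA hl)
    obtain ⟨y, y0, hy⟩ := Matrix.exists_vecMul_eq_zero_iff.2 (fxa_det hB hm)
    rw [Matrix.sub_mulVec, Matrix.smul_mulVec, Matrix.one_mulVec, sub_eq_zero] at hx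
    rw [Matrix.vecMul_sub, Matrix.vecMul_smul, Matrix.vecMul_one, sub_eq_zero] at hy
    refine ⟨Matrix.vecMulVec x y, Matrix.vecMulVec_ne_zero x0 y0, ?_⟩
    rw [Matrix.mul_vecMulVec, Matrix.vecMulVec_mul, hx, hy, Matrix.smul_vecMulVec,
      Matrix.vecMulVec_smul, smul_smul]

end eig

variable {K : Type*} [Field K] [IsAlgClosed K] {E : Type} [Field E] [Fintype E]
  {V : Type*} [AddCommGroup V] [Module K V] [FiniteDimensional K V] {Q : QuadraticForm K V}

/-- the function of a matrix -/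
def fxaG (α β : E →+* K) : Matrix (Fin 2) (Fin 2) K →ₗ[K] ((Fin 2 → E) → K) where
  toFun M y := (α ∘ y) ⬝ᵥ M.mulVec (β ∘ y)
  map_add' M N := funext fun y => by
    rw [Matrix.add_mulVec, dotProduct_add, Pi.add_apply]
  map_smul' c M := funext fun y => by
    rw [Matrix.smul_mulVec, dotProduct_smul, Pi.smul_apply, RingHom.id_apply]

omit [IsAlgClosed K] [Fintype E] in
theorem fxaG_act (α β : E →+* K) (M : Matrix (Fin 2) (Fin 2) K) (h : Matrix (Fin 2) (Fin 2) E)
    (y : Fin 2 → E) : fxaG α β ((h.map α).transpose * M * h.map β) y = fxaG α β M (h.mulVec y) := by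
  simp [fxaG, Matrix.mulVec, dotProduct, Matrix.mul_apply, Fin.sum_univ_two]
  ring

omit [Fintype E] in
theorem fxa_irr (hQ : Nondeg Q) (h4 : finrank K V = 4) {σ : SL(2, E) →* O Q} {α β : E →+* K} {c : K}
    {v : (Fin 2 → E) → V} (hw : HW σ v fun d => c * (α d * β d)) (g : SL(2, E)) (μ : K) :
    (∃ y, y ≠ 0 ∧ (σ g).1 y = μ • y) ↔
      ∃ l m : K, l ^ 2 + 1 = α g.1.trace * l ∧ m ^ 2 + 1 = β g.1.trace * m ∧ μ = l * m := by
  let Φ : V →ₗ[K] ((Fin 2 → E) → K) := LinearMap.pi fun y => (polarBilin Q).flip (v y)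
  have eΦ : ∀ w y, Φ w y = polar Q w (v y) := fun _ _ => rfl
  have iΦ : Function.Injective Φ := (injective_iff_map_eq_zero Φ).2 fun w h0 => hQ w fun u => by
    have : u ∈ perp Q (Submodule.span K {w}) := by
      refine (hw.span.ge.trans (Submodule.span_le.2 ?_)) (Submodule.mem_top : u ∈ ⊤)
      rintro _ ⟨y, rfl⟩
      exact mem_perp_one.2 (congrFun h0 y)
    exact mem_perp_one.1 this
  have le : LinearMap.range Φ ≤ LinearMap.range (fxaG α β) := by
    rw [LinearMap.range_eq_map, ← hw.span, Submodule.map_span, Submodule.span_le]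
    rintro _ ⟨_, ⟨x, rfl⟩, rfl⟩
    refine ⟨c • Matrix.vecMulVec ![-α (x 1), α (x 0)] ![-β (x 1), β (x 0)], funext fun y => ?_⟩
    rw [eΦ, hw.gram]
    simp [fxaG, Matrix.mulVec, dotProduct, Matrix.vecMulVec_apply, Fin.sum_univ_two]
    ring
  have d1 : finrank K (LinearMap.range Φ) = 4 := (LinearMap.finrank_range_of_inj iΦ).trans h4
  have d2 := LinearMap.finrank_range_add_finrank_ker (fxaG α β)
  rw [Module.finrank_matrix, Fintype.card_fin, Module.finrank_self] at d2
  have d3 := Submodule.finrank_mono le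
  have eq := Submodule.eq_of_le_of_finrank_le le (by omega)
  have iΓ : Function.Injective (fxaG α β) :=
    LinearMap.ker_eq_bot.1 (Submodule.finrank_eq_zero.1 (by omega))
  have act : ∀ w M, fxaG α β M = Φ w →
      fxaG α β (((g⁻¹).1.map α).transpose * M * (g⁻¹).1.map β) = Φ ((σ g).1 w) := fun w M e =>
    funext fun y => by rw [fxaG_act, e, eΦ, eΦ, O_polar_left, ← map_inv, hw.equi]
  have tr : (g⁻¹).1.trace = g.1.trace := by
    rw [Matrix.SpecialLinearGroup.coe_inv, Matrix.adjugate_fin_two, Matrix.trace_fin_two,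
      Matrix.trace_fin_two]
    simp [add_comm]
  have dt : ∀ γ : E →+* K, ((g⁻¹).1.map γ).det = 1 ∧ ((g⁻¹).1.map γ).trace = γ g.1.trace := fun γ =>
    ⟨by rw [← RingHom.mapMatrix_apply, ← RingHom.map_det, (g⁻¹).2, map_one],
      by rw [← tr]; simp [Matrix.trace_fin_two]⟩
  rw [← (dt α).2, ← (dt β).2, ← Matrix.trace_transpose ((g⁻¹).1.map α),
    ← fxa_eig ((Matrix.det_transpose _).trans (dt α).1) (dt β).1]
  constructor
  · rintro ⟨y, y0, hy⟩
    obtain ⟨M, hM⟩ := le ⟨y, rfl⟩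
    refine ⟨M, fun e => y0 (iΦ ?_), iΓ ?_⟩
    · rw [← hM, e, map_zero, map_zero]
    · rw [act y M hM, hy, map_smul, map_smul, hM]
  · rintro ⟨M, M0, hM⟩
    obtain ⟨y, hy⟩ := eq.ge ⟨M, rfl⟩
    refine ⟨y, fun e => M0 (iΓ ?_), iΦ ?_⟩
    · rw [← hy, e, map_zero, map_zero]
    · rw [← act y M hy.symm, hM, map_smul, map_smul, hy]

/-- `fx4` with `Tens` unfolded -/
theorem fxa (p : ℕ) [Fact p.Prime] [CharP K p] [CharP E p] (h2 : (2 : K) ≠ 0)
    (h5 : 5 ≤ Fintype.card E) (σ : SL(2, E) →* O Q) {W : Submodule K V} (hW : ND Q W)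
    (h4 : finrank K W = 4) (hi : ∀ g, ∀ w ∈ W, (σ g).1 w ∈ W) (hm : ∀ w ∈ W, (σ (-1)).1 w = w) :
    (∃ y ∈ W, y ≠ 0 ∧ ∀ g, (σ g).1 y = y) ∨
      ∃ α β : E →+* K, α ≠ β ∧ ∀ g μ, (∃ y ∈ W, y ≠ 0 ∧ (σ g).1 y = μ • y) ↔
        ∃ l m : K, l ^ 2 + 1 = α g.1.trace * l ∧ m ^ 2 + 1 = β g.1.trace * m ∧ μ = l * m := by
  have hm' : fxaRes σ W hi (-1) = 1 := O_ext fun x => Subtype.ext (by
    rw [fxaRes_apply, hm _ x.2]; rfl)
  by_cases hI : Irr (fxaRes σ W hi)
  · obtain ⟨α, β, c, v, hne, -, hw⟩ := gr4 p h2 (eig_nondeg hW) _ hI h4 hm'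
    refine .inr ⟨α, β, hne, fun g μ => Iff.trans ⟨?_, ?_⟩ (fxa_irr (eig_nondeg hW) h4 hw g μ)⟩
    · rintro ⟨y, hy, y0, e⟩
      exact ⟨⟨y, hy⟩, fun k => y0 (congrArg Subtype.val k), Subtype.ext e⟩
    · rintro ⟨y, y0, e⟩
      exact ⟨y, y.2, fun k => y0 (Subtype.ext k), congrArg Subtype.val e⟩
  · obtain ⟨y, y0, e⟩ := fxa_red h2 h5 (eig_nondeg hW) h4 _ hm' hI
    exact .inl ⟨y, y.2, fun k => y0 (Subtype.ext k), fun g => congrArg Subtype.val (e g)⟩

end CfsgLib.O7
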