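import Cfsg.Agent.Lib.O7.A4L
import Cfsg.Agent.Lib.SL2.Basic
import Cfsg.Agent.Lib.RootSub.QuadAlg

/-!
COM: four-dimensional orthogonal modules of `PSL₂(E)`.  See `plans/O7B.md`.
-/

set_option autoImplicit false
set_option linter.unusedSectionVars false

namespace CfsgLib.O7

open CfsgLib.OrthE CfsgLib.OMax Module QuadraticMap Subgroup Cfsg
open scoped MatrixGroups

variable {K G : Type*} [Field K] [IsAlgClosed K] [Group G] [Finite G] {ρ : G →* G7 K}
  {E : Type} [Field E] [Fintype E]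

variable {V : Type*} [AddCommGroup V] [Module K V] [FiniteDimensional K V] {Q : QuadraticForm K V}

/-- the module is a twisted tensor product, seen through its eigenvalues -/
def Tens (σ : SL(2, E) →* O Q) (W : Submodule K V) : Prop :=
  ∃ α β : E →+* K, α ≠ β ∧ ∀ g μ, (∃ y ∈ W, y ≠ 0 ∧ (σ g).1 y = μ • y) ↔
    ∃ l m : K, l ^ 2 + 1 = α g.1.trace * l ∧ m ^ 2 + 1 = β g.1.trace * m ∧ μ = l * m

theorem fxc_tr {α : E →+* K} {g : SL(2, E)} {l m : K} (lm : l * m = 1) (h : α (SL2.tr g) = l + m) (n : ℕ) :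
    α (SL2.tr (g ^ n)) = l ^ n + m ^ n := by
  induction n using Nat.twoStepInduction with
  | zero => rw [pow_zero, SL2.tr_one, map_ofNat]; ring
  | one => simpa using h
  | more n h0 h1 =>
    have e : SL2.tr (g ^ (n + 2)) = SL2.tr g * SL2.tr (g ^ (n + 1)) - SL2.tr (g ^ n) := by
      rw [pow_succ', pow_succ', ← mul_assoc]
      generalize g ^ n = k
      simp only [SL2.tr_def, SL2.mul_ap]
      linear_combination (-(k 0 0 + k 1 1)) * SL2.det_eq g
    rw [e, map_sub, map_mul, h, h0, h1]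
    linear_combination (l ^ n + m ^ n) * lm

theorem fxc_unip (p : ℕ) [Fact p.Prime] [CharP E p] {g : SL(2, E)} (h : SL2.tr g = 2) : g ^ p = 1 := by
  have e : ∀ n : ℕ, ∀ i j, (g ^ n) i j = n * g i j - (n - 1) * (1 : SL(2, E)) i j := fun n => by
    induction n with
    | zero => intro i j; simp
    | succ n ih =>
      intro i j
      have e1 := SL2.mul_self_ap g i j
      have e2 : (1 : SL(2, E)) i 0 * g 0 j + (1 : SL(2, E)) i 1 * g 1 j = g i j := by rw [← SL2.mul_ap, one_mul]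
      rw [SL2.mul_ap, h] at e1
      rw [pow_succ, SL2.mul_ap, ih, ih]
      push_cast
      linear_combination n * e1 - (n - 1) * e2
  exact Subtype.ext (Matrix.ext fun i j => (e p i j).trans (by rw [CharP.cast_eq_zero]; ring))

theorem Tens.key (p : ℕ) [hp : Fact p.Prime] [CharP K p] [CharP E p] {σ : SL(2, E) →* O Q} {W : Submodule K V}
    (h : Tens σ W) {g : SL(2, E)} {c : ℕ} (hg : orderOf g + 1 = Fintype.card E ∨ orderOf g = Fintype.card E + 1)
    {y : V} (hy : y ∈ W) (hf : (σ (g ^ c)).1 y = y) (y0 : y ≠ 0) : (orderOf g).Coprime p ∧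
      ∃ s, p ∣ s ∧ 0 < s ∧ s ^ 2 ≤ Fintype.card E ∧ (orderOf g ∣ c * (s - 1) ∨ orderOf g ∣ c * (s + 1)) := by
  obtain ⟨α, β, ne, h⟩ := h
  obtain ⟨l, m, h1, h2, lm⟩ := (h (g ^ c) 1).1 ⟨y, hy, y0, by rwa [one_smul]⟩
  rw [← SL2.tr_eq_trace] at h1 h2
  have a1 : α (SL2.tr (g ^ c)) = l + m := by
    linear_combination (-m) * h1 + (α (SL2.tr (g ^ c)) - l) * lm
  have a2 : β (SL2.tr (g ^ c)) = l + m := by
    linear_combination (-l) * h2 + (β (SL2.tr (g ^ c)) - m) * lm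
  have cp : (orderOf g).Coprime p := by
    obtain ⟨n, -, e⟩ := FiniteField.card E p
    have d : p ∣ Fintype.card E := e ▸ dvd_pow_self p n.ne_zero
    refine ((Nat.Prime.coprime_iff_not_dvd hp.out).2 fun k => hp.out.one_lt.ne' (Nat.dvd_one.1 ?_)).symm
    rcases hg with e | e
    · exact (Nat.dvd_add_right k).1 (e ▸ d)
    · exact (Nat.dvd_add_right d).1 (e ▸ k)
  let F := α.eqLocusField β
  have := Fintype.ofFinite F
  obtain ⟨n, -, e⟩ := FiniteField.card F p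
  have t : (l + m) ^ p ^ (n : ℕ) = l + m := by
    have := congrArg (fun x : F => α x) (FiniteField.pow_card (⟨_, a1.trans a2.symm⟩ : F))
    simpa only [e, SubmonoidClass.coe_pow, map_pow, a1] using this
  have s0 : 0 < p ^ (n : ℕ) := pow_pos hp.out.pos _
  have key : ∀ k, l ^ k = 1 → orderOf g ∣ c * k := fun k hk => by
    have e1 := fxc_tr lm.symm a1 k
    have e2 : m ^ k = 1 := by rw [← one_mul (m ^ k), ← hk, ← mul_pow, ← lm, one_pow, hk]
    rw [hk, e2, one_add_one_eq_two, ← map_ofNat α, ← pow_mul] at e1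
    have e3 := fxc_unip p (α.injective e1)
    rw [← pow_mul] at e3
    exact cp.dvd_of_dvd_mul_right (orderOf_dvd_of_pow_eq_one e3)
  refine ⟨cp, p ^ (n : ℕ), dvd_pow_self p n.ne_zero, s0, ?_, ?_⟩
  · rw [Module.card_eq_pow_finrank (K := F) (V := E), e]
    refine Nat.pow_le_pow_right s0 (not_lt.1 fun k => ne (RingHom.ext fun x => ?_))
    have k1 : finrank F E = 1 := le_antisymm (Nat.lt_succ_iff.1 k) Module.finrank_pos
    obtain ⟨a, ha⟩ := (finrank_eq_one_iff_of_nonzero' (1 : E) one_ne_zero).1 k1 x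
    rw [← ha, Subfield.smul_def, smul_eq_mul, mul_one]
    exact a.2
  · rw [add_pow_char_pow] at t
    obtain ⟨k, hk⟩ : ∃ k, p ^ (n : ℕ) = k + 1 := ⟨_, (Nat.sub_add_cancel s0).symm⟩
    rw [hk] at t ⊢
    have e1 : l ^ k * m ^ k = 1 := by rw [← mul_pow, ← lm, one_pow]
    have e2 : (l ^ k - 1) * (l ^ (k + 1 + 1) - 1) = 0 := by
      linear_combination l ^ (k + 1) * t + (1 - l ^ k) * lm - l * m * e1 + 0 * lm
    rcases mul_eq_zero.1 e2 with e3 | e3
    exacts [Or.inl (key _ (sub_eq_zero.1 e3)), Or.inr (key _ (sub_eq_zero.1 e3))]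

theorem fxc_q8 (h2 : (2 : E) ≠ 0) : ∃ a b s : SL(2, E), a * a = -1 ∧ b * b = -1 ∧ a * b = -1 * (b * a) ∧
    s * a * s⁻¹ = b ∧ s * b * s⁻¹ = a * b := by
  obtain ⟨x, y, h⟩ := SL2.exists_binary_form_eq (1 : E) 0 1 (fun e => h2 (by
    have : (2 : E) ^ 2 = 0 := by linear_combination -e
    exact pow_eq_zero_iff two_ne_zero |>.1 this)) (-1)
  have u : 2 * (2 : E)⁻¹ = 1 := mul_inv_cancel₀ h2
  generalize (2 : E)⁻¹ = c at u
  refine ⟨SL2.ww, SL2.mk2 x y y (-x) (by linear_combination -h),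
    SL2.mk2 (c * (1 + x - y)) (c * (x + y - 1)) (c * (1 + x + y)) (c * (1 - x + y))
      (by linear_combination (-2 * c ^ 2) * h + (2 * c + 1) * u), ?_, ?_, ?_, ?_, ?_⟩
  all_goals
    try rw [mul_inv_eq_iff_eq_mul]
    apply SL2.ext2 <;> simp only [SL2.mul_ap, SL2.neg_ap, SL2.one_00, SL2.one_01, SL2.one_10, SL2.one_11,
      SL2.ww_00, SL2.ww_01, SL2.ww_10, SL2.ww_11, SL2.mk2_00, SL2.mk2_01, SL2.mk2_10, SL2.mk2_11] <;>
      first | ring1 | linear_combination h | linear_combination c * h | linear_combination -c * h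

theorem fxc_top (h2 : (2 : K) ≠ 0) (hE : (2 : E) ≠ 0) (σ : SL(2, E) →* O Q) (hQ : Nondeg Q) (h4 : finrank K V = 4)
    (hm : σ (-1) = 1) (hk : ∀ g, σ g = 1 → g * g = 1) :
    (∀ y, y ≠ 0 → (∀ g, (σ g).1 y = y) → Q y ≠ 0 ∧ ∀ y', (∀ g, (σ g).1 y' = y') → ∃ c : K, y' = c • y) ∧
    ∀ (c : O Q) (n : ℕ), Odd n → c ^ n = 1 → (∀ g, c * σ g = σ g * c) → ∀ w, c.1 w = w := by
  obtain ⟨a, b, s, aa, bb, ab, sa, sb⟩ := fxc_q8 hE
  have ha : σ a * σ a = 1 := by rw [← map_mul, aa, hm]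
  have hb : σ b * σ b = 1 := by rw [← map_mul, bb, hm]
  have hc : σ a * σ b = σ b * σ a := by rw [← map_mul, ab, map_mul, hm, one_mul, map_mul]
  obtain ⟨d1, d2, -⟩ := a4l_dims h2 ha hb hc
  have d3 := a4l_cyc (a := σ a) (b := σ b) (s := σ s) (W := ⊤) (by rw [← map_inv, ← map_mul, ← map_mul, sa])
    (by rw [← map_inv, ← map_mul, ← map_mul, sb, map_mul]) fun _ _ => trivial
  rw [top_inf_eq, top_inf_eq, top_inf_eq] at d3
  have d4 : rk (σ a) ≠ 0 := fun e => SL2.neg_one_ne_one hE (aa.symm.trans (hk a (rk_eq_zero e)))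
  have ln : ∀ ε δ : K, ε = 1 ∨ ε = -1 → δ = 1 ∨ δ = -1 → ∃ w ∈ J2 (σ a) (σ b) ε δ, Q w ≠ 0 ∧
      ∀ v ∈ J2 (σ a) (σ b) ε δ, ∃ c : K, c • w = v := fun ε δ hε hδ => by
    have h1 : finrank K (J2 (σ a) (σ b) ε δ) = 1 := by
      rcases hε with rfl | rfl <;> rcases hδ with rfl | rfl <;> omega
    obtain ⟨w, hw, k⟩ := a4l_ns (nd_J2 h2 hQ ha hb hc hε hδ) (Submodule.one_le_finrank_iff.1 h1.ge)
    refine ⟨w, hw, k, fun v hv => ?_⟩
    obtain ⟨c, e⟩ := (finrank_eq_one_iff_of_nonzero' (⟨w, hw⟩ : J2 (σ a) (σ b) ε δ) fun e =>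
      k (by rw [show w = 0 from congrArg Subtype.val e, Q.map_zero])).1 h1 ⟨v, hv⟩
    exact ⟨c, congrArg Subtype.val e⟩
  refine ⟨fun y y0 hy => ?_, fun c n hn cn hs => ?_⟩
  · obtain ⟨w, -, k, k1⟩ := ln 1 1 (Or.inl rfl) (Or.inl rfl)
    obtain ⟨t, rfl⟩ := k1 y (mem_J2.2 ⟨by rw [hy, one_smul], by rw [hy, one_smul]⟩)
    have t0 : t ≠ 0 := fun e => y0 (by rw [e, zero_smul])
    refine ⟨by rw [Q_smul]; exact mul_ne_zero (mul_ne_zero t0 t0) k, fun y' hy' => ?_⟩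
    obtain ⟨r, rfl⟩ := k1 y' (mem_J2.2 ⟨by rw [hy', one_smul], by rw [hy', one_smul]⟩)
    exact ⟨r / t, by rw [smul_smul, div_mul_cancel₀ _ t0]⟩
  have f1 : ∀ ε δ : K, ε = 1 ∨ ε = -1 → δ = 1 ∨ δ = -1 → ∀ v ∈ J2 (σ a) (σ b) ε δ, c.1 v = v := fun ε δ hε hδ => by
    obtain ⟨w, hw, k, k1⟩ := ln ε δ hε hδ
    obtain ⟨t, e⟩ := k1 (c.1 w) (mem_J2.2 ⟨by rw [← a4l_cm (hs a), (mem_J2.1 hw).1, map_smul],
      by rw [← a4l_cm (hs b), (mem_J2.1 hw).2, map_smul]⟩)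
    have k3 : t * t = 1 := mul_right_cancel₀ k (by rw [← Q_smul, e, O_map, one_mul])
    have k4 : ∀ n, (c ^ n).1 w = t ^ n • w := fun n => by
      induction n with
      | zero => rw [pow_zero, pow_zero, one_smul, O_one_apply]
      | succ n ih => rw [pow_succ', O_mul_apply, ih, map_smul, ← e, smul_smul, pow_succ]
    obtain ⟨j, rfl⟩ := hn
    have k5 := k4 (2 * j + 1)
    rw [cn, O_one_apply, pow_succ, pow_mul, pow_two, k3, one_pow, one_mul, e] at k5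
    intro v hv
    obtain ⟨d, rfl⟩ := k1 v hv
    rw [map_smul, ← k5]
  have f2 : ∀ ε : K, ε = 1 ∨ ε = -1 → ∀ v, (σ a).1 v = ε • v → c.1 v = v := fun ε hε v hv => by
    have e1 := f1 ε 1 hε (Or.inl rfl) (v + (σ b).1 v) (mem_J2.2
      ⟨by rw [map_add, a4l_cm hc, hv, map_smul, smul_add], by rw [map_add, a4l_sq hb, one_smul, add_comm]⟩)
    have e2 := f1 ε (-1) hε (Or.inr rfl) (v - (σ b).1 v) (mem_J2.2
      ⟨by rw [map_sub, a4l_cm hc, hv, map_smul, smul_sub], by rw [map_sub, a4l_sq hb, neg_one_smul, neg_sub]⟩)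
    rw [map_add] at e1
    rw [map_sub] at e2
    exact a4l_two h2 (by linear_combination (norm := module) e1 + e2)
  intro v
  have e1 := f2 1 (Or.inl rfl) (v + (σ a).1 v) (by rw [map_add, a4l_sq ha, one_smul, add_comm])
  have e2 := f2 (-1) (Or.inr rfl) (v - (σ a).1 v) (by rw [map_sub, a4l_sq ha, neg_one_smul, neg_sub])
  rw [map_add] at e1
  rw [map_sub] at e2
  exact a4l_two h2 (by linear_combination (norm := module) e1 + e2)

/-- in a twisted tensor product the cube of a generator of a maximal torus fixes no vector -/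
theorem Tens.cube (p : ℕ) [Fact p.Prime] [CharP K p] [CharP E p] (h2 : (2 : K) ≠ 0)
    {σ : SL(2, E) →* O Q} {W : Submodule K V} (h : Tens σ W) {g : SL(2, E)}
    (hg : orderOf g = Fintype.card E - 1 ∨ orderOf g = Fintype.card E + 1) {y : V} (hy : y ∈ W)
    (hf : (σ (g ^ 3)).1 y = y) : y = 0 := by
  by_contra y0
  have q1 := Fintype.card_pos (α := E)
  obtain ⟨cp, s, ps, s0, sq, hs⟩ := h.key p (by omega) hy hf y0
  have hp : p.Prime := Fact.out
  have p2 : p ≠ 2 := fun e => h2 (by subst e; exact CharP.cast_eq_zero K 2)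
  have p3 := hp.two_le
  have s1 := Nat.le_of_dvd s0 ps
  obtain ⟨k, rfl⟩ : ∃ k, s = k + 3 := ⟨s - 3, by omega⟩
  have o1 : (k + 3) ^ 2 ≤ orderOf g + 1 := by omega
  rw [show k + 3 - 1 = k + 2 from rfl] at hs
  by_cases e : p = 3
  · subst e
    rcases hs with d | d <;> have := Nat.le_of_dvd (by omega) (cp.dvd_of_dvd_mul_left d) <;> nlinarith
  · have p4 : p ≠ 4 := fun e => by rw [e] at hp; exact absurd hp (by norm_num)
    have : 2 ≤ k := by omega
    rcases hs with d | d <;> have := Nat.le_of_dvd (by omega) d <;> nlinarith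

theorem Tens.six [CharP K 3] [CharP E 3] {σ : SL(2, E) →* O Q} {W : Submodule K V} (h : Tens σ W)
    {g : SL(2, E)} (hg : orderOf g = Fintype.card E + 1) {y : V} (hy : y ∈ W)
    (hf : (σ (g ^ 6)).1 y = y) : y = 0 := by
  by_contra y0
  have : Fact (Nat.Prime 3) := ⟨Nat.prime_three⟩
  obtain ⟨cp, s, ps, s0, sq, hs⟩ := h.key 3 (Or.inr hg) hy hf y0
  have s1 := Nat.le_of_dvd s0 ps
  obtain ⟨k, rfl⟩ : ∃ k, s = k + 3 := ⟨s - 3, by omega⟩
  simp only [show 6 = 3 * 2 from rfl, mul_assoc, Nat.add_succ_sub_one] at hs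
  rcases hs with d | d <;> have := Nat.le_of_dvd (by omega) (cp.dvd_of_dvd_mul_left d) <;> nlinarith

/-- COM: a non-trivial module with a fixed vector is `1 + 3` -/
theorem com4 (h2 : (2 : K) ≠ 0) (hE : Odd (Fintype.card E)) (h5 : 5 ≤ Fintype.card E)
    (σ : SL(2, E) →* O Q) {W : Submodule K V} (hW : ND Q W) (h4 : finrank K W = 4)
    (hi : ∀ g, ∀ w ∈ W, (σ g).1 w ∈ W) (hm : ∀ w ∈ W, (σ (-1)).1 w = w)
    (hn : ∃ g, ∃ w ∈ W, (σ g).1 w ≠ w) :
    (∀ g, (∀ w ∈ W, (σ g).1 w = w) → g = 1 ∨ g = -1) ∧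
    (∀ y ∈ W, y ≠ 0 → (∀ g, (σ g).1 y = y) →
      Q y ≠ 0 ∧ ∀ y' ∈ W, (∀ g, (σ g).1 y' = y') → ∃ c : K, y' = c • y) ∧
    ∀ (c : O Q) (n : ℕ), Odd n → c ^ n = 1 → (∀ w ∈ W, c.1 w ∈ W) → (∀ g, c * σ g = σ g * c) →
      ∀ w ∈ W, c.1 w = w := by
  let τ : SL(2, E) →* O (Q.comp W.subtype) :=
    MonoidHom.mk' (fun g => eigRes W (σ g) (hi g)) fun g k => O_ext fun x => Subtype.ext (by
      rw [O_mul_apply, eigRes_apply, eigRes_apply, eigRes_apply, map_mul, O_mul_apply])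
  have h1 : ∀ g, τ g = 1 → g = 1 ∨ g = -1 := fun g hg =>
    (SL2.mem_center_iff g).1 ((RootSub.sl2_normal (by
      rw [ENat.card_eq_coe_fintype_card]; exact_mod_cast (by omega : 3 < Fintype.card E)) τ.ker
      inferInstance).resolve_left (fun e => by
        obtain ⟨k, w, hw, e1⟩ := hn
        exact e1 (congrArg (fun t : O (Q.comp W.subtype) => (t.1 ⟨w, hw⟩ : V)) (e.ge (mem_top k)))) hg)
  obtain ⟨k1, k2⟩ := fxc_top h2 (SL2.two_ne_zero_of_odd hE) τ (eig_nondeg hW) h4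
    (O_ext fun x => Subtype.ext (hm x x.2)) fun g hg => by
      rcases h1 g hg with rfl | rfl
      exacts [one_mul _, by rw [neg_mul_neg, one_mul]]
  refine ⟨fun g hg => h1 g (O_ext fun x => Subtype.ext (hg x x.2)), fun y hy y0 hf => ?_,
    fun c n hn cn hc hs w hw => congrArg Subtype.val (k2 (eigRes W c hc) n hn
      (O_ext fun x => Subtype.ext (by rw [eigRes_pow, cn]; rfl))
      (fun g => O_ext fun x => Subtype.ext (a4l_cm (hs g) x)) ⟨w, hw⟩)⟩
  obtain ⟨e1, e2⟩ := k1 ⟨y, hy⟩ (fun e => y0 (congrArg Subtype.val e)) fun g => Subtype.ext (hf g)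
  exact ⟨e1, fun y' hy' hf' => (e2 ⟨y', hy'⟩ fun g => Subtype.ext (hf' g)).imp fun _ e => congrArg Subtype.val e⟩

end CfsgLib.O7
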