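import Cfsg.Agent.Lib.O7.Gr
import Cfsg.Agent.Lib.O7.A4L
import Cfsg.Agent.Lib.O7.FxC
import Cfsg.Agent.Lib.O7.FxA

/-!
FX, COM: four-dimensional orthogonal modules of `PSL₂(E)`.  See `plans/O7B.md`.
-/

set_option autoImplicit false

namespace CfsgLib.O7

open CfsgLib.OrthE CfsgLib.OMax Module QuadraticMap Subgroup Cfsg
open scoped MatrixGroups

variable {K G : Type*} [Field K] [IsAlgClosed K] [Group G] [Finite G] {ρ : G →* G7 K}
  {E : Type} [Field E] [Fintype E]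

variable {V : Type*} [AddCommGroup V] [Module K V] [FiniteDimensional K V] {Q : QuadraticForm K V}

theorem fx4 (p : ℕ) [Fact p.Prime] [CharP K p] [CharP E p] (h2 : (2 : K) ≠ 0)
    (h5 : 5 ≤ Fintype.card E) (σ : SL(2, E) →* O Q) {W : Submodule K V} (hW : ND Q W)
    (h4 : finrank K W = 4) (hi : ∀ g, ∀ w ∈ W, (σ g).1 w ∈ W) (hm : ∀ w ∈ W, (σ (-1)).1 w = w) :
    (∃ y ∈ W, y ≠ 0 ∧ ∀ g, (σ g).1 y = y) ∨ Tens σ W :=
  fxa p h2 h5 σ hW h4 hi hm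

end CfsgLib.O7
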