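import Mathlib

/-!
GRL: the number of binomial coefficients `C(n, j)` prime to `p` (Lucas).  See `plans/O7B.md`.
-/

set_option autoImplicit false

namespace CfsgLib.O7

/-- the number of binomial coefficients prime to `p` -/
abbrev lucN (p n : ℕ) : ℕ := ((Finset.range (n + 1)).filter fun j => ¬ p ∣ n.choose j).card

theorem luc_le {p n j : ℕ} (h : ¬ p ∣ n.choose j) : j ≤ n := by
  by_contra hn
  exact h (by rw [Nat.choose_eq_zero_of_lt (not_le.1 hn)]; exact dvd_zero p)

theorem luc_iff {p : ℕ} (hp : p.Prime) (n j : ℕ) :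
    ¬ p ∣ n.choose j ↔ j % p ≤ n % p ∧ ¬ p ∣ (n / p).choose (j / p) := by
  haveI := Fact.mk hp
  rw [(Choose.choose_modEq_choose_mod_mul_choose_div_nat (n := n) (k := j) (p := p)).dvd_iff dvd_rfl,
    hp.dvd_mul, not_or]
  refine and_congr_left fun _ => ⟨luc_le, fun h hd => ?_⟩
  have h1 : p ∣ (n % p).factorial := by
    rw [← Nat.choose_mul_factorial_mul_factorial h, mul_assoc]
    exact hd.mul_right _
  exact absurd (hp.dvd_factorial.1 h1) (not_le.2 (Nat.mod_lt n hp.pos))

theorem lucN_rec {p : ℕ} (hp : p.Prime) (n : ℕ) : lucN p n = (n % p + 1) * lucN p (n / p) := by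
  rw [lucN, lucN, ← Finset.card_range (n % p + 1), ← Finset.card_product]
  refine Finset.card_nbij' (fun j => (j % p, j / p)) (fun x => x.1 + p * x.2) (fun j hj => ?_) (fun x hx => ?_)
    (fun j _ => Nat.mod_add_div j p) fun x hx => ?_
  · obtain ⟨h1, h2⟩ := (luc_iff hp n j).1 (Finset.mem_filter.1 hj).2
    exact Finset.mem_coe.2 (Finset.mem_product.2 ⟨Finset.mem_range.2 (Nat.lt_succ_of_le h1),
      Finset.mem_filter.2 ⟨Finset.mem_range.2 (Nat.lt_succ_of_le (luc_le h2)), h2⟩⟩)
  · obtain ⟨h1, h2⟩ := Finset.mem_product.1 (Finset.mem_coe.1 hx)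
    have h3 : x.1 ≤ n % p := Nat.le_of_lt_succ (Finset.mem_range.1 h1)
    have h4 : x.1 < p := h3.trans_lt (Nat.mod_lt n hp.pos)
    have h5 : ¬ p ∣ n.choose (x.1 + p * x.2) := by
      rw [luc_iff hp, Nat.add_mul_mod_self_left, Nat.mod_eq_of_lt h4, Nat.add_mul_div_left _ _ hp.pos,
        Nat.div_eq_of_lt h4, zero_add]
      exact ⟨h3, (Finset.mem_filter.1 h2).2⟩
    exact Finset.mem_coe.2 (Finset.mem_filter.2 ⟨Finset.mem_range.2 (Nat.lt_succ_of_le (luc_le h5)), h5⟩)
  · obtain ⟨h1, -⟩ := Finset.mem_product.1 (Finset.mem_coe.1 hx)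
    have h4 : x.1 < p := (Nat.le_of_lt_succ (Finset.mem_range.1 h1)).trans_lt (Nat.mod_lt n hp.pos)
    simp only [Nat.add_mul_mod_self_left, Nat.mod_eq_of_lt h4, Nat.add_mul_div_left _ _ hp.pos,
      Nat.div_eq_of_lt h4, zero_add]

theorem lucN_zero (p : ℕ) : lucN p 0 ≤ 1 := (Finset.card_filter_le _ _).trans (by simp)

theorem lucN_one {p n : ℕ} (hp : p.Prime) (h : lucN p n = 1) : n = 0 := by
  have h1 : ¬ p ∣ 1 := hp.not_dvd_one
  exact Finset.card_le_one.1 h.le n (Finset.mem_filter.2 ⟨Finset.self_mem_range_succ n, by simpa using h1⟩) 0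
    (Finset.mem_filter.2 ⟨Finset.mem_range.2 n.succ_pos, by simpa using h1⟩)

/-- a prime number of coefficients: only one non-zero digit -/
theorem lucN_prime {p r : ℕ} (hp : p.Prime) (hr : r.Prime) (n : ℕ) (h : lucN p n = r) :
    r ≤ p ∧ ∃ i, n = (r - 1) * p ^ i := by
  induction n using Nat.strong_induction_on with
  | _ n ih =>
    have h0 : n ≠ 0 := by
      rintro rfl
      have := lucN_zero p
      have := hr.two_le
      omega
    have e := Nat.mod_add_div n p
    rw [lucN_rec hp] at h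
    rcases (Nat.dvd_prime hr).1 (Dvd.intro _ h) with h1 | h1
    · rw [h1, one_mul] at h
      obtain ⟨h2, i, hi⟩ := ih _ (Nat.div_lt_self (Nat.pos_of_ne_zero h0) hp.one_lt) h
      refine ⟨h2, i + 1, ?_⟩
      rw [← e, show n % p = 0 by omega, hi]
      ring
    · rw [h1] at h
      have h2 := lucN_one hp (Nat.eq_of_mul_eq_mul_left hr.pos (h.trans (mul_one r).symm))
      have h3 := Nat.mod_lt n hp.pos
      rw [h2, mul_zero, add_zero] at e
      exact ⟨by omega, 0, by rw [pow_zero, mul_one]; omega⟩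

theorem luc7 {p n : ℕ} (hp : p.Prime)
    (h : ((Finset.range (n + 1)).filter fun j => ¬ p ∣ n.choose j).card = 7) :
    7 ≤ p ∧ ∃ i, n = 6 * p ^ i := lucN_prime hp (by norm_num) n h

theorem luc4 {p n : ℕ} (hp : p.Prime) (h2 : p ≠ 2) (he : Even n)
    (h : ((Finset.range (n + 1)).filter fun j => ¬ p ∣ n.choose j).card = 4) :
    ∃ i j, i < j ∧ n = p ^ i + p ^ j := by
  change lucN p n = 4 at h
  induction n using Nat.strong_induction_on with
  | _ n ih =>
    have h0 : n ≠ 0 := by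
      rintro rfl
      have := lucN_zero p
      omega
    have e := Nat.mod_add_div n p
    rw [lucN_rec hp] at h
    have h1 : n % p + 1 ≤ 4 := Nat.le_of_dvd (by norm_num) (Dvd.intro _ h)
    obtain h3 | h3 | h3 | h3 : n % p = 0 ∨ n % p = 1 ∨ n % p = 2 ∨ n % p = 3 := by omega
    · rw [h3, zero_add, one_mul] at h
      rw [h3, zero_add] at e
      have h4 : Even (n / p) := by
        rw [← e, Nat.even_mul] at he
        exact he.resolve_left (Nat.not_even_iff_odd.2 (hp.odd_of_ne_two h2))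
      obtain ⟨i, j, hij, hn⟩ := ih _ (Nat.div_lt_self (Nat.pos_of_ne_zero h0) hp.one_lt) h4 h
      exact ⟨i + 1, j + 1, by omega, by rw [← e, hn]; ring⟩
    · rw [h3] at h e
      obtain ⟨-, i, hi⟩ := lucN_prime hp Nat.prime_two (n / p) (by omega)
      exact ⟨0, i + 1, by omega, by rw [← e, hi]; ring⟩
    · rw [h3] at h
      omega
    · rw [h3] at h e
      rw [lucN_one hp (by omega : lucN p (n / p) = 1), mul_zero, add_zero] at e
      exact absurd (e ▸ he) (by decide)

variable {K E : Type*} [Field K] [Field E]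

/-- dimension seven: twist the embedding -/
theorem luc7' (p : ℕ) [hp : Fact p.Prime] [CharP K p] (α : E →+* K) {n : ℕ}
    (h : ((Finset.range (n + 1)).filter fun j => ¬ p ∣ n.choose j).card = 7) :
    7 ≤ p ∧ ∃ β : E →+* K, (fun d => α d ^ n) = fun d => β d ^ 6 := by
  obtain ⟨h1, i, rfl⟩ := luc7 hp.out h
  refine ⟨h1, (iterateFrobenius K p i).comp α, funext fun d => ?_⟩
  rw [RingHom.comp_apply, iterateFrobenius_def, ← pow_mul, mul_comm]

/-- dimension four: two different twists of the embedding -/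
theorem luc4' [Fintype E] (p : ℕ) [hp : Fact p.Prime] [CharP K p] (h2 : (2 : K) ≠ 0) (α : E →+* K) {n : ℕ}
    (hn : n < Fintype.card E) (he : Even n)
    (h : ((Finset.range (n + 1)).filter fun j => ¬ p ∣ n.choose j).card = 4) :
    ∃ β γ : E →+* K, β ≠ γ ∧ (fun d => α d ^ n) = fun d => β d * γ d := by
  classical
  have p2 : p ≠ 2 := by
    rintro rfl
    exact h2 (by exact_mod_cast CharP.cast_eq_zero K 2)
  obtain ⟨i, j, hij, rfl⟩ := luc4 hp.out p2 he h
  refine ⟨(iterateFrobenius K p i).comp α, (iterateFrobenius K p j).comp α, fun e => ?_, funext fun d => ?_⟩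
  · obtain ⟨g, hg⟩ := IsCyclic.exists_ofOrder_eq_natCard (α := Eˣ)
    rw [Nat.card_eq_fintype_card, Fintype.card_units] at hg
    have e1 : α g ^ p ^ i = α g ^ p ^ j := DFunLike.congr_fun e (g : E)
    rw [← map_pow, ← map_pow] at e1
    have e2 : g ^ p ^ i = g ^ p ^ j := Units.ext (by simpa using α.injective e1)
    have h1 : p ^ i < p ^ j := Nat.pow_lt_pow_right hp.out.one_lt hij
    have h3 : 0 < p ^ i := pow_pos hp.out.pos i
    have h4 := Nat.le_of_dvd (by omega) ((Nat.modEq_iff_dvd' h1.le).1 (pow_eq_pow_iff_modEq.1 e2))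
    omega
  · rw [RingHom.comp_apply, RingHom.comp_apply, iterateFrobenius_def, iterateFrobenius_def, pow_add]

end CfsgLib.O7
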