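import Cfsg.Agent.Lib.O7.GrA
import Cfsg.Agent.Lib.O7.GrL

/-!
GR: irreducible orthogonal modules of `SL₂(E)` in the defining characteristic.  See `plans/O7B.md`.
-/

set_option autoImplicit false

namespace CfsgLib.O7

open CfsgLib.OrthE CfsgLib.OMax Module QuadraticMap Subgroup Cfsg
open scoped MatrixGroups

variable {K G : Type*} [Field K] [IsAlgClosed K] [Group G] [Finite G] {ρ : G →* G7 K}
  {E : Type} [Field E] [Fintype E]

variable {V : Type*} [AddCommGroup V] [Module K V] [FiniteDimensional K V] {Q : QuadraticForm K V}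

theorem gr7 (p : ℕ) [Fact p.Prime] [CharP K p] [CharP E p] (h2 : (2 : K) ≠ 0) (hQ : Nondeg Q)
    (σ : SL(2, E) →* O Q) (hi : Irr σ) (h7 : finrank K V = 7) (hm : σ (-1) = 1) :
    7 ≤ p ∧ ∃ (α : E →+* K) (c : K) (v : (Fin 2 → E) → V), c ≠ 0 ∧
      HW σ v (fun d => c * α d ^ 6) := by
  obtain ⟨α, n, c, v, hc, -, -, -, hw, hd⟩ := gr p h2 hQ σ hi (by omega) hm
  obtain ⟨h1, β, e⟩ := luc7' p α (hd.symm.trans h7)
  exact ⟨h1, β, c, v, hc, by simpa only [congrFun e] using hw⟩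

theorem gr4 (p : ℕ) [Fact p.Prime] [CharP K p] [CharP E p] (h2 : (2 : K) ≠ 0) (hQ : Nondeg Q)
    (σ : SL(2, E) →* O Q) (hi : Irr σ) (h4 : finrank K V = 4) (hm : σ (-1) = 1) :
    ∃ (α β : E →+* K) (c : K) (v : (Fin 2 → E) → V), α ≠ β ∧ c ≠ 0 ∧
      HW σ v (fun d => c * (α d * β d)) := by
  obtain ⟨α, n, c, v, hc, -, hn, he, hw, hd⟩ := gr p h2 hQ σ hi (by omega) hm
  obtain ⟨β, γ, h1, e⟩ := luc4' p h2 α hn he (hd.symm.trans h4)
  exact ⟨β, γ, c, v, h1, hc, by simpa only [congrFun e] using hw⟩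

end CfsgLib.O7
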