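import Cfsg.Agent.Lib.O7.Eig
import Cfsg.Agent.Lib.Classical.SLBasic

/-!
GR: irreducible orthogonal modules of `SL₂(E)` in the defining characteristic.  See `plans/O7B.md`.
-/

set_option autoImplicit false

namespace CfsgLib.O7

open CfsgLib.OrthE CfsgLib.OMax Module QuadraticMap Subgroup Cfsg
open scoped MatrixGroups

variable {K G : Type*} [Field K] [IsAlgClosed K] [Group G] [Finite G] {ρ : G →* G7 K}
  {E : Type} [Field E] [Fintype E]

variable {V : Type*} [AddCommGroup V] [Module K V] [FiniteDimensional K V] {Q : QuadraticForm K V}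

/-- the highest weight orbit `v` of an orthogonal module -/
structure HW (σ : SL(2, E) →* O Q) (v : (Fin 2 → E) → V) (f : E → K) : Prop where
  equi : ∀ g x, (σ g).1 (v x) = v (Matrix.mulVec g.1 x)
  span : Submodule.span K (Set.range v) = ⊤
  gram : ∀ x y, polar Q (v x) (v y) = f (x 0 * y 1 - x 1 * y 0)

namespace GrA

/-- upper unitriangular matrices -/
def u (t : E) : SL(2, E) := ⟨!![1, t; 0, 1], by simp⟩

/-- diagonal matrices -/
def h (s : Eˣ) : SL(2, E) := ⟨!![s, 0; 0, (s⁻¹ : Eˣ)], by simp⟩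

/-- the Weyl element -/
def w : SL(2, E) := ⟨!![0, -1; 1, 0], by simp⟩

omit [Fintype E] in
theorem ext2 {a b : SL(2, E)} (e : a.1 = b.1) : a = b := Subtype.ext e

omit [Fintype E] in
theorem cm (a b : SL(2, E)) : (a * b).1 = a.1 * b.1 := rfl

omit [Fintype E] in
theorem uc (t : E) : (u t).1 = !![1, t; 0, 1] := rfl

omit [Fintype E] in
theorem hc (s : Eˣ) : (h s).1 = !![(s : E), 0; 0, (s⁻¹ : Eˣ)] := rfl

omit [Fintype E] in
theorem wc : (w : SL(2, E)).1 = !![0, -1; 1, 0] := rfl

omit [Fintype E] in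
theorem u_add (s t : E) : u (s + t) = u s * u t := ext2 (by simp only [cm, uc]; simp [add_comm])

omit [Fintype E] in
theorem u_zero : u (0 : E) = 1 := ext2 (by simp [u, Matrix.one_fin_two])

omit [Fintype E] in
theorem u_pow (t : E) (n : ℕ) : u t ^ n = u (n * t) := by
  induction n with
  | zero => simp [u_zero]
  | succ n ih => rw [pow_succ, ih, ← u_add, Nat.cast_succ, add_mul, one_mul]

omit [Fintype E] in
theorem h_mul (s t : Eˣ) : h (s * t) = h s * h t := ext2 (by simp only [cm, hc]; simp [mul_comm])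

omit [Fintype E] in
theorem h_one : h (1 : Eˣ) = 1 := ext2 (by simp [h, Matrix.one_fin_two])

omit [Fintype E] in
theorem h_pow (t : Eˣ) (n : ℕ) : h t ^ n = h (t ^ n) := by
  induction n with
  | zero => simp [h_one]
  | succ n ih => rw [pow_succ, ih, ← h_mul, pow_succ]

omit [Fintype E] in
theorem u_h (t : E) (s : Eˣ) : u t * h s = h s * u (((s⁻¹ : Eˣ) : E) ^ 2 * t) := ext2 (by
  simp only [cm, uc, hc]
  simp
  field_simp)

omit [Fintype E] in
theorem stab {g : SL(2, E)} (e : g.1.mulVec ![1, 0] = ![1, 0]) : g = u (g.1 0 1) := by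
  have e0 : g.1 0 0 = 1 := by simpa [Matrix.mulVec, dotProduct] using congrFun e 0
  have e1 : g.1 1 0 = 0 := by simpa [Matrix.mulVec, dotProduct] using congrFun e 1
  have d := g.2
  rw [Matrix.det_fin_two, e0, e1, one_mul, mul_zero, sub_zero] at d
  refine ext2 ?_
  ext i j
  fin_cases i <;> fin_cases j <;> simp [u, e0, e1, d]

omit [Fintype E] in
theorem orb {y : Fin 2 → E} (hy : y ≠ 0) : (∃ s : Eˣ, y 1 = 0 ∧ (h s).1.mulVec ![1, 0] = y) ∨
    ∃ (s : Eˣ) (t : E), y 1 = s ∧ (u t * (w * h s)).1.mulVec ![1, 0] = y := by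
  by_cases e : y 1 = 0
  · have e0 : y 0 ≠ 0 := fun e0 => hy (funext fun i => by fin_cases i; exacts [e0, e])
    refine .inl ⟨Units.mk0 _ e0, e, funext fun i => ?_⟩
    fin_cases i <;> simp [h, e]
  · refine .inr ⟨Units.mk0 _ e, y 0 / y 1, rfl, funext fun i => ?_⟩
    simp only [cm, uc, hc, wc]
    fin_cases i <;> simp [e]

omit [Fintype E] in
theorem trans {y : Fin 2 → E} (hy : y ≠ 0) : ∃ g : SL(2, E), g.1.mulVec ![1, 0] = y := by
  rcases orb hy with ⟨s, -, e⟩ | ⟨s, t, -, e⟩
  exacts [⟨_, e⟩, ⟨_, e⟩]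

omit [IsAlgClosed K] [FiniteDimensional K V] in
/-- commuting nilpotent maps have a common null vector in every invariant subspace -/
theorem nul {ι : Type*} (N : ι → Module.End K V) (hc : ∀ a b, Commute (N a) (N b)) (hn : ∀ a, IsNilpotent (N a))
    {W : Submodule K V} (hW : ∀ a, ∀ x ∈ W, N a x ∈ W) (h0 : W ≠ ⊥) (s : Finset ι) :
    ∃ x ∈ W, x ≠ 0 ∧ ∀ a ∈ s, N a x = 0 := by
  classical
  induction s using Finset.induction_on with
  | empty => simpa using (Submodule.ne_bot_iff W).1 h0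
  | insert a s _ ih =>
    obtain ⟨x, hx, x0, h⟩ := ih
    obtain ⟨k, hk⟩ := hn a
    have hk' : (N a ^ k) x = 0 := by rw [hk]; rfl
    clear hk
    induction k generalizing x with
    | zero => exact absurd hk' x0
    | succ k ih =>
      by_cases e : N a x = 0
      · exact ⟨x, hx, x0, fun b hb => (Finset.mem_insert.1 hb).elim (fun e' => e' ▸ e) (h b)⟩
      · refine ih (N a x) (hW a x hx) e (fun b hb => ?_) (by rwa [pow_succ] at hk')
        rw [← Module.End.mul_apply, (hc b a).eq, Module.End.mul_apply, h b hb, map_zero]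

omit [IsAlgClosed K] in
theorem van (α : E →+* K) {s : Finset ℕ} (hs : ∀ j ∈ s, j < Fintype.card E) {a : ℕ → K}
    (h : ∀ t, ∑ j ∈ s, α t ^ j * a j = 0) : ∀ j ∈ s, a j = 0 := by
  intro j hj
  have e : ∑ j ∈ s, Polynomial.monomial j (a j) = 0 :=
    Polynomial.eq_zero_of_natDegree_lt_card_of_eval_eq_zero _ α.injective
      (fun t => by simpa [Polynomial.eval_finsetSum, mul_comm] using h t)
      (lt_of_le_of_lt (Polynomial.natDegree_sum_le_of_forall_le (n := Fintype.card E - 1) s _ fun i hi =>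
        (Polynomial.natDegree_monomial_le _).trans (Nat.le_sub_one_of_lt (hs i hi)))
        (Nat.sub_one_lt Fintype.card_pos.ne'))
  simpa [Polynomial.coeff_monomial, hj] using congrArg (Polynomial.coeff · j) e

theorem exists_v0 (p : ℕ) [Fact p.Prime] [CharP K p] [CharP E p] (hQ : Nondeg Q)
    (σ : SL(2, E) →* O Q) (hi : Irr σ) (h1 : 1 < finrank K V) (γ : Eˣ) :
    ∃ (v : V) (l : K), v ≠ 0 ∧ polar Q v v = 0 ∧ (∀ t, (σ (u t)).1 v = v) ∧ (σ (h γ)).1 v = l • v := by
  have : Nontrivial V := Module.nontrivial_of_finrank_pos (R := K) (by omega)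
  let F : Submodule K V := ⨅ t : E, LinearMap.ker (en (σ (u t)) - 1)
  have mF : ∀ {x}, x ∈ F ↔ ∀ t, (σ (u t)).1 x = x := fun {x} => by simp only [F, Submodule.mem_iInf, eig_mem]
  have F1 : F ≠ ⊤ := fun e => by
    have hu : ∀ t, u t ∈ σ.ker := fun t => O_ext fun x => mF.1 (e ▸ Submodule.mem_top) t
    have hk : σ.ker = ⊤ := Classical.sl_eq_top_of_transvection_mem _ fun i j hij c => by
      fin_cases i <;> fin_cases j
      · exact absurd rfl hij
      · convert hu c using 1
        refine ext2 ?_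
        ext i j
        fin_cases i <;> fin_cases j <;> simp [u, Matrix.transvection, Matrix.SpecialLinearGroup.transvection]
      · convert σ.normal_ker.conj_mem _ (hu (-c)) w using 1
        refine eq_mul_inv_of_mul_eq (ext2 ?_)
        simp only [cm, uc, wc]
        ext i j
        fin_cases i <;> fin_cases j <;>
          simp [Matrix.transvection, Matrix.mul_apply, Matrix.SpecialLinearGroup.transvection]
      · exact absurd rfl hij
    obtain ⟨x, hx⟩ := exists_ne (0 : V)
    rcases hi (K ∙ x) (fun g y hy => by rwa [show σ g = 1 from hk.ge (mem_top g)]) with e | e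
    · exact hx (Submodule.span_singleton_eq_bot.1 e)
    · have := finrank_span_singleton (K := K) hx
      rw [e, finrank_top] at this
      omega
  have F2 : perp Q F ≠ ⊥ := fun e => F1 (Submodule.eq_top_of_finrank_eq (by
    have := finrank_perp hQ F
    rwa [e, finrank_bot] at this))
  have inv : ∀ g : O Q, (∀ x ∈ F, g⁻¹.1 x ∈ F) → ∀ x ∈ perp Q F, g.1 x ∈ perp Q F := fun g hg x hx =>
    mem_perp.2 fun y hy => by rw [← O_polar_inv_left]; exact mem_perp.1 hx _ (hg y hy)
  have : CharP (Module.End K V) p := charP_of_injective_algebraMap (algebraMap K _).injective p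
  have cu : ∀ a b : E, Commute (en (σ (u a))) (en (σ (u b))) := fun a b => by
    rw [Commute, SemiconjBy, ← en_mul, ← en_mul, ← map_mul, ← map_mul, ← u_add, ← u_add, add_comm]
  obtain ⟨x, hx, x0, hx'⟩ := nul (fun t : E => en (σ (u t)) - 1)
    (fun a b => ((cu a b).sub_left (Commute.one_left _)).sub_right (Commute.one_right _))
    (fun a => ⟨p, by
      rw [sub_pow_char_of_commute p (Commute.one_right _), ← en_pow, ← map_pow, u_pow, CharP.cast_eq_zero, zero_mul,
        u_zero, map_one, en_one, one_pow, sub_self]⟩)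
    (W := perp Q F) (fun a x hx => sub_mem (inv _ (fun y hy => by
      rw [O_inv_apply_eq _ (mF.1 hy a)]; exact hy) x hx) hx) F2 Finset.univ
  have hF : ∀ (s : Eˣ), ∀ y ∈ F, (σ (h s)).1 y ∈ F := fun s y hy => mF.2 fun t => by
    rw [← O_mul_apply, ← map_mul, u_h, map_mul, O_mul_apply, mF.1 hy]
  have hR : ∀ y ∈ F ⊓ perp Q F, en (σ (h γ)) y ∈ F ⊓ perp Q F := fun y hy =>
    ⟨hF γ y hy.1, inv _ (fun z hz => by
      rw [← map_inv, inv_eq_of_mul_eq_one_right ((h_mul γ γ⁻¹).symm.trans (by rw [mul_inv_cancel, h_one]))]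
      exact hF _ z hz) y hy.2⟩
  have : Nontrivial (F ⊓ perp Q F : Submodule K V) :=
    ⟨⟨⟨x, mF.2 fun t => eig_mem.1 (hx' t (Finset.mem_univ t)), hx⟩, 0, fun e => x0 (congrArg Subtype.val e)⟩⟩
  obtain ⟨l, hl⟩ := Module.End.exists_eigenvalue ((en (σ (h γ))).restrict hR)
  obtain ⟨v, hv⟩ := hl.exists_hasEigenvector
  exact ⟨v, l, fun e => hv.2 (Subtype.ext e), mem_perp.1 v.2.2 _ v.2.1, mF.1 v.2.1,
    congrArg Subtype.val hv.apply_eq_smul⟩

theorem exists_wt (p : ℕ) [Fact p.Prime] [CharP K p] [CharP E p] (hQ : Nondeg Q)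
    (σ : SL(2, E) →* O Q) (hi : Irr σ) (h1 : 1 < finrank K V) :
    ∃ (α : E →+* K) (n : ℕ) (v : V), 0 < n ∧ n < Fintype.card E ∧ v ≠ 0 ∧ polar Q v v = 0 ∧
      (∀ t, (σ (u t)).1 v = v) ∧ ∀ s : Eˣ, (σ (h s)).1 v = α s ^ n • v := by
  classical
  let _ := ZMod.algebra E p
  let _ := ZMod.algebra K p
  let α : E →+* K := (IsAlgClosed.lift : E →ₐ[ZMod p] K).toRingHom
  obtain ⟨γ, hγ⟩ := IsCyclic.exists_monoid_generator (α := Eˣ)
  obtain ⟨v, l, v0, vv, hu, hl⟩ := exists_v0 p hQ σ hi h1 γ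
  have c1 : 1 < Fintype.card E := Fintype.one_lt_card
  have ho : orderOf γ = Fintype.card E - 1 := by
    rw [orderOf_eq_card_of_forall_mem_powers hγ, Nat.card_eq_fintype_card, Fintype.card_units]
  have hp : IsPrimitiveRoot (α γ) (Fintype.card E - 1) :=
    ho ▸ (IsPrimitiveRoot.coe_units_iff.2 (IsPrimitiveRoot.orderOf γ)).map_of_injective α.injective
  have pw : ∀ k : ℕ, (σ (h (γ ^ k))).1 v = l ^ k • v := fun k => by
    induction k with
    | zero => rw [pow_zero, h_one, map_one, pow_zero, one_smul]; rfl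
    | succ k ih => rw [pow_succ, h_mul, map_mul, O_mul_apply, hl, map_smul, ih, smul_smul, pow_succ']
  have l1 : l ^ (Fintype.card E - 1) = 1 := by
    have := pw (orderOf γ)
    rw [pow_orderOf_eq_one, h_one, map_one, O_one_apply, ho] at this
    exact smul_left_injective K v0 (this.symm.trans (one_smul K v).symm)
  have : NeZero (Fintype.card E - 1) := ⟨by omega⟩
  obtain ⟨i, hi, e⟩ := hp.eq_pow_of_pow_eq_one l1
  obtain ⟨n, n0, n1, e'⟩ : ∃ n, 0 < n ∧ n < Fintype.card E ∧ α γ ^ n = l := by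
    rcases Nat.eq_zero_or_pos i with rfl | h
    · exact ⟨Fintype.card E - 1, by omega, by omega, by rw [hp.pow_eq_one, ← e, pow_zero]⟩
    · exact ⟨i, h, by omega, e⟩
  refine ⟨α, n, v, n0, n1, v0, vv, hu, fun s => ?_⟩
  obtain ⟨k, rfl⟩ := hγ s
  simp only
  rw [pw, ← e', Units.val_pow_eq_pow_val, map_pow, ← pow_mul, ← pow_mul, mul_comm]

omit [IsAlgClosed K] [FiniteDimensional K V] in
theorem dim (p : ℕ) [CharP K p] (hQ : Nondeg Q) {σ : SL(2, E) →* O Q} {α : E →+* K} {n : ℕ} {c : K}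
    {v : (Fin 2 → E) → V} (c0 : c ≠ 0) (n1 : n < Fintype.card E) (H : HW σ v fun d => c * α d ^ n) :
    finrank K V = ((Finset.range (n + 1)).filter fun j => ¬ p ∣ n.choose j).card := by
  classical
  set J := (Finset.range (n + 1)).filter fun j => ¬ p ∣ n.choose j with hJ
  let Φ : V →ₗ[K] ((Fin 2 → E) → K) := LinearMap.pi fun y => (polarBilin Q).flip (v y)
  have hΦ : ∀ x y, Φ x y = polar Q x (v y) := fun _ _ => rfl
  have inj : Function.Injective Φ := (injective_iff_map_eq_zero Φ).2 fun x hx => hQ x fun y => by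
    have : Submodule.span K (Set.range v) ≤ LinearMap.ker (polarBilin Q x) := Submodule.span_le.2 (by
      rintro _ ⟨z, rfl⟩
      exact congrFun hx z)
    exact this (H.span.ge Submodule.mem_top)
  let m : ℕ → (Fin 2 → E) → K := fun j y => α (y 1) ^ j * α (y 0) ^ (n - j)
  have ex : ∀ x, Φ (v x) = ∑ j ∈ J, (α (x 0) ^ j * (-α (x 1)) ^ (n - j) * (c * n.choose j)) • m j := fun x => by
    funext y
    rw [hΦ, H.gram, map_sub, map_mul, map_mul, sub_eq_add_neg, add_pow, Finset.mul_sum, Finset.sum_apply, hJ,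
      Finset.sum_filter]
    refine Finset.sum_congr rfl fun j _ => ?_
    split_ifs with h
    · rw [(CharP.cast_eq_zero_iff K p _).2 h, mul_zero, mul_zero]
    · simp only [m, Pi.smul_apply, smul_eq_mul]
      rw [← neg_mul, mul_pow, mul_pow]
      ring
  have hs : ∀ j ∈ J, j < Fintype.card E := fun j hj => by
    have := Finset.mem_range.1 (Finset.mem_filter.1 hj).1
    omega
  have li : LinearIndepOn K m (J : Set ℕ) := linearIndepOn_finset_iff.2 fun f hf => van α hs fun t => by
    simpa [m, mul_comm] using congrFun hf ![1, t]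
  have e : LinearMap.range Φ = Submodule.span K (Set.range fun j : (J : Set ℕ) => m j) := by
    rw [LinearMap.range_eq_map, ← H.span, Submodule.map_span]
    refine le_antisymm (Submodule.span_le.2 ?_) (Submodule.span_le.2 ?_)
    · rintro _ ⟨_, ⟨x, rfl⟩, rfl⟩
      rw [ex]
      exact Submodule.sum_mem _ fun j hj => Submodule.smul_mem _ _ (Submodule.subset_span ⟨⟨j, hj⟩, rfl⟩)
    · rintro _ ⟨⟨j, hj⟩, rfl⟩
      by_contra hn
      obtain ⟨φ, h1, h2⟩ := Submodule.exists_le_ker_of_notMem hn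
      have := van α hs (a := fun j => c * n.choose j * φ (m j)) (fun t => by
        have := h2 (Submodule.subset_span ⟨_, ⟨![t, -1], rfl⟩, rfl⟩)
        rw [LinearMap.mem_ker, ex, map_sum] at this
        simpa [mul_assoc] using this) j hj
      exact mul_ne_zero (mul_ne_zero c0 fun e =>
        (Finset.mem_filter.1 hj).2 ((CharP.cast_eq_zero_iff K p _).1 e)) h1 this
  rw [← LinearMap.finrank_range_of_inj inj, e, finrank_span_eq_card li]
  simp

end GrA

open GrA in
theorem gr (p : ℕ) [Fact p.Prime] [CharP K p] [CharP E p] (h2 : (2 : K) ≠ 0) (hQ : Nondeg Q)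
    (σ : SL(2, E) →* O Q) (hi : Irr σ) (h1 : 1 < finrank K V) (hm : σ (-1) = 1) :
    ∃ (α : E →+* K) (n : ℕ) (c : K) (v : (Fin 2 → E) → V), c ≠ 0 ∧ 0 < n ∧ n < Fintype.card E ∧
      Even n ∧ HW σ v (fun d => c * α d ^ n) ∧
      finrank K V = ((Finset.range (n + 1)).filter fun j => ¬ p ∣ n.choose j).card := by
  classical
  obtain ⟨α, n, v₀, n0, n1, v0, vv, hu, hh⟩ := exists_wt p hQ σ hi h1
  let v : (Fin 2 → E) → V := fun x => if hx : x = 0 then 0 else (σ (trans hx).choose).1 v₀
  have z0 : v 0 = 0 := dif_pos rfl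
  have e1 : (![1, 0] : Fin 2 → E) ≠ 0 := fun e => one_ne_zero (congrFun e 0)
  have mv : ∀ (g k : SL(2, E)) (x : Fin 2 → E), (g * k).1.mulVec x = g.1.mulVec (k.1.mulVec x) := fun g k x => by
    rw [Matrix.mulVec_mulVec]; rfl
  have iv : ∀ (g : SL(2, E)) (x : Fin 2 → E), g⁻¹.1.mulVec (g.1.mulVec x) = x := fun g x => by
    rw [← mv, inv_mul_cancel]; exact Matrix.one_mulVec x
  have key : ∀ g : SL(2, E), v (g.1.mulVec ![1, 0]) = (σ g).1 v₀ := fun g => by
    have hx : g.1.mulVec ![1, 0] ≠ 0 := fun e => e1 (by rw [← iv g ![1, 0], e, Matrix.mulVec_zero])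
    have e := (trans hx).choose_spec
    change dite _ _ _ = _
    rw [dif_neg hx]
    generalize (trans hx).choose = k at e
    have := stab (g := g⁻¹ * k) (by rw [mv, e, iv])
    rw [← mul_inv_cancel_left g k, this, map_mul, O_mul_apply, hu]
  have equi : ∀ g x, (σ g).1 (v x) = v (Matrix.mulVec g.1 x) := fun g x => by
    by_cases hx : x = 0
    · rw [hx, Matrix.mulVec_zero, z0, map_zero]
    · obtain ⟨k, rfl⟩ := trans hx
      rw [← mv, key, key, map_mul, O_mul_apply]
  have ve : v ![1, 0] = v₀ := by simpa using key 1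
  have span : Submodule.span K (Set.range v) = ⊤ := by
    refine (hi _ fun g x hx => ?_).resolve_left fun e => v0 ?_
    · have : Submodule.span K (Set.range v) ≤ (Submodule.span K (Set.range v)).comap (en (σ g)) :=
        Submodule.span_le.2 (by
          rintro _ ⟨z, rfl⟩
          exact Submodule.subset_span ⟨_, (equi g z).symm⟩)
      exact this hx
    · exact (Submodule.mem_bot K).1 (e ▸ Submodule.subset_span ⟨_, ve⟩)
  have g1 : ∀ y, polar Q v₀ (v y) = polar Q v₀ ((σ w).1 v₀) * α (y 1) ^ n := fun y => by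
    by_cases hy : y = 0
    · rw [hy, z0]; simp [n0.ne']
    rcases orb hy with ⟨s, e, rfl⟩ | ⟨s, t, e, rfl⟩
    · rw [e, key, hh, polar_smul_right, vv]; simp [n0.ne']
    · rw [e, key, map_mul, map_mul, O_mul_apply, O_mul_apply, hh, map_smul, map_smul, polar_smul_right,
        ← O_polar (σ (u t)) v₀ ((σ w).1 v₀), hu, smul_eq_mul, mul_comm]
  have gram : ∀ x y, polar Q (v x) (v y) = polar Q v₀ ((σ w).1 v₀) * α (x 0 * y 1 - x 1 * y 0) ^ n := fun x y => by
    by_cases hx : x = 0
    · rw [hx, z0]; simp [n0.ne']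
    obtain ⟨k, rfl⟩ := trans hx
    rw [key, O_polar_left, ← map_inv, equi, g1]
    congr 3
    rw [Matrix.SpecialLinearGroup.coe_inv, Matrix.adjugate_fin_two]
    simp [Matrix.mulVec, dotProduct]
    ring
  have c0 : polar Q v₀ ((σ w).1 v₀) ≠ 0 := fun e => v0 (hQ v₀ fun y => by
    have : Submodule.span K (Set.range v) ≤ LinearMap.ker (polarBilin Q v₀) := Submodule.span_le.2 (by
      rintro _ ⟨z, rfl⟩
      exact (g1 z).trans (by rw [e, zero_mul]))
    exact this (span.ge Submodule.mem_top))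
  have ev : Even n := eig_even h2 (by
    have := hh (-1)
    rw [show h (-1 : Eˣ) = -1 from ext2 (by simp [h, Matrix.one_fin_two]), hm, O_one_apply] at this
    simpa using smul_left_injective K v0 (this.symm.trans (one_smul K v₀).symm))
  exact ⟨α, n, _, v, c0, n0, n1, ev, ⟨equi, span, gram⟩, dim p hQ c0 n1 ⟨equi, span, gram⟩⟩

end CfsgLib.O7
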