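import Cfsg.Agent.Lib.O7.Base

/-!
GROW: an `Ω₃(q)`, `q ≥ 5`, inside the reflection group generates everything.  See `plans/O7B.md`.
-/

set_option autoImplicit false

namespace CfsgLib.O7

open CfsgLib.OrthE CfsgLib.OMax Module QuadraticMap Subgroup

variable {F V : Type*} [Field F] [Finite F] [AddCommGroup V] [Module F V] [FiniteDimensional F V]
  {Q : QuadraticForm F V} {H P : Subgroup (O Q)} {R : Set V}

section mv

variable {N : Subgroup (O Q)} {Z : Submodule F V}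

/-- an element of `N` fixing `Z^⊥` moves `a` to `b` -/
def Mv (N : Subgroup (O Q)) (Z : Submodule F V) (a b : V) : Prop :=
  ∃ n ∈ N, (∀ w ∈ perp Q Z, n.1 w = w) ∧ n.1 a = b

omit [Finite F] [FiniteDimensional F V] in
theorem Mv.trans {a b c : V} (h : Mv N Z a b) (h' : Mv N Z b c) : Mv N Z a c := by
  obtain ⟨n, h1, h2, rfl⟩ := h
  obtain ⟨k, k1, k2, rfl⟩ := h'
  exact ⟨k * n, mul_mem k1 h1, fun w hw => by rw [O_mul_apply, h2 w hw, k2 w hw], rfl⟩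

omit [Finite F] [FiniteDimensional F V] in
theorem grow_pol (u v : Z) : polar (Q.comp Z.subtype) u v = polar Q (u : V) v := rfl

omit [Finite F] [FiniteDimensional F V] in
theorem grow_nd (hZ : ND Q Z) : Nondeg (Q.comp Z.subtype) := fun x hx =>
  Subtype.ext (nd_iff.1 hZ x x.2 fun y hy => hx ⟨y, hy⟩)

omit [Finite F] [FiniteDimensional F V] in
theorem grow_lift (hE : EIn N Z) {g : O (Q.comp Z.subtype)} (hg : g ∈ E (Q.comp Z.subtype)) :
    ∃ n ∈ N, (∀ w ∈ perp Q Z, n.1 w = w) ∧ ∀ z : Z, n.1 z = g.1 z := by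
  let K : Subgroup (O (Q.comp Z.subtype)) :=
    { carrier := {g | ∃ n ∈ N, (∀ w ∈ perp Q Z, n.1 w = w) ∧ ∀ z : Z, n.1 z = g.1 z}
      mul_mem' := by
        rintro a b ⟨n, h1, h2, h3⟩ ⟨k, k1, k2, k3⟩
        exact ⟨n * k, mul_mem h1 k1, fun w hw => by rw [O_mul_apply, k2 w hw, h2 w hw],
          fun z => by rw [O_mul_apply, k3, h3, O_mul_apply]⟩
      one_mem' := ⟨1, one_mem _, fun _ _ => rfl, fun _ => rfl⟩
      inv_mem' := by
        rintro a ⟨n, h1, h2, h3⟩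
        exact ⟨n⁻¹, inv_mem h1, fun w hw => O_inv_apply_eq n (h2 w hw),
          fun z => O_inv_apply_eq n (by rw [h3, O_apply_inv_apply])⟩ }
  refine E_le (H := K) (fun u v hu huv => ?_) hg
  refine ⟨eich Q u v, (hE u u.2 hu v v.2 huv).mem,
    fun w hw => eich_apply_of_orth (pc (hw u u.2)) (pc (hw v v.2)), fun z => ?_⟩
  rw [eich_apply hu huv, eich_apply (Q := Q) (u := u) (v := v) hu huv]
  simp [grow_pol]

theorem grow_hyp (hZ : ND Q Z) (h3 : 3 ≤ finrank F Z) : ∃ e f, Hyp (Q.comp Z.subtype) e f ∧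
    ∃ w, polar (Q.comp Z.subtype) w e = 0 ∧ polar (Q.comp Z.subtype) w f = 0 ∧
      (Q.comp Z.subtype) w ≠ 0 := by
  obtain ⟨e, f, h⟩ := (grow_nd hZ).exists_hyp_of_three h3
  exact ⟨e, f, h, h.exists_nonsingular (grow_nd hZ) h3⟩

theorem grow_mv (hZ : ND Q Z) (h3 : 3 ≤ finrank F Z) (hE : EIn N Z) {g : O (Q.comp Z.subtype)}
    (hg : g ∈ commutator (O (Q.comp Z.subtype))) (a : Z) : Mv N Z a (g.1 a) := by
  obtain ⟨e, f, h, hW⟩ := grow_hyp hZ h3
  obtain ⟨n, h1, h2, h4⟩ := grow_lift hE (h.commutator_le_E (grow_nd hZ) hW hg)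
  exact ⟨n, h1, h2, h4 a⟩

theorem mv_sing (hZ : ND Q Z) (h3 : 3 ≤ finrank F Z) (hE : EIn N Z) {x y : V} (hx : x ∈ Z) (hy : y ∈ Z)
    (x0 : x ≠ 0) (y0 : y ≠ 0) (xs : Q x = 0) (ys : Q y = 0) : ∃ b : F, b ≠ 0 ∧ Mv N Z x (b • y) := by
  obtain ⟨e, f, h, hW⟩ := grow_hyp hZ h3
  obtain ⟨g, hg, b, hb, e1⟩ := h.exists_E_singular (grow_nd hZ) hW (x := ⟨x, hx⟩) (y := ⟨y, hy⟩)
    (fun k => x0 (congrArg Subtype.val k)) (fun k => y0 (congrArg Subtype.val k)) xs ys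
  obtain ⟨n, h1, h2, h4⟩ := grow_lift hE hg
  exact ⟨b, hb, n, h1, h2, (h4 ⟨x, hx⟩).trans (congrArg Subtype.val e1)⟩

theorem mv_tor (hZ : ND Q Z) (h3 : 3 ≤ finrank F Z) (hE : EIn N Z) {x : V} (hx : x ∈ Z) (x0 : x ≠ 0)
    (xs : Q x = 0) {t : F} (ht : t ≠ 0) : Mv N Z x ((t * t) • x) := by
  obtain ⟨y, hy, ys, hxy⟩ := exists_partner hZ hx x0 xs
  obtain ⟨g, hg, e1, -⟩ := exists_tor (grow_nd hZ) (x := ⟨x, hx⟩) (y := ⟨y, hy⟩) xs ys hxy ht
  have := grow_mv hZ h3 hE hg ⟨x, hx⟩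
  rwa [e1] at this

theorem mv_ns (hQ : Nondeg Q) (h2 : (2 : F) ≠ 0) (hZ : ND Q Z) (h3 : 3 ≤ finrank F Z) (hE : EIn N Z)
    {a b : V} (ha : a ∈ Z) (hb : b ∈ Z) (a0 : Q a ≠ 0) (hab : Q b = Q a) : Mv N Z a b := by
  have key : ∀ a ∈ Z, ∀ b ∈ Z, Q a ≠ 0 → Q b = Q a → Q (a - b) ≠ 0 → Mv N Z a b := fun a ha b hb a0 e h0 => by
    obtain ⟨c, hc, c1, c2⟩ := exists_norm_polar hQ h2 hZ h3 ha a0 (Q (a - b)) 0
    have := grow_mv hZ h3 hE (refl_mul_refl_mem' (grow_nd hZ) (a := (⟨a, ha⟩ - ⟨b, hb⟩ : Z)) (b := ⟨c, hc⟩) h0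
      (by exact c1)) ⟨a, ha⟩
    rwa [O_mul_apply, refl_apply_of_orth (v := (⟨c, hc⟩ : Z)) c2,
      refl_sub_apply (Q := Q.comp Z.subtype) (x := ⟨a, ha⟩) (y := ⟨b, hb⟩) e.symm h0] at this
  by_cases h0 : Q (a - b) = 0
  · refine (key a ha (-b) (Z.neg_mem hb) a0 (by rw [Q_neg, hab]) fun h1 => ?_).trans
      (key _ (Z.neg_mem hb) b hb (by rwa [Q_neg, hab]) (Q_neg Q b).symm fun h1 => ?_)
    · rw [Q_sub, hab] at h0
      rw [Q_sub, Q_neg, polar_neg_right, hab] at h1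
      exact mul_ne_zero h2 (mul_ne_zero h2 a0) (by linear_combination h0 + h1)
    · rw [Q_sub, Q_neg, polar_neg_left, polar_self', hab] at h1
      exact mul_ne_zero h2 (mul_ne_zero h2 a0) (by linear_combination h1)
  · exact key a ha b hb a0 hab h0

end mv

/-- moving the centre inside `Z` -/
theorem ea_move (hQ : Nondeg Q) {N : Subgroup (O Q)} {Z : Submodule F V} (hZ : ND Q Z)
    (h3 : 3 ≤ finrank F Z) (hE : EIn N Z) {b z : V} (hb : b ∈ perp Q Z) (hz : z ∈ Z) (hz0 : z ≠ 0)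
    (h : ∀ κ : F, EA N z (κ • b)) {y : V} (hy : y ∈ Z) (hys : Q y = 0) (κ : F) :
    EA N y (κ • b) := by
  have _ := hQ
  by_cases y0 : y = 0
  · subst y0
    exact ⟨hys, polar_zero_left Q _, by rw [eich_zero_left]; exact one_mem _⟩
  obtain ⟨c, hc, n, h1, h2, e⟩ := mv_sing hZ h3 hE hz hy hz0 y0 (h 0).sing hys
  have := (h (c⁻¹ * κ)).conj h1
  rw [e, h2 _ (Submodule.smul_mem _ _ hb)] at this
  exact (this.of_smul_left hc).congr (by rw [smul_smul, mul_inv_cancel_left₀ hc])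

/-- if the components in `Z^⊥` of all roots not orthogonal to `Z` are directions, we are done -/
theorem RS.grow_fin (h : RS Q H P R) {Z : Submodule F V} (hZ : ND Q Z) (h3 : 3 ≤ finrank F Z)
    (hE : EIn (RG Q R) Z) (hx : ∀ x₁ ∈ Z, ∀ x₂ ∈ perp Q Z, x₁ ≠ 0 → x₁ + x₂ ∈ R →
      ∃ z ∈ Z, z ≠ 0 ∧ ∀ κ : F, EA (RG Q R) z (κ • x₂)) : False := by
  let B : Submodule F V :=
    { carrier := {b | b ∈ perp Q Z ∧ ∀ y ∈ Z, Q y = 0 → ∀ κ : F, EA (RG Q R) y (κ • b)}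
      add_mem' := fun {a b} ha hb => ⟨add_mem ha.1 hb.1, fun y hy ys κ =>
        ((ha.2 y hy ys κ).add (hb.2 y hy ys κ)).congr (smul_add _ _ _).symm⟩
      zero_mem' := ⟨zero_mem _, fun y _ ys κ => (EA.zero ys).congr (smul_zero _).symm⟩
      smul_mem' := fun c a ha => ⟨Submodule.smul_mem _ _ ha.1, fun y hy ys κ =>
        (ha.2 y hy ys (κ * c)).congr (smul_smul _ _ _).symm⟩ }
  obtain ⟨x, hxZ, x0, xs⟩ := RootMax.quad_exists_sing Q h3
  have top : Z ⊔ B = ⊤ := (h.irr' (Z ⊔ B) fun u hu v hv => by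
    by_cases hp : u ∈ perp Q Z
    · obtain ⟨z, hz, b, hb, rfl⟩ := Submodule.mem_sup.1 hv
      have fz : ∀ z ∈ Z, (refl Q u).1 z = z := fun z hz => refl_apply_of_orth (hp z hz)
      rw [map_add, fz z hz]
      refine Submodule.add_mem_sup hz ⟨?_, fun y hy ys κ => ?_⟩
      · rw [h.refl_ap hu]
        exact sub_mem hb.1 (Submodule.smul_mem _ _ hp)
      · have := (hb.2 y hy ys κ).conj_fix (h.rc hu).2 (fz y hy)
        rwa [map_smul] at this
    · obtain ⟨a, ha, c, hc, rfl⟩ := decomp h.nd hZ u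
      have c0 : c ≠ 0 := fun e => hp (by rwa [e, add_zero])
      obtain ⟨z, hz, z0, k⟩ := hx c hc a ha c0 (add_comm a c ▸ hu)
      rw [h.refl_ap hu]
      refine sub_mem hv (Submodule.smul_mem _ _ (add_comm c a ▸ Submodule.add_mem_sup hc ?_))
      exact ⟨ha, fun y hy ys κ => ea_move h.nd hZ h3 hE ha hz z0 k hy ys κ⟩).resolve_left
    fun e => x0 (by simpa [e] using (Submodule.mem_sup_left hxZ : x ∈ Z ⊔ B))
  have full : ∀ y ∈ Z, Q y = 0 → EFull (RG Q R) y := fun y hy ys a ha => by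
    obtain ⟨z, hz, b, hb, rfl⟩ := Submodule.mem_sup.1 (top ▸ Submodule.mem_top (x := a))
    rw [polar_add_right, mem_perp.1 hb.1 y hy, add_zero] at ha
    exact (hE y hy ys z hz ha).add ((hb.2 y hy ys 1).congr (one_smul _ _))
  obtain ⟨y, hy, ys, hxy⟩ := exists_partner hZ hxZ x0 xs
  exact h.notE (E_le_of_two h.nd (by rw [h.dim]; norm_num) xs ys (full x hxZ xs) (full y hy ys)
    (by rw [hxy]; exact one_ne_zero))

section cases

variable {Z : Submodule F V} {x₁ x₂ : V}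

theorem RS.grow_root (h : RS Q H P R) (h2 : x₂ ∈ perp Q Z) (hx : x₁ + x₂ ∈ R) {y : V}
    (m : Mv (RG Q R) Z x₁ y) : y + x₂ ∈ R := by
  obtain ⟨n, n1, n2, rfl⟩ := m
  have := h.rg_inv n1 hx
  rwa [map_add, n2 _ h2] at this

/-- case (H) -/
theorem RS.grow_H (h : RS Q H P R) (hE : EIn (RG Q R) Z) (h1 : x₁ ∈ Z) (h2 : x₂ ∈ perp Q Z)
    (hx : x₁ + x₂ ∈ R) {z a : V} (hz : z ∈ Z) (zs : Q z = 0) (zx : polar Q z x₁ = 0) (ha : a ∈ Z)
    (za : polar Q z a = 0) (ax : polar Q a x₁ ≠ 0) (κ : F) : EA (RG Q R) z (κ • x₂) := by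
  by_cases k0 : κ = 0
  · exact (EA.zero zs).congr (by rw [k0, zero_smul])
  have z2 : polar Q z (x₁ + x₂) = 0 := by rw [polar_add_right, zx, mem_perp.1 h2 z hz, add_zero]
  have zt : polar Q z ((κ / polar Q a x₁) • a) = 0 := by simp [za]
  have r1 := h.rg_inv (hE z hz zs _ (Z.smul_mem _ ha) zt).mem hx
  rw [eich_apply_of_orth_left zs zt (pc z2), polar_smul_right, polar_comm Q _ a, polar_add_right,
    mem_perp.1 h2 a ha, add_zero, smul_eq_mul, div_mul_cancel₀ _ ax] at r1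
  have r2 := (h.ea hx (by simp [Q_smul, zs]) (by rw [polar_smul_left, z2, smul_zero]) r1).of_smul_left k0
  exact (r2.sub (hE z hz zs _ (Z.smul_mem κ h1) (by simp [zx]))).congr (by module)

theorem grow_add (h2 : (2 : F) ≠ 0) (h5 : 5 ≤ Nat.card F) {p : F → Prop}
    (hs : ∀ a b, p a → p b → p (a - b)) (hp : ∀ t, t ≠ 0 → p (t * t - 1)) (c : F) : p c := by
  classical
  have h4 : (4 : F) ≠ 0 := fun h => h2 (pow_eq_zero_iff two_ne_zero |>.1 (by linear_combination h))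
  have k : ∀ c, c ≠ 4 → c ≠ -4 → p c := fun c c1 c2 => by
    have := hs _ _ (hp (c / 4 + 1) fun e => c2 (by field_simp at e; linear_combination e))
      (hp (c / 4 - 1) fun e => c1 (by field_simp at e; linear_combination e))
    convert this using 1
    field_simp
    ring
  have := Fintype.ofFinite F
  obtain ⟨b, -, hb⟩ := Finset.exists_mem_notMem_of_card_lt_card (s := {4, -4, 0, -8})
    (t := (Finset.univ : Finset F)) (lt_of_le_of_lt Finset.card_le_four (by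
      rw [Finset.card_univ, ← Nat.card_eq_fintype_card]; omega))
  simp only [Finset.mem_insert, Finset.mem_singleton, not_or] at hb
  have p4 : p 4 := by
    have := hs _ _ (k (b + 4) (fun e => hb.2.2.1 (by linear_combination e))
      fun e => hb.2.2.2 (by linear_combination e)) (k b hb.1 hb.2.1)
    rwa [add_sub_cancel_left] at this
  by_cases c1 : c = 4
  · exact c1 ▸ p4
  by_cases c2 : c = -4
  · have := hs _ _ (hs _ _ p4 p4) p4
    rwa [sub_self, zero_sub, ← c2] at this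
  exact k c c1 c2

/-- case (S) -/
theorem RS.grow_S (h : RS Q H P R) (h5 : 5 ≤ Nat.card F) (hZ : ND Q Z) (h3 : 3 ≤ finrank F Z)
    (hE : EIn (RG Q R) Z) (h1 : x₁ ∈ Z) (h2 : x₂ ∈ perp Q Z) (hx : x₁ + x₂ ∈ R) (x0 : x₁ ≠ 0)
    (xs : Q x₁ = 0) (κ : F) : EA (RG Q R) x₁ (κ • x₂) := by
  refine grow_add h.two h5 (p := fun κ => EA (RG Q R) x₁ (κ • x₂))
    (fun a b ha hb => (ha.sub hb).congr (sub_smul _ _ _).symm) (fun t ht => ?_) κ
  by_cases k0 : t * t - 1 = 0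
  · exact (EA.zero xs).congr (by rw [k0, zero_smul])
  have r1 := h.grow_root h2 hx (mv_tor hZ h3 hE h1 x0 xs ht)
  have r2 := (h.ea hx (z := (t * t - 1) • x₁) (by simp [Q_smul, xs])
    (by simp [pself xs, mem_perp.1 h2 x₁ h1]) (by convert r1 using 1; module)).of_smul_left k0
  exact (r2.sub_self (t * t - 1)).congr (by module)

end cases

theorem RS.grow5 (h : RS Q H P R) {Z : Submodule F V} (hZ : ND Q Z) (h5 : 5 ≤ finrank F Z)
    (hE : EIn (RG Q R) Z) : False := by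
  refine h.grow_fin hZ (by omega) hE fun x₁ h1 x₂ h2 x0 hx => ?_
  obtain ⟨u, hu, e⟩ := exists_polar_eq hZ h1 x0 1
  obtain ⟨z, hz, z0, zs, k⟩ := exists_sing_orth h.nd Z [x₁, u] (by simpa using h5)
  obtain ⟨a, ha, a1, a2⟩ := exists_dual_mem h.nd hZ (H := Submodule.span F {z})
    ((Submodule.span_singleton_le_iff_mem _ _).2 hz) h1 fun m => by
      obtain ⟨c, rfl⟩ := Submodule.mem_span_singleton.1 m
      simp [pc (k u (by simp))] at e
  exact ⟨z, hz, z0, h.grow_H hE h1 h2 hx hz zs (pc (k x₁ (by simp))) ha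
    (pc (a2 z (Submodule.mem_span_singleton_self z))) (by rw [a1]; exact one_ne_zero)⟩

theorem grow_conic (h2 : (2 : F) ≠ 0) (hB : BigS F) {m ε : F} (hm : m ≠ 0) (hε : ε ≠ 0) :
    ∃ d e : F, d ≠ 0 ∧ d ≠ 2 ∧ d * d * m + e * e * ε = 1 := by
  have key : ∃ d e : F, d ≠ 0 ∧ d * d * m + e * e * ε = 1 := by
    obtain ⟨d, e, k⟩ := Orth.exists_sq_add_sq_eq hm hε 1
    by_cases d0 : d = 0
    · obtain ⟨l, l0, hl⟩ := hB.exists_ne m hε
      have k' : e * e * ε = 1 := by rw [d0] at k; linear_combination k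
      have e0 : e ≠ 0 := by rintro rfl; simp at k'
      refine ⟨-(2 * ε * e * l) / (m + l * l * ε), e + l * (-(2 * ε * e * l) / (m + l * l * ε)),
        div_ne_zero (neg_ne_zero.2 (by simp [h2, hε, e0, l0])) hl, ?_⟩
      have k2 := div_mul_cancel₀ (-(2 * ε * e * l)) hl
      linear_combination k' + (-(2 * ε * e * l) / (m + l * l * ε)) * k2
    · exact ⟨d, e, d0, k⟩
  obtain ⟨d, e, d0, k⟩ := key
  by_cases d2 : d = 2
  · refine ⟨-d, e, neg_ne_zero.2 d0, fun k' => mul_ne_zero h2 h2 ?_, by linear_combination k⟩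
    linear_combination -k' - d2
  · exact ⟨d, e, d0, d2, k⟩

theorem RS.grow (h : RS Q H P R) (h5 : 5 ≤ Nat.card F) {Z : Submodule F V} (hZ : ND Q Z)
    (h3 : finrank F Z = 3) (hE : EIn (RG Q R) Z) : False := by
  refine h.grow_fin hZ h3.ge hE fun x₁ h1 x₂ h2 x0 hx => ?_
  by_cases xs : Q x₁ = 0
  · exact ⟨x₁, h1, x0, h.grow_S h5 hZ h3.ge hE h1 h2 hx x0 xs⟩
  obtain ⟨z, f, hf, w, w1, -, w3⟩ := grow_hyp hZ h3.ge
  have z0 : (z : V) ≠ 0 := fun e => hf.e_ne (Subtype.ext e)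
  have zs : Q z = 0 := hf.he
  have p12 : ∀ y ∈ Z, polar Q y x₂ = 0 := mem_perp.1 h2
  have one : Q x₁ + Q x₂ = 1 := by rw [← h.one _ hx, Q_add, p12 _ h1, add_zero]
  by_cases m0 : Q x₂ = 0
  · have r1 := h.neg _ (h.grow_root h2 hx (mv_ns h.nd h.two hZ h3.ge hE h1 (Z.neg_mem h1) xs (Q_neg Q _)))
    have n2 : (-2 : F) ≠ 0 := neg_ne_zero.2 h.two
    have r2 := (h.ea hx (z := (-2 : F) • x₂) (by simp [Q_smul, m0])
      (by simp [pself m0, pc (p12 _ h1)]) (by convert r1 using 1; module)).of_smul_left n2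
    refine ⟨z, z.2, z0, fun κ => EA.swap_smul (EA.of_irr h.nd hZ h3.ge hE h2 r2 (fun k => x0 ?_) _
      (Z.smul_mem κ z.2)) zs (pc (p12 _ z.2))⟩
    have k2 : x₁ + x₂ ∈ perp Q Z := (Submodule.smul_mem_iff _ n2).1 k
    exact Submodule.disjoint_def.1 hZ x₁ h1 (by simpa using sub_mem k2 h2)
  have w0 : Q w ≠ 0 := w3
  obtain ⟨d, e, d0, d2, k⟩ := grow_conic h.two (big_of_card (by omega)) m0 w0
  obtain ⟨y, hy, y1, y2⟩ := exists_norm_polar h.nd h.two hZ h3.ge h1 xs (Q x₁) (1 - d - 2 * Q x₂)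
  have r1 := h.ref _ hx _ (h.grow_root h2 hx (mv_ns h.nd h.two hZ h3.ge hE h1 hy xs y1))
  have c1 : polar Q (y + x₂) (x₁ + x₂) = 1 - d := by
    rw [polar_add_left, polar_add_right, polar_add_right, polar_comm Q y x₁, y2, p12 _ hy, pc (p12 _ h1),
      polar_self']
    ring
  have r2 : y - (1 - d) • x₁ + d • x₂ ∈ R := by
    rw [h.refl_ap hx, c1] at r1
    convert r1 using 1; module
  have hx' : y - (1 - d) • x₁ ∈ Z := Z.sub_mem hy (Z.smul_mem _ h1)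
  have h2' : d • x₂ ∈ perp Q Z := Submodule.smul_mem _ _ h2
  have q1 : Q (y - (1 - d) • x₁) = e * e * Q w := by
    have := h.one _ r2
    rw [Q_add, mem_perp.1 h2' _ hx', Q_smul] at this
    linear_combination this - k
  suffices ∃ z ∈ Z, z ≠ 0 ∧ ∀ κ : F, EA (RG Q R) z (κ • d • x₂) by
    obtain ⟨z, hz, z0, k⟩ := this
    exact ⟨z, hz, z0, fun κ => (k (κ * d⁻¹)).congr (by rw [smul_smul, inv_mul_cancel_right₀ d0])⟩
  by_cases e0 : e = 0
  · have n0 : y - (1 - d) • x₁ ≠ 0 := fun k' => by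
      rw [sub_eq_zero] at k'
      rw [k', Q_smul] at y1
      exact mul_ne_zero (mul_ne_zero d0 (sub_ne_zero.2 d2)) xs (by linear_combination y1)
    exact ⟨_, hx', n0, h.grow_S h5 hZ h3.ge hE hx' h2' r2 n0 (by rw [q1, e0]; ring)⟩
  · have hw : e • (w : V) ∈ Z := Z.smul_mem _ w.2
    have r3 := h.grow_root h2' r2 (mv_ns h.nd h.two hZ h3.ge hE hx' hw
      (by rw [q1]; simp [e0, w0]) (by rw [q1, Q_smul]))
    have zw : polar Q (z : V) w = 0 := pc w1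
    exact ⟨z, z.2, z0, h.grow_H hE hw h2' r3 z.2 zs (by simp [zw]) w.2 zw
      (by simp [e0, w0, h.two])⟩

end CfsgLib.O7
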