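import Cfsg.Agent.Lib.O7.Defs
import Cfsg.Agent.Lib.Sect.Tools

/-!
SR, first part: 2-groups of isometries of a space of dimension at most four.  See `plans/O7B.md`.
-/

set_option autoImplicit false

namespace CfsgLib.O7

open CfsgLib.OrthE CfsgLib.OMax Module QuadraticMap Subgroup CfsgLib.Sect

variable {K V : Type*} [Field K] [AddCommGroup V] [Module K V] {Q : QuadraticForm K V}

section grp

variable {S : Type*} [Group S] (σ : S →* O Q)

theorem sr_mul (g k : S) (x : V) : (σ (g * k)).1 x = (σ g).1 ((σ k).1 x) := by rw [map_mul]; rfl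

theorem sr_one (x : V) : (σ 1).1 x = x := by rw [map_one]; rfl

theorem sr_inv (g : S) (x : V) : (σ g⁻¹).1 ((σ g).1 x) = x := by rw [← sr_mul, inv_mul_cancel, sr_one]

theorem sr_inv' (g : S) (x : V) : (σ g).1 ((σ g⁻¹).1 x) = x := by rw [← sr_mul, mul_inv_cancel, sr_one]

variable {σ} [Finite S]

theorem sr_sub {n : ℕ} {T : Subgroup S} (h : SR n (⊤ : Subgroup T)) : SR n T := by
  have := h.map T.subtype
  rwa [← MonoidHom.range_eq_map, range_subtype] at this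

/-- groups acting diagonally -/
theorem sr_diag {β : Type} [Fintype β] (u : β → V) {T : Subgroup S}
    (h1 : ∀ g ∈ T, ∀ i, ∃ c : K, (σ g).1 (u i) = c • u i)
    (h2 : ∀ g ∈ T, (∀ i, (σ g).1 (u i) = u i) → g = 1) : SR (2 ^ Fintype.card β) T := by
  classical
  have ext : ∀ a ∈ T, ∀ b ∈ T, (∀ i, (σ a).1 (u i) = (σ b).1 (u i)) → a = b := fun a ha b hb h =>
    (inv_mul_eq_one.1 (h2 (b⁻¹ * a) (mul_mem (inv_mem hb) ha) fun i => by rw [sr_mul, h, sr_inv])).symm
  have comm : ∀ a ∈ T, ∀ b ∈ T, a * b = b * a := fun a ha b hb =>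
    ext _ (mul_mem ha hb) _ (mul_mem hb ha) fun i => by
      obtain ⟨c, hc⟩ := h1 a ha i
      obtain ⟨d, hd⟩ := h1 b hb i
      rw [sr_mul, sr_mul, hc, hd, map_smul, map_smul, hc, hd, smul_comm]
  let C : Subgroup S :=
    { carrier := {a | a ∈ T ∧ a * a = 1}
      one_mem' := ⟨one_mem _, mul_one _⟩
      mul_mem' := fun {a b} ha hb => ⟨mul_mem ha.1 hb.1, by
        rw [mul_assoc, ← mul_assoc b, comm b hb.1 a ha.1, mul_assoc, hb.2, mul_one, ha.2]⟩
      inv_mem' := fun {a} ha => ⟨inv_mem ha.1, by rw [← mul_inv_rev, ha.2, inv_one]⟩ }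
  have pm : ∀ a ∈ C, ∀ i, (σ a).1 (u i) ≠ u i → (σ a).1 (u i) = -u i := fun a ha i h => by
    obtain ⟨c, hc⟩ := h1 a ha.1 i
    have e : (c * c) • u i = u i := by rw [mul_smul, ← hc, ← map_smul, ← hc, ← sr_mul, ha.2, sr_one]
    have c1 : c - 1 ≠ 0 := fun e => h (by rw [hc, sub_eq_zero.1 e, one_smul])
    have : (c - 1) • ((c + 1) • u i) = 0 := by
      rw [smul_smul, show (c - 1) * (c + 1) = c * c - 1 by ring, sub_smul, e, one_smul, sub_self]
    have := (smul_eq_zero.1 this).resolve_left c1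
    rw [hc, eq_neg_iff_add_eq_zero, ← this, add_smul, one_smul]
  intro H hH L hL
  refine (swap (C := C) (fun a => a * a) (fun a ha => mem_inf.2 ⟨hL a ha, mul_mem ha ha⟩)
    fun a ha b hb e => ⟨mul_mem (inv_mem (hH ha)) (hH hb), ?_⟩).trans ?_
  · have e' : a * a = b * b := e
    rw [mul_assoc, ← mul_assoc b, comm b (hH hb) _ (inv_mem (hH ha)), mul_assoc, ← e']
    group
  refine (Nat.card_le_card_of_injective (fun a : ↥(C ⊓ H) => fun i => decide ((σ a).1 (u i) = u i))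
    fun a b e => Subtype.ext (ext _ a.2.1.1 _ b.2.1.1 fun i => ?_)).trans (by simp)
  have := decide_eq_decide.1 (congrFun e i)
  by_cases h : (σ a).1 (u i) = u i
  · rw [h, this.1 h]
  · rw [pm _ a.2.1 i h, pm _ b.2.1 i fun h' => h (this.2 h')]

/-- groups permuting subspaces -/
theorem sr_perm {ι : Type} [Finite ι] (D : ι → Submodule K V) (h0 : ∀ i, D i ≠ ⊥)
    (hu : ∀ i j x, x ≠ 0 → x ∈ D i → x ∈ D j → i = j) (hp : ∀ g i, ∃ j, ∀ x ∈ D i, (σ g).1 x ∈ D j) {a b : ℕ}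
    (hb : SR b (⊤ : Subgroup (Equiv.Perm ι)))
    (ha : ∀ T : Subgroup S, (∀ g ∈ T, ∀ i, ∀ x ∈ D i, (σ g).1 x ∈ D i) → SR a T) :
    SR (a * b) (⊤ : Subgroup S) := by
  choose p hp using hp
  have key : ∀ g i j, (∀ x ∈ D i, (σ g).1 x ∈ D j) → p g i = j := fun g i j h => by
    obtain ⟨x, hx, x0⟩ := (Submodule.ne_bot_iff _).1 (h0 i)
    exact hu _ _ _ (O_apply_ne_zero _ x0) (hp g i x hx) (h x hx)
  let _ : MulAction S ι :=
    { smul := p
      one_smul := fun i => key 1 i i fun x hx => by rwa [sr_one]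
      mul_smul := fun g k i => key _ _ _ fun x hx => by rw [sr_mul]; exact hp _ _ _ (hp _ _ _ hx) }
  refine SR.ext (MulAction.toPermHom S ι) (ha _ fun g hg i x hx => ?_) (hb.mono le_top)
  have e : p g i = i := congrArg (fun f : Equiv.Perm ι => f i) (MonoidHom.mem_ker.1 (mem_inf.1 hg).2)
  have := hp g i x hx
  rwa [e] at this

theorem sr_s2 : SR 2 (⊤ : Subgroup (Equiv.Perm Bool)) :=
  (SR.of_card _).le (by simp [Fintype.card_perm])

theorem sr_s4 : SR 4 (⊤ : Subgroup (Equiv.Perm (Fin 4))) := by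
  let c : Equiv.Perm (Fin 4) := Equiv.swap 0 1 * Equiv.swap 1 2 * Equiv.swap 2 3
  have oc : orderOf c = 4 := orderOf_eq_prime_pow (p := 2) (n := 1) (by decide) (by decide)
  have hc : IsPGroup 2 (zpowers c) := IsPGroup.of_card (n := 2) (by rw [Nat.card_zpowers, oc]; rfl)
  obtain ⟨T, hT⟩ := hc.exists_le_sylow
  refine sr_of_sylow T ((sr_zpowers c).of_relIndex (b := 2) ?_)
  have h1 := card_eq_relIndex' hT
  rw [Nat.card_zpowers, oc, T.card_eq_multiplicity, Nat.card_perm, Nat.card_fin,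
    show Nat.factorization (Nat.factorial 4) 2 = 3 by decide +kernel] at h1
  omega

/-- monomial groups -/
theorem sr_mono {ι β : Type} [Finite ι] [Fintype β] (b : ι → V) (τ : ι → ι) (κ : β → ι)
    (hb : ∀ i j, polar Q (b j) (b (τ i)) ≠ 0 ↔ j = i) (hκ : ∀ i, ∃ k, i = κ k ∨ κ k = τ i)
    (hp : ∀ g i, ∃ j, ∃ c : K, (σ g).1 (b i) = c • b j) (hf : ∀ g, (∀ i, (σ g).1 (b i) = b i) → g = 1)
    {m : ℕ} (hm : SR m (⊤ : Subgroup (Equiv.Perm ι))) : SR (2 ^ Fintype.card β * m) (⊤ : Subgroup S) := by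
  have b0 : ∀ i, b i ≠ 0 := fun i e => (hb i i).2 rfl (by rw [e, polar_zero_left])
  refine sr_perm (σ := σ) (fun i => Submodule.span K {b i}) (fun i => by simpa using b0 i) (fun i j x x0 hi hj => ?_)
    (fun g i => ?_) hm fun T hT => ?_
  · obtain ⟨c, rfl⟩ := Submodule.mem_span_singleton.1 hi
    obtain ⟨d, hd⟩ := Submodule.mem_span_singleton.1 hj
    refine ((hb i j).1 fun e => ?_).symm
    have := congrArg (fun v => polar Q v (b (τ i))) hd
    simp only [polar_smul_left, e, smul_eq_mul, mul_zero] at this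
    exact mul_ne_zero (left_ne_zero_of_smul x0) ((hb i i).2 rfl) this.symm
  · obtain ⟨j, c, hc⟩ := hp g i
    refine ⟨j, fun x hx => ?_⟩
    obtain ⟨d, rfl⟩ := Submodule.mem_span_singleton.1 hx
    rw [map_smul, hc, smul_smul]
    exact Submodule.mem_span_singleton.2 ⟨_, rfl⟩
  have h1 : ∀ g ∈ T, ∀ i, ∃ c : K, (σ g).1 (b i) = c • b i := fun g hg i => by
    obtain ⟨c, hc⟩ := Submodule.mem_span_singleton.1 (hT g hg i _ (Submodule.mem_span_singleton_self _))
    exact ⟨c, hc.symm⟩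
  refine sr_diag (σ := σ) (fun k => b (κ k)) (fun g hg k => h1 g hg _) fun g hg h => hf g fun i => ?_
  obtain ⟨k, e | e⟩ := hκ i
  · rw [e]; exact h k
  · obtain ⟨c, hc⟩ := h1 g hg i
    have := O_polar (σ g) (b i) (b (τ i))
    rw [hc, ← e, h k, e, polar_smul_left, smul_eq_mul, mul_eq_right₀ ((hb i i).2 rfl)] at this
    rw [hc, this, one_smul]

/-- scalar groups -/
theorem sr_scal {E : Submodule K V} (h : ∀ g, ∃ c : K, ∀ x ∈ E, (σ g).1 x = c • x)
    (hf : ∀ g, (∀ x ∈ E, (σ g).1 x = x) → g = 1) : SR 2 (⊤ : Subgroup S) := by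
  by_cases hE : E = ⊥
  · refine sr_diag (σ := σ) (fun _ : Unit => (0 : V)) (fun g _ _ => ⟨0, by simp⟩) fun g _ _ => hf g fun x hx => ?_
    rw [hE, Submodule.mem_bot] at hx
    rw [hx, map_zero]
  obtain ⟨u, hu, u0⟩ := (Submodule.ne_bot_iff _).1 hE
  refine sr_diag (σ := σ) (fun _ : Unit => u) (fun g _ _ => (h g).imp fun c hc => hc u hu)
    fun g _ e => hf g fun x hx => ?_
  obtain ⟨c, hc⟩ := h g
  have e1 : (c - 1) • u = 0 := by rw [sub_smul, ← hc u hu, e (), one_smul, sub_self]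
  rw [hc x hx, sub_eq_zero.1 ((smul_eq_zero.1 e1).resolve_right u0), one_smul]

variable (σ) in
/-- a direct sum decomposition permuted by the group -/
structure SrS (E E₁ E₂ : Submodule K V) : Prop where
  n₁ : E₁ ≠ ⊥
  n₂ : E₂ ≠ ⊥
  sup : E₁ ⊔ E₂ = E
  dis : Disjoint E₁ E₂
  per : ∀ g, ((∀ x ∈ E₁, (σ g).1 x ∈ E₁) ∧ ∀ x ∈ E₂, (σ g).1 x ∈ E₂) ∨
    ((∀ x ∈ E₁, (σ g).1 x ∈ E₂) ∧ ∀ x ∈ E₂, (σ g).1 x ∈ E₁)

variable {E E₁ E₂ : Submodule K V}

omit [Finite S] in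
theorem SrS.symm (h : SrS σ E E₁ E₂) : SrS σ E E₂ E₁ :=
  ⟨h.n₂, h.n₁, sup_comm E₁ E₂ ▸ h.sup, h.dis.symm, fun g => (h.per g).imp And.symm And.symm⟩

omit [Finite S] in
theorem SrS.dim [FiniteDimensional K V] (h : SrS σ E E₁ E₂) :
    finrank K E₁ + finrank K E₂ = finrank K E ∧ 1 ≤ finrank K E₁ ∧ 1 ≤ finrank K E₂ := by
  have := Submodule.finrank_sup_add_finrank_inf_eq E₁ E₂
  rw [h.sup, h.dis.eq_bot, finrank_bot] at this
  exact ⟨by omega, Submodule.one_le_finrank_iff.2 h.n₁, Submodule.one_le_finrank_iff.2 h.n₂⟩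

omit [Finite S] in
theorem SrS.fix (h : SrS σ E E₁ E₂) {g : S} (h1 : ∀ x ∈ E₁, (σ g).1 x = x) (h2 : ∀ x ∈ E₂, (σ g).1 x = x) :
    ∀ x ∈ E, (σ g).1 x = x := fun x hx => by
  obtain ⟨a, ha, b, hb, rfl⟩ := Submodule.mem_sup.1 (h.sup ▸ hx)
  rw [map_add, h1 a ha, h2 b hb]

theorem SrS.two (h : SrS σ E E₁ E₂) {a : ℕ} (ha : ∀ T : Subgroup S,
    (∀ g ∈ T, (∀ x ∈ E₁, (σ g).1 x ∈ E₁) ∧ ∀ x ∈ E₂, (σ g).1 x ∈ E₂) → SR a T) : SR (a * 2) (⊤ : Subgroup S) := by
  refine sr_perm (σ := σ) (fun b => cond b E₁ E₂) (fun b => by cases b; exacts [h.n₂, h.n₁]) (fun i j x x0 hi hj => ?_)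
    (fun g i => ?_) sr_s2 fun T hT => ha T fun g hg => ⟨hT g hg true, hT g hg false⟩
  · cases i <;> cases j
    exacts [rfl, absurd (Submodule.disjoint_def.1 h.dis x hj hi) x0,
      absurd (Submodule.disjoint_def.1 h.dis x hi hj) x0, rfl]
  · rcases h.per g with e | e <;> cases i
    exacts [⟨false, e.2⟩, ⟨true, e.1⟩, ⟨true, e.2⟩, ⟨false, e.1⟩]

/-- an eigenspace in `E` -/
def srE (t : O Q) (E : Submodule K V) (c : K) : Submodule K V := E ⊓ LinearMap.ker (en t - c • LinearMap.id)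

theorem mem_srE {t : O Q} {c : K} {x : V} : x ∈ srE t E c ↔ x ∈ E ∧ t.1 x = c • x := by
  simp [srE, sub_eq_zero, en_apply]

theorem sr_split [IsAlgClosed K] (h2 : (2 : K) ≠ 0) (hS : IsPGroup 2 S) (hE : ∀ g, ∀ x ∈ E, (σ g).1 x ∈ E) :
    (∀ g, ∃ c : K, ∀ x ∈ E, (σ g).1 x = c • x) ∨ ∃ E₁ E₂, SrS σ E E₁ E₂ ∧
      ((∀ x ∈ E₁, ∀ y ∈ E₂, polar Q x y = 0) ∨ ((∀ x ∈ E₁, Q x = 0) ∧ ∀ x ∈ E₂, Q x = 0)) := by
  let Z : Subgroup S :=
    { carrier := {g | ∃ c : K, ∀ x ∈ E, (σ g).1 x = c • x}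
      one_mem' := ⟨1, fun x _ => by rw [sr_one, one_smul]⟩
      mul_mem' := fun {a b} ⟨c, hc⟩ ⟨d, hd⟩ => ⟨d * c, fun x hx => by
        rw [sr_mul, hd x hx, map_smul, hc x hx, smul_smul]⟩
      inv_mem' := fun {a} ⟨c, hc⟩ => ⟨c⁻¹, fun x hx => by
        have e := sr_inv σ a x
        rw [hc x hx, map_smul] at e
        by_cases c0 : c = 0
        · rw [c0, zero_smul] at e
          rw [← e, map_zero, smul_zero]
        · conv_rhs => rw [← e, smul_smul, inv_mul_cancel₀ c0, one_smul]⟩ }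
  have : Z.Normal := ⟨fun z ⟨c, hc⟩ g => ⟨c, fun x hx => by
    rw [sr_mul, sr_mul, hc _ (hE _ x hx), map_smul, sr_inv']⟩⟩
  by_cases hZ : (⊤ : Subgroup S) ≤ Z
  · exact Or.inl fun g => hZ (mem_top g)
  obtain ⟨t, -, t1, ⟨c, hc⟩, t3⟩ := exists_cmod hS hZ
  obtain ⟨a, rfl⟩ := IsAlgClosed.exists_eq_mul_self c
  replace hc : ∀ x ∈ E, (σ t).1 ((σ t).1 x) = (a * a) • x := fun x hx => by rw [← sr_mul, hc x hx]
  have a0 : a ≠ 0 := by
    rintro rfl
    refine t1 ⟨0, fun x hx => ?_⟩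
    have := hc x hx
    rw [mul_zero, zero_smul, map_eq_zero_iff _ (σ t).1.injective] at this
    rw [this, zero_smul]
  have m : ∀ b, b * b = a * a → ∀ x ∈ E, b • x + (σ t).1 x ∈ srE (σ t) E b := fun b hb x hx =>
    mem_srE.2 ⟨E.add_mem (E.smul_mem _ hx) (hE _ x hx), by
      rw [map_add, map_smul, hc x hx, smul_add, smul_smul, hb, add_comm]⟩
  have n : ∀ b, b * b = a * a → srE (σ t) E b ≠ ⊥ := fun b hb e => t1 ⟨-b, fun x hx => by
    have := m b hb x hx
    rw [e, Submodule.mem_bot] at this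
    rw [neg_smul, eq_neg_iff_add_eq_zero, add_comm, this]⟩
  refine Or.inr ⟨srE (σ t) E a, srE (σ t) E (-a), ⟨n a rfl, n _ (neg_mul_neg a a), ?_, ?_, fun g => ?_⟩, ?_⟩
  · refine le_antisymm (sup_le inf_le_left inf_le_left) fun x hx => ?_
    have e : x = (2 * a)⁻¹ • ((a • x + (σ t).1 x) - (-a • x + (σ t).1 x)) := by
      rw [show a • x + (σ t).1 x - (-a • x + (σ t).1 x) = (2 * a) • x by module, smul_smul,
        inv_mul_cancel₀ (mul_ne_zero h2 a0), one_smul]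
    rw [e]
    exact Submodule.smul_mem _ _ (Submodule.sub_mem _ (Submodule.mem_sup_left (m a rfl x hx))
      (Submodule.mem_sup_right (m _ (neg_mul_neg a a) x hx)))
  · refine Submodule.disjoint_def.2 fun x h h' => ?_
    have e : (2 * a) • x = 0 := by
      rw [show (2 * a) • x = a • x - -a • x by module, ← (mem_srE.1 h).2, ← (mem_srE.1 h').2, sub_self]
    exact (smul_eq_zero.1 e).resolve_left (mul_ne_zero h2 a0)
  · obtain ⟨l, hl⟩ := t3 g
    have k : ∀ b x, x ∈ srE (σ t) E b → (σ g).1 x ∈ srE (σ t) E (l * b) := fun b x hx => by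
      obtain ⟨x1, x2⟩ := mem_srE.1 hx
      refine mem_srE.2 ⟨hE _ x x1, ?_⟩
      have := hl _ (hE g _ (hE t x x1))
      rw [sr_mul, sr_mul, sr_mul, sr_inv, sr_inv] at this
      rw [this, x2, map_smul, smul_smul]
    obtain ⟨y, hy, y0⟩ := (Submodule.ne_bot_iff _).1 (n a rfl)
    obtain ⟨y1, y2⟩ := mem_srE.1 (k a y hy)
    have e := hc _ y1
    rw [y2, map_smul, y2, smul_smul, ← sub_eq_zero, ← sub_smul, smul_eq_zero] at e
    have e' : (l - 1) * (l + 1) = 0 := mul_right_cancel₀ (mul_ne_zero a0 a0) (by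
      linear_combination e.resolve_right (O_apply_ne_zero _ y0))
    rcases mul_eq_zero.1 e' with e | e
    · obtain rfl := sub_eq_zero.1 e
      exact Or.inl ⟨fun x hx => by simpa using k _ x hx, fun x hx => by simpa using k _ x hx⟩
    · obtain rfl := eq_neg_of_add_eq_zero_left e
      exact Or.inr ⟨fun x hx => by simpa using k _ x hx, fun x hx => by simpa using k _ x hx⟩
  by_cases ha : a * a = 1
  · refine Or.inl fun x hx y hy => ?_
    have := O_polar (σ t) x y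
    rw [(mem_srE.1 hx).2, (mem_srE.1 hy).2, polar_smul_left, polar_smul_right, smul_eq_mul, smul_eq_mul] at this
    exact mul_left_cancel₀ h2 (by linear_combination -this - polar Q x y * ha)
  · have k : ∀ b, b * b = a * a → ∀ x ∈ srE (σ t) E b, Q x = 0 := fun b hb x hx => by
      have := O_map (σ t) x
      rw [(mem_srE.1 hx).2, Q_smul, hb] at this
      exact mul_left_cancel₀ (sub_ne_zero.2 ha) (by linear_combination this)
    exact Or.inr ⟨k a rfl, k _ (neg_mul_neg a a)⟩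

end grp

section fin

variable [FiniteDimensional K V]

theorem sr_line {W : Submodule K V} (h : finrank K W ≤ 1) : ∃ u ∈ W, ∀ x ∈ W, ∃ c : K, x = c • u := by
  obtain ⟨u, hu⟩ := finrank_le_one_iff.1 h
  refine ⟨u, u.2, fun x hx => ?_⟩
  obtain ⟨c, hc⟩ := hu ⟨x, hx⟩
  exact ⟨c, (congrArg Subtype.val hc).symm⟩

/-- a hyperbolic basis of a plane -/
theorem sr_hyp [IsAlgClosed K] (h2 : (2 : K) ≠ 0) {W : Submodule K V} (hW : ND Q W) (h : finrank K W = 2) :
    ∃ e ∈ W, ∃ f ∈ W, Q e = 0 ∧ Q f = 0 ∧ polar Q e f = 1 ∧ (∀ x ∈ W, ∃ a b : K, x = a • e + b • f) ∧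
      ∀ x ∈ W, Q x = 0 → (∃ a : K, x = a • e) ∨ ∃ a : K, x = a • f := by
  have : NeZero (2 : K) := ⟨h2⟩
  obtain ⟨e, he, e0, e1⟩ : ∃ e ∈ W, e ≠ 0 ∧ Q e = 0 := by
    obtain ⟨x, hx, x0⟩ := (Submodule.ne_bot_iff W).1 (Submodule.one_le_finrank_iff.1 (by omega))
    by_cases qx : Q x = 0
    · exact ⟨x, hx, x0, qx⟩
    obtain ⟨y, hy, y0⟩ : ∃ y ∈ W, y ∉ Submodule.span K {x} := SetLike.not_le_iff_exists.1 fun e => by
      have := Submodule.finrank_mono e
      rw [finrank_span_singleton x0] at this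
      omega
    obtain ⟨s, hs⟩ := exists_quadratic_eq_zero qx (IsAlgClosed.exists_eq_mul_self (discrim (Q x) (polar Q x y) (Q y)))
    refine ⟨s • x + y, W.add_mem (W.smul_mem _ hx) hy, fun e => y0 ?_, ?_⟩
    · rw [eq_neg_of_add_eq_zero_right e]
      exact neg_mem (Submodule.mem_span_singleton.2 ⟨s, rfl⟩)
    · rw [Q_add, Q_smul, polar_smul_left, smul_eq_mul]
      linear_combination hs
  obtain ⟨f, hf, f1, ef⟩ := exists_partner hW he e0 e1
  have li : LinearIndependent K ![e, f] := LinearIndependent.pair_iff.2 fun a b h => by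
    have h1 := congrArg (fun v => polar Q v f) h
    have h3 := congrArg (fun v => polar Q e v) h
    simp only [polar_add_left, polar_add_right, polar_smul_left, polar_smul_right, polar_self', ef, e1, f1,
      polar_zero_left, polar_zero_right, smul_eq_mul, mul_zero, mul_one, add_zero, zero_add] at h1 h3
    exact ⟨h1, h3⟩
  have sp : Submodule.span K {e, f} = W := Submodule.eq_of_le_of_finrank_le
    (Submodule.span_le.2 (by rintro _ (rfl | rfl); exacts [he, hf])) (by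
      have := finrank_span_eq_card li
      rw [Matrix.range_cons, Matrix.range_cons, Matrix.range_empty, Set.union_empty, Set.singleton_union] at this
      rw [this, h, Fintype.card_fin])
  have sp' : ∀ x ∈ W, ∃ a b : K, x = a • e + b • f := fun x hx => by
    obtain ⟨a, b, h⟩ := Submodule.mem_span_pair.1 (sp ▸ hx)
    exact ⟨a, b, h.symm⟩
  refine ⟨e, he, f, hf, e1, f1, ef, sp', fun x hx qx => ?_⟩
  obtain ⟨a, b, rfl⟩ := sp' x hx
  rw [Q_add, Q_smul, Q_smul, polar_smul_left, polar_smul_right, e1, f1, ef] at qx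
  rcases mul_eq_zero.1 (show a * b = 0 by simpa using qx) with rfl | rfl
  · exact Or.inr ⟨b, by simp⟩
  · exact Or.inl ⟨a, by simp⟩

variable [IsAlgClosed K] {S : Type*} [Group S] [Finite S] {σ : S →* O Q} {E E₁ E₂ : Submodule K V}

/-- 2-subgroups of `GL₂` -/
theorem sr_gl2 (h2 : (2 : K) ≠ 0) (hS : IsPGroup 2 S) (h : finrank K E ≤ 2) (hE : ∀ g, ∀ x ∈ E, (σ g).1 x ∈ E)
    (hf : ∀ g, (∀ x ∈ E, (σ g).1 x = x) → g = 1) : SR 8 (⊤ : Subgroup S) := by
  rcases sr_split h2 hS hE with c | ⟨E₁, E₂, c, -⟩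
  · exact (sr_scal c hf).le (by omega)
  have d := c.dim
  obtain ⟨u, hu, u1⟩ := sr_line (W := E₁) (by omega)
  obtain ⟨v, hv, v1⟩ := sr_line (W := E₂) (by omega)
  refine c.two (a := 4) fun T hT => sr_diag (σ := σ) (fun b => cond b u v) (fun g hg b => ?_) fun g _ e =>
    hf g (c.fix (fun x hx => ?_) fun x hx => ?_)
  · cases b
    exacts [v1 _ ((hT g hg).2 v hv), u1 _ ((hT g hg).1 u hu)]
  · obtain ⟨a, rfl⟩ := u1 x hx
    rw [map_smul]; exact congrArg _ (e true)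
  · obtain ⟨a, rfl⟩ := v1 x hx
    rw [map_smul]; exact congrArg _ (e false)

/-- 2-subgroups of `O₂` -/
theorem sr_o2 (h2 : (2 : K) ≠ 0) (hN : ND Q E) (h : finrank K E = 2) (hE : ∀ g, ∀ x ∈ E, (σ g).1 x ∈ E)
    (hf : ∀ g, (∀ x ∈ E, (σ g).1 x = x) → g = 1) : SR 4 (⊤ : Subgroup S) := by
  obtain ⟨e, he, f, hf', e1, f1, ef, sp, sg⟩ := sr_hyp h2 hN h
  refine sr_mono (σ := σ) (fun b => cond b e f) not (fun _ : Unit => true) (fun i j => ?_) (fun i => ?_)
    (fun g i => ?_) (fun g h => hf g fun x hx => ?_) sr_s2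
  · cases i <;> cases j <;> simp [e1, f1, ef, polar_comm Q f e]
  · cases i <;> simp
  · have : (σ g).1 (cond i e f) ∈ E ∧ Q ((σ g).1 (cond i e f)) = 0 := by
      rw [O_map]; cases i
      exacts [⟨hE g _ hf', f1⟩, ⟨hE g _ he, e1⟩]
    rcases sg _ this.1 this.2 with h | h
    exacts [⟨true, h⟩, ⟨false, h⟩]
  · obtain ⟨a, b, rfl⟩ := sp x hx
    rw [map_add, map_smul, map_smul]
    exact congrArg₂ (fun u v => a • u + b • v) (h true) (h false)

omit [FiniteDimensional K V] [IsAlgClosed K] [Finite S] in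
theorem SrS.nd (c : SrS σ E E₁ E₂) (hN : ND Q E) (o : ∀ x ∈ E₁, ∀ y ∈ E₂, polar Q x y = 0) : ND Q E₁ :=
  nd_iff.2 fun x hx h => nd_iff.1 hN x (c.sup ▸ Submodule.mem_sup_left hx) fun y hy => by
    obtain ⟨a, ha, b, hb, rfl⟩ := Submodule.mem_sup.1 (c.sup ▸ hy)
    rw [polar_add_right, h a ha, o x hx b hb, add_zero]

/-- 2-subgroups of `O₂ ≀ 2` -/
theorem sr_o22 (h2 : (2 : K) ≠ 0) (c : SrS σ E E₁ E₂) (hN : ND Q E) (o : ∀ x ∈ E₁, ∀ y ∈ E₂, polar Q x y = 0)
    (h : finrank K E₁ = 2) (h' : finrank K E₂ = 2) (hf : ∀ g, (∀ x ∈ E, (σ g).1 x = x) → g = 1) :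
    SR 16 (⊤ : Subgroup S) := by
  have o' : ∀ x ∈ E₂, ∀ y ∈ E₁, polar Q x y = 0 := fun x hx y hy => by rw [polar_comm, o y hy x hx]
  obtain ⟨e, he, f, hf', e1, f1, ef, sp, sg⟩ := sr_hyp h2 (c.nd hN o) h
  obtain ⟨u, hu, v, hv, u1, v1, uv, sp', sg'⟩ := sr_hyp h2 (c.symm.nd hN o') h'
  refine sr_mono (σ := σ) ![e, f, u, v] ![1, 0, 3, 2] (fun b : Bool => cond b 0 2) (fun i j => ?_) (fun i => ?_)
    (fun g i => ?_) (fun g h => hf g (c.fix (fun x hx => ?_) fun x hx => ?_)) sr_s4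
  · fin_cases i <;> fin_cases j <;> simp [e1, f1, ef, polar_comm Q f e, u1, v1, uv, polar_comm Q v u,
      o _ he _ hu, o _ he _ hv, o _ hf' _ hu, o _ hf' _ hv, o' _ hu _ he, o' _ hv _ he, o' _ hu _ hf', o' _ hv _ hf']
  · revert i; decide
  · have k : ∀ x, (x ∈ E₁ ∨ x ∈ E₂) → Q x = 0 → ∃ j, ∃ c : K, (σ g).1 x = c • ![e, f, u, v] j := fun x hx qx => by
      have : (σ g).1 x ∈ E₁ ∨ (σ g).1 x ∈ E₂ := by
        rcases c.per g with p | p <;> rcases hx with hx | hx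
        exacts [Or.inl (p.1 x hx), Or.inr (p.2 x hx), Or.inr (p.1 x hx), Or.inl (p.2 x hx)]
      rw [← O_map (σ g)] at qx
      rcases this with h | h
      · rcases sg _ h qx with h | h
        exacts [⟨0, h⟩, ⟨1, h⟩]
      · rcases sg' _ h qx with h | h
        exacts [⟨2, h⟩, ⟨3, h⟩]
    fin_cases i
    exacts [k e (Or.inl he) e1, k f (Or.inl hf') f1, k u (Or.inr hu) u1, k v (Or.inr hv) v1]
  · obtain ⟨a, b, rfl⟩ := sp x hx
    rw [map_add, map_smul, map_smul]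
    exact congrArg₂ (fun u v => a • u + b • v) (h 0) (h 1)
  · obtain ⟨a, b, rfl⟩ := sp' x hx
    rw [map_add, map_smul, map_smul]
    exact congrArg₂ (fun u v => a • u + b • v) (h 2) (h 3)

omit [IsAlgClosed K] in
/-- splitting off an invariant non-singular line -/
theorem sr_off (c : SrS σ E E₁ E₂) (hN : ND Q E₁) (h : finrank K E₁ ≤ 1) (i : ∀ g, ∀ x ∈ E₁, (σ g).1 x ∈ E₁)
    (hf : ∀ g, (∀ x ∈ E, (σ g).1 x = x) → g = 1) {a : ℕ}
    (ha : ∀ T : Subgroup S, (∀ g : T, (∀ x ∈ E₂, (σ g).1 x = x) → g = 1) → SR a (⊤ : Subgroup T)) :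
    SR (a * 2) (⊤ : Subgroup S) := by
  obtain ⟨w, hw, w1⟩ := sr_line h
  have w0 : polar Q w w ≠ 0 := fun e => c.n₁ ((Submodule.eq_bot_iff _).2 fun x hx => nd_iff.1 hN x hx fun y hy => by
    obtain ⟨a, rfl⟩ := w1 x hx
    obtain ⟨b, rfl⟩ := w1 y hy
    rw [polar_smul_left, polar_smul_right, e, smul_zero, smul_zero])
  let T : Subgroup S :=
    { carrier := {g | (σ g).1 w = w}
      one_mem' := sr_one σ w
      mul_mem' := fun {a b} ha hb => by
        show (σ (a * b)).1 w = w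
        rw [sr_mul, hb, ha]
      inv_mem' := fun {a} ha => by
        show (σ a⁻¹).1 w = w
        conv_lhs => rw [← ha, sr_inv] }
  have pm : ∀ g, g ∉ T → (σ g).1 w = -w := fun g hg => by
    obtain ⟨a, ha⟩ := w1 _ (i g w hw)
    have := O_polar (σ g) w w
    rw [ha, polar_smul_left, polar_smul_right, smul_eq_mul, smul_eq_mul] at this
    rcases mul_self_eq_one_iff.1 (mul_right_cancel₀ w0 (show a * a * _ = 1 * _ by linear_combination this)) with e | e
    · exact absurd (show (σ g).1 w = w by rw [ha, e, one_smul]) hg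
    · rw [ha, e, neg_one_smul]
  refine (sr_sub (ha T fun g h => Subtype.ext (hf g (c.fix (fun x hx => ?_) h)))).of_relIndex
    (relIndex_le_two fun x _ y _ hx hy => ?_)
  · obtain ⟨a, rfl⟩ := w1 x hx
    rw [map_smul]; exact congrArg _ g.2
  · show (σ (x⁻¹ * y)).1 w = w
    rw [sr_mul, pm y hy, ← pm x hx, sr_inv]

omit [IsAlgClosed K] [Finite S] in
theorem SrS.inv (c : SrS σ E E₁ E₂) (h : finrank K E₁ < finrank K E₂) (g : S) :
    (∀ x ∈ E₁, (σ g).1 x ∈ E₁) ∧ ∀ x ∈ E₂, (σ g).1 x ∈ E₂ := (c.per g).resolve_right fun e => by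
  have := Submodule.finrank_mono (show E₂.map ((σ g).1 : V →ₗ[K] V) ≤ E₁ from by
    rintro _ ⟨x, hx, rfl⟩; exact e.2 x hx)
  rw [LinearEquiv.finrank_map_eq] at this
  omega

end fin

universe u

theorem sr_main [FiniteDimensional K V] [IsAlgClosed K] (h2 : (2 : K) ≠ 0) (hQ : Nondeg Q) (n : ℕ) (hn : n ≤ 3) :
    ∀ {S : Type u} [Group S] [Finite S] {σ : S →* O Q} {E : Submodule K V}, IsPGroup 2 S → ND Q E →
      finrank K E ≤ n + 1 → (∀ g, ∀ x ∈ E, (σ g).1 x ∈ E) → (∀ g, (∀ x ∈ E, (σ g).1 x = x) → g = 1) →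
      SR (2 ^ (n + 1)) (⊤ : Subgroup S) := by
  induction n with
  | zero =>
    intro S _ _ σ E hS hN h hE hf
    rcases sr_split h2 hS hE with c | ⟨E₁, E₂, c, -⟩
    · exact sr_scal c hf
    · have := c.dim
      omega
  | succ n ih =>
    intro S _ _ σ E hS hN h hE hf
    have p : 4 ≤ 2 ^ (n + 1 + 1) := by rw [pow_succ, pow_succ]; have := Nat.one_le_two_pow (n := n); omega
    by_cases d2 : finrank K E = 2
    · exact (sr_o2 h2 hN d2 hE hf).le p
    rcases sr_split h2 hS hE with c | ⟨E₁, E₂, c, o | o⟩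
    · exact (sr_scal c hf).le (by omega)
    · have key : ∀ {E₁ E₂}, SrS σ E E₁ E₂ → (∀ x ∈ E₁, ∀ y ∈ E₂, polar Q x y = 0) → finrank K E₁ < finrank K E₂ →
          SR (2 ^ (n + 1 + 1)) (⊤ : Subgroup S) := fun {E₁ E₂} c o l => by
        have d := c.dim
        rw [pow_succ]
        exact sr_off c (c.nd hN o) (by omega) (fun g => (c.inv l g).1) hf fun T hT =>
          ih (by omega) (σ := σ.comp T.subtype) (hS.to_subgroup T)
            (c.symm.nd hN fun x hx y hy => by rw [polar_comm, o y hy x hx]) (by omega)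
            (fun g => (c.inv l g).2) hT
      have d := c.dim
      rcases lt_trichotomy (finrank K E₁) (finrank K E₂) with l | l | l
      · exact key c o l
      · obtain rfl : n = 2 := by omega
        exact sr_o22 h2 c hN o (by omega) (by omega) hf
      · exact key c.symm (fun x hx y hy => by rw [polar_comm, o y hy x hx]) l
    have d := c.dim
    have l1 : E₁ ≤ E := c.sup ▸ le_sup_left
    have l2 : E₂ ≤ E := c.sup ▸ le_sup_right
    have d3 := two_mul_le_of_ts hQ hN l1 o.1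
    have d4 := two_mul_le_of_ts hQ hN l2 o.2
    obtain rfl : n = 2 := by omega
    refine c.two (a := 8) fun T hT => sr_sub (sr_gl2 (σ := σ.comp T.subtype) h2 (hS.to_subgroup T) (E := E₁) (by omega)
      (fun g => (hT g g.2).1) fun g hg => Subtype.ext (hf g (c.fix hg fun x hx => sub_eq_zero.1 ?_)))
    have m : (σ g).1 x - x ∈ E₂ := E₂.sub_mem ((hT g g.2).2 x hx) hx
    refine nd_iff.1 hN _ (l2 m) fun y hy => ?_
    obtain ⟨a, ha, b, hb, rfl⟩ := Submodule.mem_sup.1 (c.sup ▸ hy)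
    have e1 := O_polar (σ g) x a
    have e2 := Q_add Q ((σ g).1 x - x) b
    rw [o.2 _ (E₂.add_mem m hb), o.2 _ m, o.2 _ hb] at e2
    rw [show (σ g).1 a = a from hg a ha] at e1
    rw [polar_add_right, polar_sub_left (y := a), e1]
    linear_combination -e2

end CfsgLib.O7
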