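import Cfsg.Agent.Lib.O7.Fx
import Cfsg.Agent.Lib.O7.SrA
import Cfsg.Agent.Lib.RootSub.QuadAlg

/-!
KD4, core: an element of order `r² + r + 1` that centralises an `A₄`.  See `plans/O7B.md`.
-/

set_option autoImplicit false

namespace CfsgLib.O7

open CfsgLib.OrthE CfsgLib.OMax Module QuadraticMap Subgroup Cfsg
open scoped MatrixGroups

theorem d4_nt {p f c : ℕ} (hp : Odd p) (h3 : 3 ≤ p) (hf : 0 < f) {ε : ℤ} (he : ε = 2 ∨ ε = -2) :
    ¬ ((p : ℤ) ^ f) ^ 2 + (p : ℤ) ^ f + 1 ∣ (p : ℤ) ^ c + ε := fun h => by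
  have p3 : (3 : ℤ) ≤ p := by exact_mod_cast h3
  have k : ∀ i j : ℕ, i < j → 3 * (p : ℤ) ^ i ≤ (p : ℤ) ^ j := fun i j hij =>
    calc 3 * (p : ℤ) ^ i ≤ p ^ (i + 1) := by rw [pow_succ']; gcongr
      _ ≤ p ^ j := pow_le_pow_right₀ (by omega) hij
  have k0 : ∀ i : ℕ, 0 < (p : ℤ) ^ i := fun i => pow_pos (by omega) i
  have r3 := k 0 f hf
  have e1 : -2 ≤ ε ∧ ε ≤ 2 := by omega
  rw [pow_zero] at r3
  have h4 : (p : ℤ) ^ c = (((p : ℤ) ^ f) ^ 3) ^ (c / (3 * f)) * p ^ (c % (3 * f)) := by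
    rw [← pow_mul, ← pow_mul, ← pow_add, ← mul_assoc, mul_comm f, Nat.div_add_mod]
  have h5 : c % (3 * f) < 3 * f := Nat.mod_lt _ (by omega)
  have h6 : (p : ℤ) ^ (2 * f) = (p ^ f) ^ 2 := by rw [← pow_mul, mul_comm]
  generalize c % (3 * f) = e at h4 h5
  have k1 := k e (2 * f)
  have k2 : 2 * f ≤ e → (p : ℤ) ^ e = (p ^ f) ^ 2 * p ^ (e - 2 * f) := fun j => by
    rw [← h6, ← pow_add, Nat.add_sub_cancel' j]
  have k3 := k (e - 2 * f) f (by omega)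
  have k4 := k0 (e - 2 * f)
  have k5 : Odd ((p : ℤ) ^ e) := (Int.odd_coe_nat p |>.2 hp).pow
  have k6 := k0 e
  rw [h6] at k1
  rw [h4] at h
  generalize (p : ℤ) ^ f = r at *
  generalize (p : ℤ) ^ (e - 2 * f) = d at *
  generalize (p : ℤ) ^ e = s at *
  have h2 : r ^ 2 + r + 1 ∣ (r ^ 3) ^ (c / (3 * f)) - 1 ^ (c / (3 * f)) :=
    (Dvd.intro (r - 1) (by ring)).trans (sub_dvd_pow_sub_pow _ _ _)
  have h1 : r ^ 2 + r + 1 ∣ s + ε := by
    have := h.sub (h2.mul_right s)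
    rwa [one_pow, show ∀ t : ℤ, t * s + ε - (t - 1) * s = s + ε from fun t => by ring] at this
  obtain ⟨m, hm⟩ := k5
  rcases lt_or_ge e (2 * f) with j | j
  · have := Int.eq_zero_of_abs_lt_dvd h1 (abs_lt.2 ⟨by nlinarith, by nlinarith [k1 j]⟩)
    omega
  · have := ((dvd_refl _).mul_right d).sub h1
    rw [k2 j, show (r ^ 2 + r + 1) * d - (r ^ 2 * d + ε) = d * (r + 1) - ε by ring] at this
    have := Int.le_of_dvd (by nlinarith) this
    nlinarith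

theorem d4_frob {K E : Type*} [Field K] [Field E] [Finite E] (p : ℕ) [Fact p.Prime] [CharP K p] [CharP E p]
    (α β : E →+* K) : ∃ c, ∀ x, β x = α x ^ p ^ c := by
  let := ZMod.algebra K p
  let := ZMod.algebra E p
  let : Algebra E K := α.toAlgebra
  have : IsScalarTower (ZMod p) E K := IsScalarTower.of_algebraMap_eq' (Subsingleton.elim _ _)
  let b : E →ₐ[ZMod p] K := ⟨β, fun r => RingHom.congr_fun (Subsingleton.elim (β.comp (algebraMap _ _)) _) r⟩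
  obtain ⟨i, hi⟩ := FiniteField.exists_forall_apply_eq_pow (ZMod p) p E (b.restrictNormal' E)
  refine ⟨i, fun x => ?_⟩
  have := b.restrictNormal_commutes E x
  rw [Nat.card_zmod] at hi
  rw [← map_pow, ← hi]
  exact this.symm

section gen

variable {K V : Type*} [Field K] [IsAlgClosed K] [AddCommGroup V] [Module K V] [FiniteDimensional K V]
  {Q : QuadraticForm K V}

/-- an isometry of odd order of a plane is a rotation -/
theorem d4_rot (h2 : (2 : K) ≠ 0) {W : Submodule K V} (hW : ND Q W) (h : finrank K W = 2)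
    {g : O Q} (hg : ∀ w ∈ W, g.1 w ∈ W) {n : ℕ} (hn : Odd n) (hgn : g ^ n = 1) :
    ∃ e ∈ W, ∃ f ∈ W, ∃ θ η : K, θ * η = 1 ∧ polar Q e f = 1 ∧ g.1 e = θ • e ∧ g.1 f = η • f ∧
      (∀ x ∈ W, ∃ a b : K, x = a • e + b • f) ∧
      ∀ y ∈ W, y ≠ 0 → ∀ μ : K, g.1 y = μ • y → μ = θ ∨ μ = η := by
  obtain ⟨e, he, f, hf, qe, qf, pef, sp, sg⟩ := sr_hyp h2 hW h
  have pee : polar Q e e = 0 := by rw [polar_self', qe, mul_zero]
  have pff : polar Q f f = 0 := by rw [polar_self', qf, mul_zero]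
  have pfe : polar Q f e = 1 := (polar_comm _ _ _).trans pef
  have k := O_polar g e f
  rcases sg _ (hg e he) ((O_map g e).trans qe) with ⟨a, ha⟩ | ⟨a, ha⟩ <;>
    rcases sg _ (hg f hf) ((O_map g f).trans qf) with ⟨b, hb⟩ | ⟨b, hb⟩ <;>
    rw [ha, hb, polar_smul_left, polar_smul_right, smul_eq_mul, smul_eq_mul, pef] at k
  · simp [pee] at k
  · refine ⟨e, he, f, hf, a, b, by linear_combination k, pef, ha, hb, sp, fun y hy y0 μ hμ => ?_⟩
    obtain ⟨c, d, rfl⟩ := sp y hy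
    rw [map_add, map_smul, map_smul, ha, hb] at hμ
    have k1 := congrArg (polar Q · f) hμ
    have k2 := congrArg (polar Q · e) hμ
    simp only [polar_add_left, polar_smul_left, smul_eq_mul, pef, pff, pee, pfe] at k1 k2
    by_cases c0 : c = 0
    · exact .inr (mul_left_cancel₀ (show d ≠ 0 from fun d0 => y0 (by simp [c0, d0]))
        (by linear_combination -k2 - (μ - a) * 0 * c0))
    · exact .inl (mul_left_cancel₀ c0 (by linear_combination -k1))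
  · rw [pfe] at k
    have := plane_triv h2 hW h hg hn (fun w _ => by rw [hgn, O_one_apply]) (y := e + a • f)
      (W.add_mem he (W.smul_mem _ hf)) (fun e0 => by
        have := congrArg (polar Q · f) e0
        simp [polar_add_left, polar_smul_left, pef, pff] at this) (by
        rw [map_add, map_smul, ha, hb, smul_smul, show a * b = 1 by linear_combination k, one_smul, add_comm]) e he
    rw [← this, ha, polar_smul_left, pff] at pef
    simp at pef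
  · simp [pff] at k

end gen

variable {K G : Type*} [Field K] [IsAlgClosed K] [Group G] [Finite G] {ρ : G →* G7 K}
  {E : Type} [Field E] [Fintype E]

omit [IsAlgClosed K] [Finite G] in
theorem d4_inv {V : Type*} [AddCommGroup V] [Module K V] {Q : QuadraticForm K V} (τ : G →* O Q)
    {z₁ z₂ σ x : G} (a : A4 z₁ z₂ σ) (h1 : x * z₁ = z₁ * x) (h2 : x * σ = σ * x) :
    x * z₂ = z₂ * x ∧ ∀ ε δ : K, ∀ w ∈ J2 (τ z₁) (τ z₂) ε δ, (τ x).1 w ∈ J2 (τ z₁) (τ z₂) ε δ := by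
  have h3 : x * z₂ = z₂ * x := by
    rw [← a.c₁]; exact (((show Commute x σ from h2).mul_right h1).mul_right (show Commute x σ from h2).inv_right).eq
  refine ⟨h3, fun ε δ w hw => ?_⟩
  rw [mem_J2] at hw ⊢
  rw [← a4l_cm ((show Commute x z₁ from h1).map τ).eq, ← a4l_cm ((show Commute x z₂ from h3).map τ).eq, hw.1, hw.2,
    map_smul, map_smul]
  exact ⟨rfl, rfl⟩

omit [IsAlgClosed K] [Finite G] in
theorem Hy.d4_triv (h : Hy ρ) {z₁ z₂ σ x : G} (a : A4 z₁ z₂ σ) (h4 : rk (ρ z₁) = 4)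
    (h1 : x * z₁ = z₁ * x) (h2 : x * σ = σ * x) (hx : ∀ v ∈ J2 (ρ z₁) (ρ z₂) 1 (-1), (ρ x).1 v = v) :
    x = 1 := by
  obtain ⟨-, -, -, d1, -⟩ := h.a4V a h4
  have k := rk_add_fx (ρ x)
  rw [finrank_V7, fx] at k
  have iv : ∀ g, x * g = g * x → ∀ w ∈ LinearMap.ker (en (ρ x) - 1), (ρ g).1 w ∈ LinearMap.ker (en (ρ x) - 1) :=
    fun g hg w hw => a4l_ker.2 (by rw [a4l_cm ((show Commute x g from hg).map ρ).eq, a4l_ker.1 hw])
  have k1 := a4l_four h.two (a := ρ z₁) (b := ρ z₂) (by rw [← map_mul, a.sq, map_one])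
    (by rw [← map_mul, a.sq2, map_one]) (by rw [← map_mul, a.comm, map_mul]) (iv _ h1) (iv _ (d4_inv ρ a h1 h2).1)
  have k2 := a4l_cyc (a := ρ z₁) (b := ρ z₂) (s := ρ σ) (by rw [← map_inv, ← map_mul, ← map_mul, a.c₁])
    (by rw [← map_inv, ← map_mul, ← map_mul, a.c₂, map_mul]) (iv _ h2)
  rw [inf_eq_right.2 (show J2 (ρ z₁) (ρ z₂) 1 (-1) ≤ _ from fun v hv => a4l_ker.2 (hx v hv))] at k1 k2
  obtain ⟨m, hm⟩ := even_rk h.two (nondeg_Q7 h.two) (h.det x)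
  exact h.inj ((rk_eq_zero (by omega)).trans (map_one ρ).symm)

omit [Finite G] in
/-- the eigenvalues of `x` on the fixed space of `z₁` in the spin module -/
theorem Hy.d4_eig (h : Hy ρ) {ψ : G →* G8 K} (hψ : Spl ρ ψ) {z₁ z₂ σ x : G} (a : A4 z₁ z₂ σ)
    (h1 : x * z₁ = z₁ * x) (h2 : x * σ = σ * x) {n : ℕ} (hn : Odd n) (hx : x ^ n = 1) (h3 : x ^ 3 ≠ 1) :
    ∃ θ η : K, θ * η = 1 ∧ θ ^ 3 ≠ 1 ∧ (∃ y, (ψ z₁).1 y = y ∧ y ≠ 0 ∧ (ψ x).1 y = θ • y) ∧
      ∀ y, (ψ z₁).1 y = y → y ≠ 0 → ∀ μ : K, (ψ x).1 y = μ • y → μ = θ ∨ μ = η ∨ μ = θ ^ 3 ∨ μ = η ^ 3 := by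
  obtain ⟨h4, -, -, o1, -, -⟩ := h.a4O hψ a
  obtain ⟨-, -, -, d1, -⟩ := h.a4V a h4
  obtain ⟨h5, iv⟩ := d4_inv ρ a h1 h2
  obtain ⟨-, io⟩ := d4_inv ψ a h1 h2
  have c₁ : ψ σ * ψ z₁ * (ψ σ)⁻¹ = ψ z₂ := by rw [← map_inv, ← map_mul, ← map_mul, a.c₁]
  have c₂ : ψ σ * ψ z₂ * (ψ σ)⁻¹ = ψ z₁ * ψ z₂ := by rw [← map_inv, ← map_mul, ← map_mul, a.c₂, map_mul]
  have nd : ∀ {V : Type _} [AddCommGroup V] [Module K V] [FiniteDimensional K V] {Q : QuadraticForm K V}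
      (τ : G →* O Q), Nondeg Q → ND Q (J2 (τ z₁) (τ z₂) 1 (-1)) := fun τ hQ =>
    nd_J2 h.two hQ (by rw [← map_mul, a.sq, map_one]) (by rw [← map_mul, a.sq2, map_one])
      (by rw [← map_mul, a.comm, map_mul]) (.inl rfl) (.inr rfl)
  obtain ⟨u, hu, v, hv, κ, ι, k1, k2, k3, k4, k5, -⟩ := d4_rot h.two (nd ρ (nondeg_Q7 h.two)) d1 (iv 1 (-1)) hn
    (by rw [← map_pow, hx, map_one])
  obtain ⟨e, he, f, -, θ, η, t1, t2, t3, -, -, t6⟩ := d4_rot h.two (nd ψ nondeg_N8) o1 (io 1 (-1)) hn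
    (by rw [← map_pow, hx, map_one])
  have e0 : e ≠ 0 := fun e0 => by simp [e0] at t2
  have κ3 : κ ^ 3 ≠ 1 := fun κ3 => h3 (h.d4_triv a h4 ((show Commute x z₁ from h1).pow_left 3).eq
    ((show Commute x σ from h2).pow_left 3).eq fun w hw => by
      obtain ⟨c, d, rfl⟩ := k5 w hw
      have : ι ^ 3 = 1 := by linear_combination (κ ^ 2 * ι ^ 2 + κ * ι + 1) * k1 - ι ^ 3 * κ3
      simp only [pow_three, map_mul, O_mul_apply, map_add, map_smul, k3, k4, smul_smul]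
      rw [show c * (κ * κ * κ) = c by linear_combination c * κ3,
        show d * (ι * ι * ι) = d by linear_combination d * this])
  -- the Clifford step
  have cl : ∀ (ε δ μ : K) (y : Oc K), y ∈ J2 (ψ z₁) (ψ z₂) ε δ → y ≠ 0 → (ψ x).1 y = μ • y →
      ∃ w ∈ J2 (ψ z₁) (ψ z₂) ε (-δ), w ≠ 0 ∧ ((ψ x).1 w = (κ * μ) • w ∨ (ψ x).1 w = (ι * μ) • w) :=
    fun ε δ μ y hy y0 hμ => by
      have m : ∀ t ∈ J2 (ρ z₁) (ρ z₂) 1 (-1), L t y ∈ J2 (ψ z₁) (ψ z₂) ε (-δ) := fun t ht => by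
        rw [mem_J2] at ht hy ⊢
        rw [hψ, hψ, ht.1, ht.2, hy.1, hy.2]
        simp
      have m' : ∀ (t : V7 K) (c : K), (ρ x).1 t = c • t → (ψ x).1 (L t y) = (c * μ) • L t y := fun t c ht => by
        rw [hψ, ht, hμ, map_smul, map_smul, LinearMap.smul_apply, smul_smul, mul_comm]
      by_cases u0 : L u y = 0
      · refine ⟨_, m v hv, fun v0 => y0 ?_, .inr (m' v ι k4)⟩
        have := L_anti u v y
        rw [u0, v0, map_zero, map_zero, k2, one_smul, add_zero] at this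
        exact this.symm
      · exact ⟨_, m u hu, u0, .inl (m' u κ k3)⟩
  have sh : ∀ (μ : K) (y : Oc K), (ψ x).1 y = μ • y → (ψ x).1 ((ψ σ).1 y) = μ • (ψ σ).1 y := fun μ y hμ => by
    rw [a4l_cm ((show Commute x σ from h2).map ψ).eq, hμ, map_smul]
  have nz : ∀ y : Oc K, y ≠ 0 → (ψ σ).1 y ≠ 0 := fun y y0 e => y0 ((ψ σ).1.map_eq_zero_iff.1 e)
  have κ1 : κ ≠ 1 := fun e => κ3 (by rw [e, one_pow])
  have ι1 : ι ≠ 1 := fun e => κ1 (by linear_combination k1 - κ * e)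
  have θ0 : θ ≠ 0 := left_ne_zero_of_mul_eq_one t1
  have kk : κ = η ^ 2 ∧ ι = θ ^ 2 ∨ κ = θ ^ 2 ∧ ι = η ^ 2 := by
    obtain ⟨w, hw, w0, k⟩ := cl (-1) 1 θ _ (a4l_map c₁ c₂ (by ring) (by ring) he) (nz e e0) (sh θ e t3)
    have hw' := a4l_map c₁ c₂ (ε' := 1) (by ring) (by ring) hw
    rcases k with k | k <;> rcases t6 _ hw' (nz w w0) _ (sh _ w k) with j | j
    · exact absurd (mul_right_cancel₀ θ0 (j.trans (one_mul θ).symm)) κ1
    · exact .inl ⟨by linear_combination η * j - κ * t1,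
        by linear_combination θ ^ 2 * k1 - ι * θ * j - ι * t1⟩
    · exact absurd (mul_right_cancel₀ θ0 (j.trans (one_mul θ).symm)) ι1
    · exact .inr ⟨by linear_combination θ ^ 2 * k1 - κ * θ * j - κ * t1,
        by linear_combination η * j - ι * t1⟩
  refine ⟨θ, η, t1, fun θ3 => κ3 ?_, ⟨e, by rw [(mem_J2.1 he).1, one_smul], e0, t3⟩, fun y hy y0 μ hμ => ?_⟩
  · rcases kk with ⟨j, -⟩ | ⟨j, -⟩ <;> rw [j]
    · linear_combination (θ ^ 3 * η ^ 3 + 1) * (θ ^ 2 * η ^ 2 + θ * η + 1) * t1 - η ^ 6 * (θ ^ 3 + 1) * θ3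
    · linear_combination (θ ^ 3 + 1) * θ3
  have s2 : ∀ y, (ψ z₂).1 ((ψ z₂).1 y) = y := a4l_sq (by rw [← map_mul, a.sq2, map_one])
  by_cases b : (ψ z₂).1 y = y
  · obtain ⟨w, hw, w0, k⟩ := cl 1 1 μ y (mem_J2.2 ⟨by rw [hy, one_smul], by rw [b, one_smul]⟩) y0 hμ
    rcases k with k | k <;> rcases t6 _ hw w0 _ k with j | j <;> rcases kk with ⟨rfl, rfl⟩ | ⟨rfl, rfl⟩
    · exact .inr (.inr (.inl (by linear_combination θ ^ 2 * j - μ * (θ * η + 1) * t1)))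
    · exact .inr (.inl (by linear_combination η ^ 2 * j - (μ * (θ * η + 1) - η) * t1))
    · exact .inl (by linear_combination θ ^ 2 * j - (μ * (θ * η + 1) - θ) * t1)
    · exact .inr (.inr (.inr (by linear_combination η ^ 2 * j - μ * (θ * η + 1) * t1)))
    · exact .inr (.inl (by linear_combination η ^ 2 * j - (μ * (θ * η + 1) - η) * t1))
    · exact .inr (.inr (.inl (by linear_combination θ ^ 2 * j - μ * (θ * η + 1) * t1)))
    · exact .inr (.inr (.inr (by linear_combination η ^ 2 * j - μ * (θ * η + 1) * t1)))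
    · exact .inl (by linear_combination θ ^ 2 * j - (μ * (θ * η + 1) - θ) * t1)
  · refine (t6 (y - (ψ z₂).1 y) (mem_J2.2 ⟨?_, ?_⟩) (fun e => b (sub_eq_zero.1 e).symm) μ ?_).imp_right .inl
    · rw [map_sub, a4l_cm ((show Commute z₁ z₂ from a.comm).map ψ).eq, hy, one_smul]
    · rw [map_sub, s2, neg_one_smul, neg_sub]
    · rw [map_sub, a4l_cm ((show Commute x z₂ from h5).map ψ).eq, hμ, map_smul, smul_sub]

/-- the abstract configuration: `x = φ (diag λ)` centralises an `A₄` -/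
theorem Hy.d4_core (p : ℕ) [Fact p.Prime] [CharP K p] [CharP E p] (h : Hy ρ) {ψ : G →* G8 K}
    (hψ : Spl ρ ψ) {r : ℕ} (hE : Fintype.card E = r ^ 3) {z₁ z₂ σ : G} (a : A4 z₁ z₂ σ)
    (φ : SL(2, E) →* G) (hz : φ (-1) = z₁) {g : SL(2, E)} {l : E}
    (hl : IsPrimitiveRoot l (r ^ 2 + r + 1)) (hg : g.1 = !![l, 0; 0, l⁻¹])
    (h1 : φ g * σ = σ * φ g) : False := by
  have hp : p.Prime := Fact.out
  have p2 : p ≠ 2 := fun e => h.two (by have := CharP.cast_eq_zero K p; rwa [e] at this)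
  obtain ⟨n, -, hn⟩ := FiniteField.card E p
  obtain ⟨f, -, rfl⟩ := (Nat.dvd_prime_pow hp).1
    (show r ∣ p ^ (n : ℕ) by rw [← hn, hE]; exact dvd_pow_self r three_ne_zero)
  have f0 : 0 < f := Nat.pos_of_ne_zero fun e => by have := Fintype.one_lt_card (α := E); simp [hE, e] at this
  have p3 : 3 ≤ p := by have := hp.two_le; omega
  have r3 : 3 ≤ p ^ f := p3.trans (Nat.le_self_pow f0.ne' p)
  have po := hp.odd_of_ne_two p2
  have No : Odd ((p ^ f) ^ 2 + p ^ f + 1) := (po.pow.pow.add_odd po.pow).add_one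
  have N13 : 13 ≤ (p ^ f) ^ 2 + p ^ f + 1 := by nlinarith
  have c27 : 3 ^ 3 ≤ Fintype.card E := hE ▸ Nat.pow_le_pow_left r3 3
  have l0 : l ≠ 0 := hl.ne_zero (by omega)
  have sm : ∀ m : ℕ, 0 < m → m < 13 → l ^ m ≠ 1 := fun m m0 m1 e => by
    have := Nat.le_of_dvd m0 (hl.dvd_of_pow_eq_one m e)
    omega
  have gp : ∀ m : ℕ, (g ^ m).1 = !![l ^ m, 0; 0, l⁻¹ ^ m] := fun m => by
    induction m with
    | zero => simp [Matrix.one_fin_two]
    | succ m ih => rw [pow_succ, Matrix.SpecialLinearGroup.coe_mul, ih, hg]; simp [pow_succ]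
  have gN : g ^ ((p ^ f) ^ 2 + p ^ f + 1) = 1 := Subtype.ext (by
    rw [gp, inv_pow, hl.pow_eq_one]; simp [Matrix.one_fin_two])
  have x3 : φ g ^ 3 ≠ 1 := fun e => by
    rcases RootSub.sl2_normal (by rw [ENat.card_eq_coe_fintype_card]; exact_mod_cast (by omega)) φ.ker
      inferInstance with k | k
    · exact a.ne (hz.symm.trans (k.ge (mem_top (-1))))
    · obtain ⟨c, c1, c2⟩ := Matrix.SpecialLinearGroup.mem_center_iff.1
        (k (show g ^ 3 ∈ φ.ker from (map_pow φ g 3).trans e))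
      have c3 : c = l ^ 3 := by simpa using congrFun (congrFun (c2.trans (gp 3)) 0) 0
      rw [c3, ← pow_mul, Fintype.card_fin] at c1
      exact sm _ (by norm_num) (by norm_num) c1
  have cz : ∀ k, φ k * z₁ = z₁ * φ k := fun k => by rw [← hz, ← map_mul, ← map_mul, mul_neg_one, neg_one_mul]
  obtain ⟨θ, η, t1, t3, ⟨y, y1, y0, y2⟩, ev⟩ := h.d4_eig hψ a (cz g) h1 No (by rw [← map_pow, gN, map_one]) x3
  rcases fx4 p h.two (by omega) (ψ.comp φ) (W := LinearMap.ker (en (ψ z₁) - 1))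
    (nd_fix nondeg_N8 (n := 2) (by simpa using h.two) (by rw [pow_two, ← map_mul, a.sq, map_one]))
    (Lf.inv4 h.two (by rw [← map_mul, a.sq, map_one]) (h.a4O hψ a).1 (hψ z₁)).2
    (fun k w hw => a4l_ker.2 (by
      rw [MonoidHom.comp_apply, ← a4l_cm ((show Commute (φ k) z₁ from cz k).map ψ).eq, a4l_ker.1 hw]))
    (fun w hw => by rw [MonoidHom.comp_apply, hz, a4l_ker.1 hw]) with ⟨w, hw, w0, k⟩ | ⟨α, β, -, T⟩
  · rcases ev w (a4l_ker.1 hw) w0 1 ((k g).trans (one_smul _ _).symm) with j | j | j | j <;> apply t3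
    · rw [← j, one_pow]
    · rw [show θ = 1 by linear_combination t1 + θ * j, one_pow]
    · exact j.symm
    · linear_combination (θ ^ 2 * η ^ 2 + θ * η + 1) * t1 + θ ^ 3 * j
  have tg : g.1.trace = l + l⁻¹ := by rw [hg]; simp [Matrix.trace_fin_two]
  have rt : ∀ (γ : E →+* K) (m : K), m ^ 2 + 1 = γ g.1.trace * m ↔
      ∃ i : ℤ, (i = 1 ∨ i = -1) ∧ m = γ (l ^ i) := fun γ m => by
    have k : γ l * γ l⁻¹ = 1 := by rw [← map_mul, mul_inv_cancel₀ l0, map_one]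
    rw [tg, map_add]
    refine ⟨fun e => ?_, ?_⟩
    · rcases mul_eq_zero.1 (show (m - γ l) * (m - γ l⁻¹) = 0 by linear_combination e + k) with j | j
      · exact ⟨1, .inl rfl, by rw [zpow_one, sub_eq_zero.1 j]⟩
      · exact ⟨-1, .inr rfl, by rw [zpow_neg_one, sub_eq_zero.1 j]⟩
    · rintro ⟨_, rfl | rfl, rfl⟩
      · rw [zpow_one]; linear_combination -k
      · rw [zpow_neg_one]; linear_combination -k
  have n1 : ∀ (γ : E →+* K) (i : ℤ), i = 1 ∨ i = -1 → γ (l ^ i) ^ 2 ≠ 1 := fun γ i hi e => by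
    rw [← map_pow, map_eq_one_iff γ γ.injective] at e
    rcases hi with rfl | rfl
    · exact sm 2 (by norm_num) (by norm_num) (by simpa using e)
    · exact sm 2 (by norm_num) (by norm_num) (by simpa using e)
  have n2 : ∀ (γ δ : E →+* K) (i j : ℤ), i = 1 ∨ i = -1 → j = 1 ∨ j = -1 →
      (γ (l ^ i) ^ 2 * δ (l ^ j)) ^ 2 ≠ 1 := fun γ δ i j hi hj e => by
    obtain ⟨c, hc⟩ := d4_frob p γ δ
    rw [hc, ← map_pow, ← map_pow, ← map_mul, ← map_pow, map_eq_one_iff γ γ.injective, ← zpow_natCast,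
      ← zpow_natCast, ← zpow_natCast, ← zpow_mul, ← zpow_mul, ← zpow_add₀ l0, ← zpow_mul,
      hl.zpow_eq_one_iff_dvd] at e
    have e2 := (Int.isCoprime_two_right.2 (Int.odd_coe_nat _ |>.2 No)).dvd_of_dvd_mul_right e
    refine d4_nt (c := c) (ε := 2 * i * j) po p3 f0 (by rcases hi with rfl | rfl <;> rcases hj with rfl | rfl <;> simp) ?_
    have e3 := e2.mul_right j
    push_cast at e3
    rwa [show (i * 2 + j * (p : ℤ) ^ c) * j = p ^ c + 2 * i * j by rcases hj with rfl | rfl <;> ring] at e3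
  obtain ⟨u, m, hu, hm, rfl⟩ := (T g θ).1 ⟨y, a4l_ker.2 y1, y0, y2⟩
  obtain ⟨j, hj, rfl⟩ := (rt β m).1 hm
  obtain ⟨w, hw, w0, k⟩ := (T g _).2 ⟨u, β (l ^ (-j)), hu, (rt β _).2 ⟨-j, by omega, rfl⟩, rfl⟩
  obtain ⟨i, hi, rfl⟩ := (rt α u).1 hu
  have k1 : β (l ^ j) * β (l ^ (-j)) = 1 := by rw [← map_mul, ← zpow_add₀ l0, add_neg_cancel, zpow_zero, map_one]
  have q1 := n1 α i hi
  have q2 := n1 β j hj
  have q3 := n2 α β i j hi hj
  have q4 := n2 β α j i hj hi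
  have q5 := ev w (a4l_ker.1 hw) w0 _ k
  generalize α (l ^ i) = u, β (l ^ j) = v, β (l ^ (-j)) = v' at *
  rcases q5 with e | e | e | e
  · exact q2 (by linear_combination -(η * v ^ 2) * e + (1 - v ^ 2) * t1 + u * v * η * k1)
  · exact q1 (by linear_combination u * v * e + t1 - u ^ 2 * k1)
  · exact q4 (by linear_combination -(η * v ^ 2) * e + (1 - u ^ 2 * v ^ 4) * t1 + u * v * η * k1)
  · exact q3 (by
      linear_combination u ^ 3 * v ^ 3 * e + ((u * v * η) ^ 2 + u * v * η + 1) * t1 - u ^ 4 * v ^ 2 * k1)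

end CfsgLib.O7
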