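import Mathlib
import Cfsg.Agent.Lib.RepChk.Zorn
import Cfsg.Agent.Lib.Stein.FieldMap

/-!
KG23, the computation: `G₂(3)` is generated by an involution `a` and an element `b` of order three with `ab` of order 13.
-/

set_option autoImplicit false

namespace CfsgLib.O7.KG23

open Cfsg.Lie CfsgLib.Stein CfsgLib.Chev CfsgLib.RepChk Subgroup

/-- entries of a packed matrix -/
def gt (A i j : ℕ) : ℕ := A / 4 ^ (8 * i + j) % 4

/-- packing -/
def pk (f : ℕ → ℕ) (N : ℕ) : ℕ → ℕ := Nat.rec (fun _ => 0) (fun _ ih k => f k + 4 * ih (k + 1)) N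

theorem pk_get {f : ℕ → ℕ} (h : ∀ n, f n < 4) (N : ℕ) : ∀ k n, n < N → pk f N k / 4 ^ n % 4 = f (k + n) := by
  induction N with
  | zero => exact fun _ _ h => absurd h (Nat.not_lt_zero _)
  | succ N ih =>
    intro k n hn
    have e : pk f (N + 1) k = f k + 4 * pk f N (k + 1) := rfl
    have := h k
    cases n with
    | zero => rw [e, pow_zero, Nat.div_one, add_zero]; omega
    | succ n =>
      rw [e, pow_succ', ← Nat.div_div_eq_div_mul, show (f k + 4 * pk f N (k + 1)) / 4 = pk f N (k + 1) by omega,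
        ih _ _ (by omega), add_assoc, add_comm 1]

/-- an entry of the product -/
def pe (A B i j : ℕ) : ℕ := (gt A i 0 * gt B 0 j + gt A i 1 * gt B 1 j + gt A i 2 * gt B 2 j + gt A i 3 * gt B 3 j +
  gt A i 4 * gt B 4 j + gt A i 5 * gt B 5 j + gt A i 6 * gt B 6 j + gt A i 7 * gt B 7 j) % 3

/-- the product -/
def mm (A B : ℕ) : ℕ := pk (fun n => pe A B (n / 8) (n % 8)) 64 0

/-- the matrix -/
def toM (A : ℕ) : Matrix (Fin 8) (Fin 8) (ZMod 3) := Matrix.of fun i j => (gt A i j : ZMod 3)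

theorem toM_mm (A B : ℕ) : toM (mm A B) = toM A * toM B := by
  ext i j
  have e : gt (mm A B) i j = pe A B i j := by
    rw [gt, mm, pk_get (f := fun n => pe A B (n / 8) (n % 8))
      (fun n => (Nat.mod_lt _ three_pos).trans (Nat.lt_succ_self 3)) 64 0 _ (by omega), zero_add,
      show (8 * i.1 + j.1) / 8 = i by omega, show (8 * i.1 + j.1) % 8 = j by omega]
  rw [Matrix.mul_apply, Fin.sum_univ_eight]
  simp only [toM, Matrix.of_apply, e, pe, ZMod.natCast_mod]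
  push_cast
  rfl

/-- the group -/
abbrev X : Type := G2 (ZMod 3)

/-- `A` is the packed matrix of `x` -/
def Rp (x : X) (A : ℕ) : Prop := x.1.1 = toM A

theorem Rp.mul {x y : X} {A B : ℕ} (h : Rp x A) (h' : Rp y B) : Rp (x * y) (mm A B) := by
  rw [Rp, toM_mm, ← h, ← h']; rfl

theorem Rp.eq {x y : X} {A B : ℕ} (h : Rp x A) (h' : Rp y B) (e : A = B) : x = y :=
  Subtype.ext (Units.ext (h.trans (e ▸ h'.symm)))

/-- the identity -/
def I8 : ℕ := 85070916250026219054240312625736187905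

theorem rp_one : Rp 1 I8 := (by decide +kernel : (1 : Matrix (Fin 8) (Fin 8) (ZMod 3)) = toM I8)

/-- words -/
def wd (g : ℕ → X) (l : List ℕ) : X := (l.map g).prod

/-- packed matrices of words -/
noncomputable def wm (m : ℕ → ℕ) (l : List ℕ) : ℕ := List.rec I8 (fun k _ r => mm (m k) r) l

theorem rp_wd {g : ℕ → X} {m : ℕ → ℕ} (h : ∀ k, Rp (g k) (m k)) (l : List ℕ) : Rp (wd g l) (wm m l) := by
  induction l with
  | nil => exact rp_one
  | cons k l ih => rw [wd, List.map_cons, List.prod_cons]; exact (h k).mul ih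

theorem wd_mem {g : ℕ → X} {H : Subgroup X} (h : ∀ k, g k ∈ H) (l : List ℕ) : wd g l ∈ H :=
  list_prod_mem fun x hx => by
    obtain ⟨k, -, rfl⟩ := List.mem_map.1 hx
    exact h k

/-- the root elements -/
def y (r : ℕ) : X := zY (ZMod 3) r 1

/-- their matrices -/
def Y (r : ℕ) : ℕ := [85070916250026294612106290339873292289, 85070916254977979211390840924587425793,
  127606212115153198695785052745052196865, 85112454624894800091767379335248609285,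
  85237069769347477644858327893172027409, 85070916250026256833172175600077766657,
  85070916250645189073883002763186798593, 90387828866991183840562011870496819201,
  86400145513616477660284193719263232513, 85405829617834679776380080305786323073,
  85070997379664633660922008964497145857, 85070936532435822705910736572995862529].getD r I8

theorem Y_chk : ∀ r < 12, 1 + ev1 (1 : ZMod 3) (zX r) = toM (Y r) := by decide +kernel

theorem rp_y (r : ℕ) : Rp (y r) (Y r) := by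
  by_cases h : r < 12
  · rw [y, zY, dif_pos h]; exact Y_chk r h
  · rw [y, zY, dif_neg h, Y, List.getD_eq_default _ _ (by simpa using h)]; exact rp_one

/-- the generators -/
def i : X := wd y [5, 6, 6, 5]
def j : X := wd y [5, 5, 6, 6]
def a : X := wd y [5, 6, 6, 5, 5, 6, 6, 5]
def b : X := wd y [0, 11, 4, 9, 0, 0]
def A : ℕ := 85070916251264163815892175839000264705
def B : ℕ := 109518552652135715657188386775239106969
def B2 : ℕ := 129725980816082278975511265855868047973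

theorem chk1 : wm Y [5, 6, 6, 5, 5, 6, 6, 5] = A ∧ wm Y [0, 11, 4, 9, 0, 0] = B ∧ mm B B = B2 ∧
    mm (wm Y [5, 6, 6, 5]) (wm Y [5, 6, 6, 5]) = A ∧ mm (wm Y [5, 5, 6, 6]) (wm Y [5, 5, 6, 6]) = A ∧
    mm (wm Y [5, 6, 6, 5]) (wm Y [5, 5, 6, 6]) = mm A (mm (wm Y [5, 5, 6, 6]) (wm Y [5, 6, 6, 5])) ∧
    mm A A = I8 ∧ mm B2 B = I8 ∧ toM A 1 1 ≠ 1 := by decide +kernel

theorem rp_a : Rp a A := chk1.1 ▸ rp_wd rp_y _

theorem rp_b : Rp b B := chk1.2.1 ▸ rp_wd rp_y _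

/-- the letters `a`, `b`, `b²` -/
def g (k : ℕ) : X := [a, b].getD k (b * b)
def m (k : ℕ) : ℕ := [A, B].getD k B2

theorem rp_g : ∀ k, Rp (g k) (m k)
  | 0 => rp_a
  | 1 => rp_b
  | _ + 2 => (chk1.2.2.1 ▸ rp_b.mul rp_b : Rp (b * b) B2)

/-- the root elements as words -/
def W (r : ℕ) : List ℕ := [
  [1, 0, 2, 0, 1, 0, 2, 0, 2, 0, 1, 0, 2, 0, 1, 0, 2, 0, 1, 0, 2, 0, 1, 0, 1, 0, 2, 0, 1, 0, 2, 0],
  [2, 0, 1, 0, 1, 0, 1, 0, 1, 0, 2, 0, 1, 0, 1, 0, 2, 0, 1, 0, 2, 0, 1, 0, 1, 0, 1, 0, 2, 0, 2, 0, 1],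
  [1, 0, 1, 0, 1, 0, 1, 0, 1, 0, 2, 0, 2, 0, 1, 0, 2, 0, 2, 0, 1, 0, 1, 0, 2, 0, 2, 0, 1, 0, 2, 0, 1, 0, 2, 0, 2],
  [2, 0, 1, 0, 1, 0, 1, 0, 2, 0, 1, 0, 1, 0, 1, 0, 2, 0, 1, 0, 1, 0, 2],
  [0, 2, 0, 2, 0, 2, 0, 2, 0, 2, 0, 1, 0, 1, 0, 1, 0, 1, 0, 1],
  [1, 0, 1, 0, 1, 0, 1, 0, 2, 0, 1, 0, 2, 0, 2, 0, 1, 0, 1, 0, 1, 0, 2, 0, 2, 0, 1, 0, 2, 0, 1, 0, 1, 0, 1, 0, 1, 0],
  [1, 0, 2, 0, 2, 0, 1, 0, 2, 0, 1, 0, 2, 0, 1, 0, 1, 0, 2, 0, 1, 0, 2, 0, 2, 0, 1, 0, 2],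
  [1, 0, 2, 0, 2, 0, 2, 0, 1, 0, 2, 0, 2, 0, 2, 0, 1, 0, 2, 0, 2, 0, 1],
  [1, 0, 1, 0, 2, 0, 2, 0, 1, 0, 1, 0, 2, 0, 1, 0, 2, 0, 1, 0, 2, 0, 1, 0, 1, 0, 2, 0, 1, 0, 2, 0, 1, 0, 1, 0, 1, 0,
    1, 0, 2, 0, 2, 0],
  [2, 0, 2, 0, 2, 0, 2, 0, 2, 0, 1, 0, 1, 0, 2, 0, 1, 0, 1, 0, 2, 0, 2, 0, 1, 0, 1, 0, 2, 0, 1, 0, 2, 0, 1, 0, 1],
  [0, 2, 0, 1, 0, 2, 0, 1, 0, 1, 0, 2, 0, 1, 0, 2, 0, 1, 0, 2, 0, 1, 0, 2, 0, 2, 0, 1, 0, 2, 0, 1],
  [2, 0, 2, 0, 1, 0, 1, 0, 1, 0, 2, 0, 2, 0, 1, 0, 1, 0, 2, 0, 2, 0, 2, 0, 1, 0, 1, 0]].getD r []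

theorem chk2 : ∀ r < 12, Y r = wm m (W r) := by decide +kernel

/-- the conjugating element -/
def Wc : List ℕ := [1, 0, 1, 0, 2, 0, 1, 0, 1, 0, 1, 0, 1, 0, 1, 0, 2, 0, 1, 0, 2, 0, 2, 0, 2, 0, 2, 0, 2, 0, 1, 0, 1,
  0, 1, 0, 1, 0, 2, 0, 2, 0, 1, 0, 2]

theorem chk3 : mm (wm m Wc) (mm A B) = mm (mm (mm (mm A B) (mm A B)) (mm A B)) (wm m Wc) ∧
    wm (fun _ => mm A B) (List.replicate 13 0) = I8 := by decide +kernel

theorem ex3 : ∃ a : ZMod 3, a ≠ 0 ∧ a ≠ 1 := by decide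

theorem gen : Subgroup.closure {a, b} = ⊤ := by
  have ha : a ∈ Subgroup.closure {a, b} := subset_closure (by simp)
  have hb : b ∈ Subgroup.closure {a, b} := subset_closure (by simp)
  have hg : ∀ k, g k ∈ Subgroup.closure {a, b} := fun k => match k with
    | 0 => ha
    | 1 => hb
    | _ + 2 => mul_mem hb hb
  obtain ⟨φ, hφ⟩ := exists_zornEquiv (F := ZMod 3) ex3
  have h1 : (⊤ : Subgroup (chevG2.group (ZMod 3))) ≤ (Subgroup.closure {a, b}).comap φ.toMonoidHom := by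
    rw [← UUx_xG_eq_top, UUx, closure_le]
    rintro _ ⟨r, -, t, rfl⟩
    have e1 : φ (xG chevG2 (ZMod 3) r 1) ∈ Subgroup.closure {a, b} := by
      rw [hφ r r.2]
      show y r ∈ _
      rw [(rp_y r).eq (rp_wd rp_g _) (chk2 r r.2)]
      exact wd_mem hg _
    have e2 : ∀ t u, xG chevG2 (ZMod 3) r (t + u) = xG chevG2 (ZMod 3) r t * xG chevG2 (ZMod 3) r u :=
      fun t u => Subtype.ext (xU_add r t u)
    show φ (xG chevG2 (ZMod 3) r t) ∈ Subgroup.closure {a, b}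
    rcases (by decide : ∀ t : ZMod 3, t = 1 ∨ t = 1 + 1 ∨ t = 1 + 1 + 1) t with rfl | rfl | rfl
    · exact e1
    · rw [e2, map_mul]; exact mul_mem e1 e1
    · rw [e2, e2, map_mul, map_mul]; exact mul_mem (mul_mem e1 e1) e1
  refine eq_top_iff.2 fun x _ => ?_
  obtain ⟨x, rfl⟩ := φ.surjective x
  exact h1 (mem_top x)

theorem facts : a ≠ 1 ∧ a * a = 1 ∧ b ^ 3 = 1 ∧ (a * b) ^ 13 = 1 ∧ IsConj (a * b) ((a * b) ^ 3) ∧
    i * i = a ∧ j * j = a ∧ i * j = a * (j * i) := by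
  obtain ⟨-, -, -, c1, c2, c3, c4, c5, c6⟩ := chk1
  have hi : Rp i _ := rp_wd rp_y _
  have hj : Rp j _ := rp_wd rp_y _
  have hab := rp_a.mul rp_b
  have hc := rp_wd rp_g Wc
  refine ⟨fun e => c6 ?_, (rp_a.mul rp_a).eq rp_one c4, ?_, ?_, isConj_iff.2 ⟨wd g Wc, ?_⟩, (hi.mul hi).eq rp_a c1,
    (hj.mul hj).eq rp_a c2, (hi.mul hj).eq (rp_a.mul (hj.mul hi)) c3⟩
  · have : (1 : X).1.1 = toM A := e ▸ rp_a
    rw [← this]; rfl
  · rw [pow_three']; exact ((rp_g 2).mul rp_b).eq rp_one c5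
  · have := (rp_wd (g := fun _ => a * b) (fun _ => hab) _).eq rp_one chk3.2
    rwa [wd, List.map_replicate, List.prod_replicate] at this
  · rw [mul_inv_eq_iff_eq_mul, pow_three']
    exact (hc.mul hab).eq (((hab.mul hab).mul hab).mul hc) chk3.1

theorem exists_equiv {G E : Type*} [Group G] [Field E] [Fintype E] (hE : Fintype.card E = 3)
    (e : G ≃* chevG2.group E) : Nonempty (X ≃* G) := by
  obtain ⟨φ, -⟩ := exists_zornEquiv (F := ZMod 3) ex3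
  exact ⟨((e.trans (groupEquiv chevG2 (FiniteField.ringEquivOfCardEq (K' := ZMod 3)
    (by rw [hE, ZMod.card])))).trans φ).symm⟩

end CfsgLib.O7.KG23
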