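import Mathlib
import Cfsg.Agent.Lib.Recog.F8
import Cfsg.Agent.Lib.Classical.SLBasic
import Cfsg.Agent.Lib.Classical.SLCard
import Cfsg.Agent.Lib.Classical.SmallIso

/-!
L28, the group `SL₂(8)` and the integer model of the root system `E₇`.
-/

set_option autoImplicit false
set_option Elab.async false

namespace CfsgLib.O7.L8

open Subgroup CfsgLib.Recog
open scoped MatrixGroups

/-- the group -/
abbrev S8 : Type := SL(2, F8)

/-- upper transvections -/
def uF (t : F8) : S8 := ⟨!![1, t; 0, 1], by simp⟩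

/-- the non-trivial upper transvections -/
def u (i : Fin 7) : S8 := uF (F8.ofN (![1, 2, 4, 3, 6, 7, 5] i))

/-- the torus -/
def c : S8 := ⟨!![F8.ofN 6, 0; 0, F8.ofN 3], by rw [Matrix.det_fin_two_of]; decide +kernel⟩

/-- the Weyl element -/
def w : S8 := ⟨!![0, 1; 1, 0], by rw [Matrix.det_fin_two_of]; decide +kernel⟩

/-- powers of the torus element -/
def cp (k : Fin 7) : S8 := c ^ k.val

/-- the product of the Hurwitz generators -/
def c' : S8 := c * u 0 * c

theorem uF_add : ∀ s t, uF (s + t) = uF s * uF t := by decide +kernel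

/-- the root group -/
def uH : Multiplicative F8 →* S8 := MonoidHom.mk' (fun t => uF t.toAdd) fun _ _ => uF_add _ _

/-- the Sylow subgroup -/
def A : Subgroup S8 := uH.range

theorem uF_cases : ∀ t, uF t = 1 ∨ ∃ i, uF t = u i := by decide +kernel

theorem u_mem (i : Fin 7) : u i ∈ A := ⟨Multiplicative.ofAdd _, rfl⟩

theorem mem_A {a : S8} (h : a ∈ A) : a = 1 ∨ ∃ i, a = u i := by
  obtain ⟨t, rfl⟩ := h
  exact uF_cases _

theorem card_A : Nat.card A = 8 := by
  have h : Function.Injective uH := fun s t e =>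
    Multiplicative.toAdd.injective ((by decide +kernel : ∀ s t, uF s = uF t → s = t) _ _ e)
  rw [A, ← Nat.card_congr (MonoidHom.ofInjective h).toEquiv, Nat.card_eq_fintype_card,
    Fintype.card_multiplicative, F8.card_eq]

theorem card_S8 : Nat.card S8 = 504 := by rw [Classical.sl2_card, F8.card_eq]; norm_num

theorem exists_syl : ∃ S : Sylow 2 S8, (S : Subgroup S8) = A :=
  ⟨Sylow.ofCard A (by
    rw [card_A, card_S8, show (504 : ℕ) = 2 ^ 3 * 63 by norm_num,
      Nat.factorization_mul (by norm_num) (by norm_num), Nat.Prime.factorization_pow Nat.prime_two,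
      Finsupp.add_apply, Finsupp.single_eq_same, Nat.factorization_eq_zero_of_not_dvd (by norm_num)]
    norm_num), rfl⟩

theorem uu : ∀ i, u i * u i = 1 := by decide +kernel
theorem u_comm : ∀ i j, u i * u j = u j * u i := by decide +kernel
theorem u_add : ∀ i, u i * u (i + 1) = u (i + 3) := by decide +kernel
theorem u_ne : ∀ i, u i ≠ 1 := by decide +kernel
theorem u_cp : ∀ t k, u t * cp k = cp k * u (t - k) := by decide +kernel
theorem cp_cp : ∀ k j, cp k * cp j = cp (j + k) := by decide +kernel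
theorem cp_w : ∀ j, cp j * w * cp j = w := by decide +kernel
theorem cp_zero : cp 0 = 1 := pow_zero _
theorem ww : w * w = 1 := by decide +kernel
theorem wu : w * u 0 * (w * u 0) = u 0 * w ∧ w * u 0 * (u 0 * w) = 1 ∧ w * u 0 * w = u 0 * (w * u 0) := by
  decide +kernel
theorem c'_facts : c' ^ 7 = 1 ∧ (∀ i, c' * u i = u (i + 2) * c') ∧ c' * u 0 ≠ u 0 * c' ∧
    (w * c') ^ 3 = 1 ∧ c * (w * c') = w * u 0 * c ∧ w * c' ≠ 1 ∧
    u 2 = w * c' * c' * w * c' * c' * c' * w * c' ∧ ∀ i, ∃ k : Fin 7, u i * c' ^ k.val = c' ^ k.val * u 2 := by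
  decide +kernel

theorem gen {H : Subgroup S8} (h1 : ∀ i, u i ∈ H) (h2 : w ∈ H) : H = ⊤ :=
  Classical.sl_eq_top_of_transvection_mem H fun i j hij t => by
    rcases (by decide +kernel : ∀ (i j : Fin 2) (hij : i ≠ j) (t : F8),
      Matrix.SpecialLinearGroup.transvection hij t = 1 ∨ ∃ k,
        Matrix.SpecialLinearGroup.transvection hij t = u k ∨
        Matrix.SpecialLinearGroup.transvection hij t = w * u k * w) i j hij t with e | ⟨k, e | e⟩ <;> rw [e]
    exacts [one_mem _, h1 k, mul_mem (mul_mem h2 (h1 k)) h2]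

theorem gen2 : closure {w, w * c'} = ⊤ := by
  have h1 : w ∈ closure {w, w * c'} := subset_closure (by simp)
  have h2 : c' ∈ closure {w, w * c'} :=
    (mul_mem_cancel_left h1).1 (subset_closure (by simp))
  have h3 : u 2 ∈ closure {w, w * c'} := by
    rw [c'_facts.2.2.2.2.2.2.1]
    exact mul_mem (mul_mem (mul_mem (mul_mem (mul_mem (mul_mem (mul_mem (mul_mem h1 h2) h2) h1) h2) h2) h2) h1) h2
  refine gen (fun i => ?_) h1
  obtain ⟨k, e⟩ := c'_facts.2.2.2.2.2.2.2 i
  rw [eq_mul_inv_of_mul_eq e]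
  exact mul_mem (mul_mem (pow_mem h2 _) h3) (inv_mem (pow_mem h2 _))

theorem exists_equiv {G : Type*} [Group G] {F : Type} [Field F] [Fintype F] (hF : Fintype.card F = 8)
    (e : G ≃* PSL(2, F)) : Nonempty (S8 ≃* G) := by
  have h : center S8 = ⊥ := card_eq_one.1 (by rw [Classical.sl_card_center, F8.card_eq]; rfl)
  exact ⟨((e.trans (Classical.pslMapEquiv (FiniteField.ringEquivOfCardEq (hF.trans F8.card_eq.symm)))).trans
    ((QuotientGroup.quotientMulEquivOfEq h).trans QuotientGroup.quotientBot)).symm⟩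

/-! ### the integer model -/

/-- the character of the first frame vector -/
def e0 (i : Fin 7) : Bool := ![true, false, false, true, false, true, true] i

/-- the signs of the root group on the frame -/
def D (t j : Fin 7) : ℤ := if e0 (t - j) then -1 else 1

/-- twice the first column of the Weyl element -/
def m' (i : Fin 7) : ℤ := ![1, 0, 0, -1, 0, -1, -1] i

/-- the roots up to sign, doubled -/
def zz (t : Fin 9) (j i : Fin 7) : ℤ :=
  if t = 8 then (if j = i then 2 else 0) else if t = 7 then m' (i + j) else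
    D (Fin.ofNat 7 t.val) i * m' (i + j)

theorem ch_shift (s : Fin 7 → Bool) (h0 : s 0 = true) (h : ∀ i, s (i + 3) = xor (s i) (s (i + 1))) :
    ∃ k, ∀ t, s (t - k) = e0 t := by
  have h1 : s = ![s 0, s 1, s 2, s 3, s 4, s 5, s 6] := funext fun i => by fin_cases i <;> rfl
  rw [h1] at h h0 ⊢
  generalize s 0 = a0, s 1 = a1, s 2 = a2, s 3 = a3, s 4 = a4, s 5 = a5, s 6 = a6 at h h0 ⊢
  revert a0 a1 a2 a3 a4 a5 a6
  decide +kernel

theorem D_sep : ∀ i j, i ≠ j → ∃ t, D t i * D t j = -1 := by decide +kernel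

theorem D0 : D 0 0 = -1 ∧ D 0 1 = -1 ∧ D 0 2 = -1 ∧ D 0 3 = 1 ∧ D 0 4 = -1 ∧ D 0 5 = 1 ∧ D 0 6 = 1 := by
  decide +kernel

theorem zz_cases : ∀ t j, (∀ i, zz t j i = if j = i then 2 else 0) ∨ (∀ i, zz t j i = m' (i + j)) ∨
    ∃ r, ∀ i, zz t j i = D r i * m' (i + j) := by decide +kernel

theorem zz_u : ∀ r t j, ∃ t', (∀ i, D r i * zz t j i = zz t' j i) ∨ ∀ i, D r i * zz t j i = -zz t' j i := by
  decide +kernel

theorem zz_r : ∀ t j, ∃ t', (∀ i, (if i = 0 then -1 else 1) * zz t j i = zz t' j i) ∨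
    ∀ i, (if i = 0 then -1 else 1) * zz t j i = -zz t' j i := by
  decide +kernel

theorem zz_w : ∀ t j, ∃ t' j', (∀ i, ∑ k, m' (i + k) * zz t j k = 2 * zz t' j' i) ∨
    ∀ i, ∑ k, m' (i + k) * zz t j k = 2 * -zz t' j' i := by
  decide +kernel

theorem zz_zero : ∀ t j, zz t j 0 * zz t j 0 = 0 ∨ zz t j 0 * zz t j 0 = 1 ∨ (t = 8 ∧ j = 0) := by
  decide +kernel

end CfsgLib.O7.L8
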