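import Cfsg.Agent.Lib.O7.Defs
import Cfsg.Agent.Lib.Wl11.DimA

/-!
SPIN: lifts to the spin module.  See `plans/O7B.md`.
-/

set_option autoImplicit false

namespace CfsgLib.O7

open CfsgLib.OrthE CfsgLib.OMax Module QuadraticMap Subgroup
open scoped MatrixGroups

variable {K G : Type*} [Field K] [Group G] {ρ : G →* G7 K}

theorem polar_L (v w : V7 K) (x : Oc K) : polar (N8 K) (L v x) (L w x) = -polar (Q7 K) v w * N8 K x := by
  have h := N8_L (v + w) x
  rw [map_add, LinearMap.add_apply, Q_add, Q_add, N8_L, N8_L] at h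
  linear_combination h

theorem N8_e8 : N8 K (e8 K) = 1 := by simp [N8_apply, e8]

theorem e8_ne : e8 K ≠ 0 := fun h => one_ne_zero (congrFun h 0)

theorem ng8_ne (h2 : (2 : K) ≠ 0) : ng (N8 K) ≠ 1 := fun h => h2 (by
  have : -(1 : K) = 1 := congrFun (congrArg (fun g : G8 K => g.1 (e8 K)) h) 0
  linear_combination -this)

theorem L_eq_zero {v : V7 K} {x : Oc K} (hx : N8 K x ≠ 0) (h : L v x = 0) : v = 0 := by
  have h1 : ∀ w, polar (Q7 K) v w = 0 := fun w => by
    have := polar_L v w x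
    rw [h, polar_zero_left] at this
    exact neg_eq_zero.1 ((mul_eq_zero.1 this.symm).resolve_right hx)
  have h2 : Q7 K v = 0 := by
    have := N8_L v x
    rw [h, map_zero] at this
    exact neg_eq_zero.1 ((mul_eq_zero.1 this.symm).resolve_right hx)
  have h3 : ∀ i, v (.inr (.inl i)) = 0 := fun i => by
    have := h1 (Pi.single (.inr (.inr i)) 1)
    fin_cases i <;> simpa [polar, Q7_apply, mul_add] using this
  have h4 : ∀ i, v (.inr (.inr i)) = 0 := fun i => by
    have := h1 (Pi.single (.inr (.inl i)) 1)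
    fin_cases i <;> simpa [polar, Q7_apply, h3] using this
  funext i
  rcases i with i | i | i
  exacts [by simpa [Q7_apply, h3] using h2, h3 i, h4 i]

theorem L_inj {v : V7 K} (h : ∀ x, L v x = 0) : v = 0 :=
  L_eq_zero (N8_e8.trans_ne one_ne_zero) (h _)

/-- a non-singular `y` gives `O = ⟨y⟩ ⊕ L_V y` -/
theorem exists_L {y : Oc K} (h2 : (2 : K) ≠ 0) (hy : N8 K y ≠ 0) (x : Oc K) :
    ∃ (c : K) (v : V7 K), x = c • y + L v y := by
  have h : Function.Injective ((LinearMap.toSpanSingleton K _ y).coprod (L.flip y)) := by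
    rw [injective_iff_map_eq_zero]
    rintro ⟨c, v⟩ e
    replace e : c • y + L v y = 0 := e
    have h1 := congrArg (polar (N8 K) · y) e
    have h3 := L_skew v y y
    simp only [polar_add_left, polar_smul_left, polar_zero_left, polar_self', smul_eq_mul] at h1
    rw [polar_comm _ y] at h3
    have h4 : c = 0 := by
      have : (2 : K) * (2 * (c * N8 K y)) = 0 := by linear_combination 2 * h1 - h3
      simpa [h2, hy] using this
    rw [h4, zero_smul, zero_add] at e
    rw [h4, L_eq_zero hy e]; rfl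
  obtain ⟨⟨c, v⟩, e⟩ := (LinearMap.injective_iff_surjective_of_finrank_eq_finrank (by simp)).1 h x
  exact ⟨c, v, e.symm⟩

theorem comm_L (h2 : (2 : K) ≠ 0) (T : Module.End K (Oc K)) (h : ∀ v x, T (L v x) = L v (T x)) :
    ∃ c : K, ∀ x, T x = c • x := by
  have k : ∀ (i j : I7) (u : V7 K), L (Pi.single i 1) (L (Pi.single j 1) (e8 K)) = L u (e8 K) →
      L (Pi.single i 1) (L (Pi.single j 1) (T (e8 K))) = L u (T (e8 K)) := fun i j u e => by
    rw [← h, ← h, e, h]
  have k1 := k (.inr (.inl 0)) (.inr (.inr 1)) 0 (funext fun i => by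
    fin_cases i <;> simp [L_apply, Cfsg.Lie.zornMul, emb, e8, Cfsg.Lie.dot3, Cfsg.Lie.cross3])
  have k2 := k (.inr (.inl 0)) (.inr (.inr 2)) 0 (funext fun i => by
    fin_cases i <;> simp [L_apply, Cfsg.Lie.zornMul, emb, e8, Cfsg.Lie.dot3, Cfsg.Lie.cross3])
  have k3 := k (.inr (.inl 1)) (.inr (.inr 0)) 0 (funext fun i => by
    fin_cases i <;> simp [L_apply, Cfsg.Lie.zornMul, emb, e8, Cfsg.Lie.dot3, Cfsg.Lie.cross3])
  have k4 := k (.inr (.inl 2)) (.inr (.inr 0)) 0 (funext fun i => by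
    fin_cases i <;> simp [L_apply, Cfsg.Lie.zornMul, emb, e8, Cfsg.Lie.dot3, Cfsg.Lie.cross3])
  have k5 := k (.inr (.inl 0)) (.inr (.inl 1)) (Pi.single (.inr (.inr 2)) 1) (funext fun i => by
    fin_cases i <;> simp [L_apply, Cfsg.Lie.zornMul, emb, e8, Cfsg.Lie.dot3, Cfsg.Lie.cross3])
  have e : T (e8 K) = T (e8 K) 0 • e8 K := by
    generalize T (e8 K) = y at k1 k2 k3 k4 k5
    have a2 := congrFun k1 1
    have a4 := congrFun k1 5
    have a3 := congrFun k2 1
    have a1 := congrFun k3 2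
    have a5 := congrFun k3 4
    have a6 := congrFun k4 4
    have a7 := congrFun k5 6
    simp [L_apply, Cfsg.Lie.zornMul, emb, Cfsg.Lie.dot3, Cfsg.Lie.cross3] at a1 a2 a3 a4 a5 a6 a7
    funext i
    fin_cases i <;> simp [e8, a1, a2, a3, a4, a5, a6, a7]
  refine ⟨T (e8 K) 0, fun x => ?_⟩
  obtain ⟨c, v, rfl⟩ := exists_L h2 (N8_e8.trans_ne one_ne_zero) x
  generalize T (e8 K) 0 = a at e
  rw [map_add, map_smul, h, e, map_smul, smul_add, smul_comm]

theorem Lf.uniq (h2 : (2 : K) ≠ 0) {g : G7 K} {s t : G8 K} (hs : Lf g s) (ht : Lf g t) :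
    t = s ∨ t = ng (N8 K) * s := by
  have h := ht.mul hs.inv
  rw [mul_inv_cancel] at h
  obtain ⟨c, hc⟩ := comm_L h2 (en (t * s⁻¹)) h
  have h1 := O_map (t * s⁻¹) (e8 K)
  rw [← en_apply, hc, Q_smul, N8_e8, mul_one] at h1
  rcases mul_self_eq_one_iff.1 h1 with rfl | rfl
  · exact .inl (mul_inv_eq_one.1 (O_ext fun x => (hc x).trans (one_smul _ _)))
  · exact .inr (mul_inv_eq_iff_eq_mul.1 (O_ext fun x => (hc x).trans (neg_one_smul _ _)))

theorem Lf.inj {g k : G7 K} {s : G8 K} (hg : Lf g s) (hk : Lf k s) : g = k :=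
  O_ext fun v => sub_eq_zero.1 (L_inj fun x => by
    obtain ⟨y, rfl⟩ := s.1.surjective x
    rw [map_sub, LinearMap.sub_apply, ← hg, ← hk, sub_self])

/-- the annihilator of a singular spinor is a proper non-zero subspace -/
theorem exists_ann {y : Oc K} (hy : N8 K y = 0) : ∃ v : V7 K, v ≠ 0 ∧ L v y = 0 := by
  by_contra! h
  have h1 : Function.Injective (L.flip y : V7 K →ₗ[K] Oc K) :=
    (injective_iff_map_eq_zero _).2 fun v e => by_contra fun hv => h v hv e
  have h2 := LinearMap.BilinForm.finrank_orthogonal ((nondeg_iff _).1 (nondeg_N8 (K := K))) (LinearMap.range (L.flip y))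
  have h3 : LinearMap.range (L.flip y : V7 K →ₗ[K] Oc K) ≤
      LinearMap.BilinForm.orthogonal (polarBilin (N8 K)) (LinearMap.range (L.flip y)) := by
    rintro _ ⟨v, rfl⟩ _ ⟨w, rfl⟩
    exact (polar_L w v y).trans (by rw [hy, mul_zero])
  have h4 := Submodule.finrank_mono h3
  rw [h2, LinearMap.finrank_range_of_inj h1, finrank_V7, finrank_Oc] at h4
  omega

theorem exists_not_ann {y : Oc K} (hy : y ≠ 0) : ∃ v : V7 K, L v y ≠ 0 := by
  refine ⟨Pi.single (.inl ()) 1, fun h => hy ?_⟩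
  have := L_L (Pi.single (.inl ()) 1) y
  rw [h, map_zero] at this
  simpa [Q7_apply] using this.symm

theorem exists_lift_refl {v : V7 K} {c : K} (hc : c * c * Q7 K v = -1) :
    ∃ s : G8 K, Lf (ng (Q7 K) * refl (Q7 K) v) s ∧ ∀ x, s.1 x = c • L v x := by
  have hv : Q7 K v ≠ 0 := fun e => by simp [e] at hc
  have h1 : ∀ x, c • L v (-c • L v x) = x := fun x => by
    rw [map_smul, L_L, smul_smul, smul_smul, show c * -c * Q7 K v = 1 by linear_combination -hc, one_smul]
  refine ⟨mkO (c • L v) (-c • L v) h1 (fun x => ?_) fun x => ?_, fun w x => ?_, fun _ => rfl⟩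
  · have := h1 x
    simp only [LinearMap.smul_apply, map_smul, neg_smul, map_neg, smul_neg] at this ⊢
    exact this
  · rw [LinearMap.smul_apply, Q_smul, N8_L]; linear_combination -N8 K x * hc
  · rw [mkO_apply, mkO_apply, O_mul_apply, ng_apply, refl_apply]
    simp only [LinearMap.smul_apply, map_neg, map_sub, map_smul, LinearMap.neg_apply, LinearMap.sub_apply, L_L, smul_smul]
    rw [eq_sub_of_add_eq (L_anti v w x), polar_comm _ v w,
      show (Q7 K v)⁻¹ * polar (Q7 K) w v * Q7 K v = polar (Q7 K) w v by field_simp]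
    module

theorem det_refl7 {w : V7 K} (hw : Q7 K w ≠ 0) : LinearMap.det (en (refl (Q7 K) w)) = -1 := by
  have : en (refl (Q7 K) w) = LinearMap.transvection (-(Q7 K w)⁻¹ • (polarBilin (Q7 K)).flip w) w :=
    LinearMap.ext fun v => by
      rw [en_apply, refl_apply, LinearMap.transvection.apply, LinearMap.smul_apply, LinearMap.flip_apply,
        polarBilin_apply_apply, smul_eq_mul]
      module
  rw [this, LinearMap.transvection.det, LinearMap.smul_apply, LinearMap.flip_apply, polarBilin_apply_apply, polar_self',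
    smul_eq_mul]
  field_simp; ring

theorem det_ng7 : LinearMap.det (en (ng (Q7 K))) = -1 := by
  rw [show en (ng (Q7 K)) = (-1 : K) • LinearMap.id from LinearMap.ext fun v => (neg_one_smul K v).symm,
    LinearMap.det_smul, finrank_V7, LinearMap.det_id]
  norm_num

theorem lift_eich {u v : V7 K} (hu : Q7 K u = 0) (hv : Q7 K v = 0) (h : polar (Q7 K) u v = 0) :
    LinearMap.det (en (eich (Q7 K) u v)) = 1 ∧ ∃ s, Lf (eich (Q7 K) u v) s := by
  have h' : polar (Q7 K) v u = 0 := (polar_comm _ _ _).trans h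
  have a1 : ∀ x, L v (L u x) = -L u (L v x) := fun x => by
    rw [eq_sub_of_add_eq (L_anti v u x), h', zero_smul, zero_sub]
  have a2 : ∀ x, L u (L v (L u (L v x))) = 0 := fun x => by rw [a1, map_neg, L_L, hu, zero_smul, neg_zero]
  refine ⟨?_, mkO (1 + L u * L v) (1 - L u * L v) (fun x => ?_) (fun x => ?_) fun x => ?_, fun w x => ?_⟩
  · have : en (eich (Q7 K) u v) = LinearMap.transvection ((polarBilin (Q7 K)).flip v) u *
        LinearMap.transvection (-(polarBilin (Q7 K)).flip u) v := LinearMap.ext fun x => by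
      rw [en_apply, eich_apply hu h]
      simp only [End.mul_apply, LinearMap.transvection.apply, LinearMap.neg_apply, LinearMap.flip_apply,
        polarBilin_apply_apply, polar_add_left, polar_smul_left, polar_self', hv]
      module
    rw [this, map_mul, LinearMap.transvection.det, LinearMap.transvection.det]
    simp only [LinearMap.neg_apply, LinearMap.flip_apply, polarBilin_apply_apply, h, h', neg_zero, add_zero, mul_one]
  · simp [a2]
  · simp [a2]
  · simp only [LinearMap.add_apply, End.one_apply, End.mul_apply]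
    rw [Q_add, N8_L, hu, polar_comm, L_skew, polar_L, h']; ring
  · rw [mkO_apply, mkO_apply, eich_apply hu h]
    simp only [LinearMap.add_apply, End.one_apply, End.mul_apply, map_add, map_sub, map_smul, LinearMap.sub_apply,
      LinearMap.smul_apply, hv, zero_mul, zero_smul, sub_zero, L_L, hu, a1, map_zero, smul_zero, neg_zero]
    rw [eq_sub_of_add_eq (L_anti v w x), map_sub, map_smul, eq_sub_of_add_eq (L_anti u w (L v x)), polar_comm _ v w,
      polar_comm _ u w]
    module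

theorem exists_lift [IsAlgClosed K] (h2 : (2 : K) ≠ 0) (g : G7 K)
    (hg : LinearMap.det (en g) = 1) : ∃ s, Lf g s := by
  let P : G7 K → Prop := fun g => LinearMap.det (en g) = 1 ∧ ∃ s, Lf g s
  have pm : ∀ a b, P a → P b → P (a * b) := fun a b ⟨a1, s, a2⟩ ⟨b1, t, b2⟩ =>
    ⟨by rw [en_mul, map_mul, a1, b1, one_mul], _, a2.mul b2⟩
  have pi : ∀ a, P a → P a⁻¹ := fun a ⟨a1, s, a2⟩ =>
    ⟨by rw [← one_mul (LinearMap.det _), ← a1, ← map_mul, ← en_mul, mul_inv_cancel, en_one, map_one, a1], _, a2.inv⟩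
  have n1 : ∀ a : G7 K, ng (Q7 K) * (ng (Q7 K) * a) = a := fun a => by rw [← mul_assoc, ng_mul_ng, one_mul]
  let H : Subgroup (G7 K) :=
    { carrier := {g | P g ∨ P (ng (Q7 K) * g)}
      one_mem' := .inl ⟨by rw [en_one, map_one], 1, Lf.one⟩
      mul_mem' := by
        rintro a b (ha | ha) (hb | hb)
        · exact .inl (pm _ _ ha hb)
        · exact .inr (by rw [← mul_assoc, ng_comm, mul_assoc]; exact pm _ _ ha hb)
        · exact .inr (mul_assoc _ a b ▸ pm _ _ ha hb)
        · exact .inl (by have := pm _ _ ha hb; rwa [mul_assoc, ← mul_assoc a, ← ng_comm, mul_assoc, n1] at this)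
      inv_mem' := by
        rintro a (ha | ha)
        · exact .inl (pi _ ha)
        · exact .inr (by have := pi _ ha; rwa [mul_inv_rev, inv_eq_of_mul_eq_one_right ng_mul_ng, ← ng_comm] at this) }
  have hH : H = ⊤ := eq_top_of_refl_of_siegel (nondeg_Q7 h2) H (fun v hv => by
    obtain ⟨c, hc⟩ := IsAlgClosed.exists_eq_mul_self (-(Q7 K v)⁻¹)
    obtain ⟨s, hs, -⟩ := exists_lift_refl (v := v) (c := c) (by rw [← hc]; field_simp)
    exact .inr ⟨by rw [en_mul, map_mul, det_ng7, det_refl7 hv]; ring, s, hs⟩) fun u v hu hv h => .inl (lift_eich hu hv h)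
  rcases (hH.ge (mem_top g) : P g ∨ P (ng (Q7 K) * g)) with h | h
  · exact h.2
  · have := h.1
    rw [en_mul, map_mul, det_ng7, hg] at this
    exact absurd (by linear_combination -this) h2

theorem Hy.perfect (h : Hy ρ) : commutator G = ⊤ := by
  have := h.simple
  refine (IsSimpleGroup.eq_bot_or_eq_top_of_normal _ inferInstance).resolve_left fun e => h.ncomm ⟨⟨fun a b => ?_⟩⟩
  exact commutatorElement_eq_one_iff_mul_comm.1 (mem_bot.1 (e ▸ commutator_mem_commutator (mem_top a) (mem_top b)))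

theorem Hy.det (h : Hy ρ) (g : G) : LinearMap.det (en (ρ g)) = 1 := by
  have := Abelianization.commutator_subset_ker (LinearEquiv.det.comp ((O (Q7 K)).subtype.comp ρ)) (h.perfect.ge (mem_top g))
  rw [en, ← LinearEquiv.coe_det, Units.val_eq_one]
  exact this

theorem Hy.lift [IsAlgClosed K] (h : Hy ρ) (g : G) : ∃ s, Lf (ρ g) s :=
  exists_lift h.two _ (h.det g)

theorem ng_mul_pow {s : G8 K} {n : ℕ} (hn : Odd n) : (ng (N8 K) * s) ^ n = ng (N8 K) * s ^ n := by
  obtain ⟨k, rfl⟩ := hn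
  rw [Commute.mul_pow (ng_comm s), pow_succ (ng _), pow_mul, pow_two, ng_mul_ng, one_pow, one_mul]

theorem Lf.odd (h2 : (2 : K) ≠ 0) {g : G7 K} {s : G8 K} (hs : Lf g s) {n : ℕ} (hn : Odd n)
    (hg : g ^ n = 1) : ∃ t, Lf g t ∧ t ^ n = 1 := by
  rcases Lf.one.uniq h2 (hg ▸ hs.pow n) with e | e
  · exact ⟨s, hs, e⟩
  · exact ⟨_, hs.neg, by rw [ng_mul_pow hn, e, mul_one, ng_mul_ng]⟩

/-- two lifts of odd order agree -/
theorem Lf.odd_uniq (h2 : (2 : K) ≠ 0) {g : G7 K} {s t : G8 K} (hs : Lf g s) (ht : Lf g t) {n : ℕ}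
    (hn : Odd n) (h1 : s ^ n = 1) (h3 : t ^ n = 1) : s = t := by
  refine ((hs.uniq h2 ht).resolve_right fun e => ng8_ne h2 ?_).symm
  rwa [e, ng_mul_pow hn, h1, mul_one] at h3

theorem fixL_of_gen (h2 : (2 : K) ≠ 0) {S : Set G} (hS : closure S = ⊤) {y : Oc K} (hy : y ≠ 0)
    (h : ∀ g ∈ S, ∃ s, Lf (ρ g) s ∧ ∃ c : K, s.1 y = c • y) : FixL ρ := by
  have k : ∀ g, ∃ s, Lf (ρ g) s ∧ ∃ c : K, s.1 y = c • y := fun g => by
    induction (hS.ge (mem_top g)) using closure_induction with
    | mem g hg => exact h g hg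
    | one => exact ⟨1, map_one ρ ▸ Lf.one, 1, (one_smul _ _).symm⟩
    | mul a b _ _ ha hb =>
      obtain ⟨s, a1, c, a2⟩ := ha
      obtain ⟨t, b1, d, b2⟩ := hb
      exact ⟨s * t, map_mul ρ a b ▸ a1.mul b1, d * c, by rw [O_mul_apply, b2, map_smul, a2, smul_smul]⟩
    | inv a _ ha =>
      obtain ⟨s, a1, c, a2⟩ := ha
      have hc : c ≠ 0 := fun e => O_apply_ne_zero s hy (by rw [a2, e, zero_smul])
      exact ⟨s⁻¹, map_inv ρ a ▸ a1.inv, c⁻¹, O_inv_apply_eq s (by rw [map_smul, a2, smul_smul, inv_mul_cancel₀ hc, one_smul])⟩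
  refine ⟨y, hy, fun g t ht => ?_⟩
  obtain ⟨s, hs, c, e⟩ := k g
  rcases hs.uniq h2 ht with rfl | rfl
  exacts [⟨c, e⟩, ⟨-c, by rw [O_mul_apply, ng_apply, e, neg_smul]⟩]

theorem Hy.moves (h : Hy ρ) : ¬ ∀ g v, (ρ g).1 v = v := fun k => h.ncomm ⟨⟨fun a b =>
  h.inj (O_ext fun v => by rw [k, k])⟩⟩

/-- no non-zero vector is fixed; the commutator spaces of generators span -/
theorem Hy.fix (h : Hy ρ) {S : Set G} (hS : closure S = ⊤) {v : V7 K}
    (hv : ∀ g ∈ S, (ρ g).1 v = v) : v = 0 := by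
  have k : ∀ g, (ρ g).1 v = v := fun g => by
    induction (hS.ge (mem_top g)) using closure_induction with
    | mem g hg => exact hv g hg
    | one => rw [map_one, O_one_apply]
    | mul a b _ _ ha hb => rw [map_mul, O_mul_apply, hb, ha]
    | inv a _ ha => rw [map_inv]; exact O_inv_apply_eq _ ha
  rcases h.irr (⨅ g, fixSp (ρ g)) (fun g w hw => by
    rwa [mem_fixSp.1 ((Submodule.mem_iInf _).1 hw g)]) with e | e
  · exact (Submodule.mem_bot K).1 (e ▸ (Submodule.mem_iInf _).2 fun g => mem_fixSp.2 (k g))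
  · exact absurd (fun g w => mem_fixSp.1 ((Submodule.mem_iInf _).1 (e.ge (Submodule.mem_top (x := w))) g)) h.moves

theorem Hy.sum_rk (h : Hy ρ) {ι : Type*} (s : Finset ι) (g : ι → G)
    (hS : closure (g '' (s : Set ι)) = ⊤) : 7 ≤ ∑ i ∈ s, rk (ρ (g i)) := by
  classical
  have k1 : ∀ t : Finset ι, finrank K (t.sup fun i => LinearMap.range (en (ρ (g i)) - 1) : Submodule K (V7 K)) ≤
      ∑ i ∈ t, rk (ρ (g i)) := fun t => by
    induction t using Finset.induction_on with
    | empty => simp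
    | insert a t ha ih =>
      rw [Finset.sup_insert, Finset.sum_insert ha]
      exact (Submodule.finrank_add_le_finrank_add_finrank _ _).trans (Nat.add_le_add_left ih _)
  set W : Submodule K (V7 K) := s.sup fun i => LinearMap.range (en (ρ (g i)) - 1) with hW
  have k : ∀ x v, (ρ x).1 v - v ∈ W := by
    intro x
    induction (hS.ge (mem_top x)) using closure_induction with
    | mem x hx =>
      obtain ⟨i, hi, rfl⟩ := hx
      exact fun v => (Finset.le_sup (f := fun i => LinearMap.range (en (ρ (g i)) - 1)) hi : _ ≤ W) ⟨v, rfl⟩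
    | one => exact fun v => by rw [map_one, O_one_apply, sub_self]; exact zero_mem _
    | mul a b _ _ ha hb =>
      intro v
      rw [map_mul, O_mul_apply, ← sub_add_sub_cancel _ ((ρ b).1 v)]
      exact add_mem (ha _) (hb v)
    | inv a _ ha =>
      intro v
      have := neg_mem (ha ((ρ a)⁻¹.1 v))
      rwa [O_apply_inv_apply, neg_sub, ← map_inv] at this
  rcases h.irr W (fun x w hw => sub_add_cancel ((ρ x).1 w) w ▸ add_mem (k x w) hw) with e | e
  · exact absurd (fun x v => sub_eq_zero.1 ((Submodule.mem_bot K).1 (e ▸ k x v))) h.moves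
  · have := k1 s
    rwa [← hW, e, finrank_top, finrank_V7] at this

/-- a group with odd Schur multiplier lifts -/
theorem Hy.split [Finite G] [IsAlgClosed K] (h : Hy ρ) {X : Type*} [Group X] (e : G ≃* X) {n : ℕ}
    (hn : Odd n) (hm : Cfsg.HasCyclicSchurMultiplier X n) : ∃ ψ : G →* G8 K, Spl ρ ψ := by
  let Γ : Subgroup (G × G8 K) :=
    { carrier := {p | Lf (ρ p.1) p.2}
      one_mem' := show Lf (ρ 1) 1 from map_one ρ ▸ Lf.one
      mul_mem' := fun {a b} ha hb => show Lf (ρ (a.1 * b.1)) _ from map_mul ρ a.1 b.1 ▸ Lf.mul ha hb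
      inv_mem' := fun {a} ha => show Lf (ρ a.1⁻¹) _ from map_inv ρ a.1 ▸ Lf.inv ha }
  choose l hl using h.lift
  have : Finite Γ := ((Set.finite_range fun g => (g, l g)).union (Set.finite_range fun g => (g, ng (N8 K) * l g))).subset
    (t := (Γ : Set (G × G8 K))) fun p hp => ((hl p.1).uniq h.two hp).imp (fun e => ⟨p.1, Prod.ext rfl e.symm⟩)
      fun e => ⟨p.1, Prod.ext rfl e.symm⟩
  let π : Γ →* G := (MonoidHom.fst _ _).comp Γ.subtype
  have hπ : Function.Surjective π := fun g => ⟨⟨(g, l g), hl g⟩, rfl⟩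
  have k1 : ∀ z : Γ, π z = 1 → z * z = 1 ∧ ∀ a, a * z = z * a := fun z hz => by
    have h1 : z.1.1 = 1 := hz
    have h2 : Lf (ρ z.1.1) z.1.2 := z.2
    rw [h1, map_one] at h2
    rcases Lf.one.uniq h.two h2 with e | e
    · rw [show z = 1 from Subtype.ext (Prod.ext h1 e)]; simp
    · rw [mul_one] at e
      refine ⟨Subtype.ext (Prod.ext ?_ ?_), fun a => Subtype.ext (Prod.ext ?_ ?_)⟩ <;>
        simp only [coe_mul, Prod.fst_mul, Prod.snd_mul, h1, e, mul_one, one_mul, ng_mul_ng, ng_comm, coe_one, Prod.fst_one,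
          Prod.snd_one]
  have k2 : (commutator Γ).map π = ⊤ := by
    rw [_root_.commutator_def, map_commutator, ← MonoidHom.range_eq_map, MonoidHom.range_eq_top.2 hπ]
    exact h.perfect
  have k3 : ∀ a : Γ, ∃ d ∈ commutator Γ, ∃ z, (∀ b, b * z = z * b) ∧ a = d * z := fun a => by
    obtain ⟨d, hd, e⟩ := k2.ge (mem_top (π a))
    exact ⟨d, hd, d⁻¹ * a, (k1 _ (by rw [map_mul, map_inv, e, inv_mul_cancel])).2, by group⟩
  have k4 : commutator (commutator Γ) = ⊤ := by
    refine map_injective (subtype_injective _) ?_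
    rw [_root_.commutator_def (commutator Γ), map_commutator, ← MonoidHom.range_eq_map, range_subtype]
    refine le_antisymm (commutator_mono le_top le_top) (commutator_le.2 fun a _ b _ => ?_)
    obtain ⟨d, hd, z, hz, rfl⟩ := k3 a
    obtain ⟨d', hd', z', hz', rfl⟩ := k3 b
    convert commutator_mem_commutator hd hd' using 1
    calc d * z * (d' * z') * (d * z)⁻¹ * (d' * z')⁻¹ = d * (z * (d' * z')) * z⁻¹ * d⁻¹ * z'⁻¹ * d'⁻¹ := by group
      _ = d * d' * (z' * d⁻¹) * z'⁻¹ * d'⁻¹ := by rw [← hz]; group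
      _ = d * d' * d⁻¹ * d'⁻¹ := by rw [← hz']; group
  let σ : commutator Γ →* G := π.comp (commutator Γ).subtype
  have hσ : Function.Surjective σ := fun g => by
    obtain ⟨d, hd, e⟩ := k2.ge (mem_top g)
    exact ⟨⟨d, hd⟩, e⟩
  have hi : Function.Injective σ := (injective_iff_map_eq_one _).2 fun z hz =>
    Wl11.no_cover k4 (e.toMonoidHom.comp σ) (e.surjective.comp hσ)
      (fun d hd => mem_center_iff.2 fun b => Subtype.ext ((k1 d (e.map_eq_one_iff.1 hd)).2 b)) hn hm
      (e.map_eq_one_iff.2 hz) (Subtype.ext (k1 z hz).1)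
  refine ⟨((MonoidHom.snd _ _).comp (Γ.subtype.comp (commutator Γ).subtype)).comp
    (MulEquiv.ofBijective σ ⟨hi, hσ⟩).symm.toMonoidHom, fun g => ?_⟩
  obtain ⟨d, rfl⟩ := (MulEquiv.ofBijective σ ⟨hi, hσ⟩).surjective g
  rw [MonoidHom.comp_apply, MulEquiv.coe_toMonoidHom, MulEquiv.symm_apply_apply]
  exact d.1.2

end CfsgLib.O7
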