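import Cfsg.Agent.Lib.O7.Spin
import Cfsg.Agent.Lib.O7.Eig

/-!
SPINB: fixed spaces of lifts.  See `plans/O7B.md`.
-/

set_option autoImplicit false

namespace CfsgLib.O7

open CfsgLib.OrthE CfsgLib.OMax Module QuadraticMap Subgroup
open scoped MatrixGroups

variable {K G : Type*} [Field K] [Group G] {ρ : G →* G7 K}

section gen

variable {V : Type*} [AddCommGroup V] [Module K V] [FiniteDimensional K V] {Q : QuadraticForm K V}

omit [FiniteDimensional K V] in
theorem spb_le {W : Type*} [AddCommGroup W] [Module K W] [FiniteDimensional K W] (f : V →ₗ[K] W)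
    (hf : Function.Injective f) {p : Submodule K V} {q : Submodule K W} (h : ∀ x ∈ p, f x ∈ q) :
    finrank K p ≤ finrank K q :=
  (Submodule.equivMapOfInjective f hf p).finrank_eq.le.trans
    (Submodule.finrank_mono (Submodule.map_le_iff_le_comap.2 h))

omit [FiniteDimensional K V] in
theorem spb_ker {g : O Q} {x : V} : x ∈ LinearMap.ker (en g - 1) ↔ g.1 x = x := by
  rw [LinearMap.mem_ker, LinearMap.sub_apply, sub_eq_zero]; rfl

omit [FiniteDimensional K V] in
theorem spb_prod {ι : Type*} [DecidableEq ι] {b : ι → V} (h1 : ∀ i, Q (b i) ≠ 0)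
    (h2 : ∀ i j, i ≠ j → polar Q (b i) (b j) = 0) (m : ι) : ∀ l : List ι, l.Nodup →
      ((l.map b).map (refl Q)).prod.1 (b m) = if m ∈ l then -b m else b m
  | [], _ => rfl
  | i :: l, h => by
    rw [List.map_cons, List.map_cons, List.prod_cons, O_mul_apply, spb_prod h1 h2 m l h.of_cons]
    by_cases e : m = i
    · subst e
      rw [if_neg (List.nodup_cons.1 h).1, if_pos List.mem_cons_self, refl_apply_self (h1 m)]
    · simp only [List.mem_cons, e, false_or]
      split_ifs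
      · rw [map_neg, refl_apply_of_orth (h2 m i e)]
      · rw [refl_apply_of_orth (h2 m i e)]

theorem spb_refls (h2 : (2 : K) ≠ 0) (hQ : Nondeg Q) {t : O Q} (ht : t * t = 1) :
    ∃ l : List V, l.length = rk t ∧ (∀ v ∈ l, Q v ≠ 0 ∧ t.1 v = -v) ∧ l.Pairwise (fun u v => polar Q u v = 0) ∧
      t = (l.map (refl Q)).prod := by
  obtain ⟨b, d, h1, h3, h4, h5⟩ := exists_diag2 h2 hQ (fun _ : Unit => t) (fun _ _ => rfl) (fun _ => ht) rfl
  refine ⟨(Finset.univ.filter fun i => d () i = true).toList.map b, by rw [h5 ()]; simp, fun v hv => ?_, ?_, ?_⟩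
  · obtain ⟨i, hi, rfl⟩ := List.mem_map.1 hv
    exact ⟨h1 i, by rw [h4 () i, if_pos (by simpa using hi)]⟩
  · exact List.pairwise_map.2 ((Finset.nodup_toList _).imp fun e => h3 _ _ e)
  · refine en_inj (b.ext fun i => ?_)
    rw [en_apply, en_apply, spb_prod h1 h3 i _ (Finset.nodup_toList _), h4 () i]
    simp

theorem spb_six (h2 : (2 : K) ≠ 0) (hQ : Nondeg Q) {t : O Q} (ht : t * t = 1) (h : rk t + 1 = finrank K V) :
    ∃ v, Q v ≠ 0 ∧ refl Q v = ng Q * t := by
  obtain ⟨b, d, h1, h3, h4, h5⟩ := exists_diag2 h2 hQ (fun _ : Unit => t) (fun _ _ => rfl) (fun _ => ht) rfl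
  have := Finset.card_filter_add_card_filter_not (s := Finset.univ) fun i => d () i = true
  rw [← h5 (), Finset.card_univ, Fintype.card_fin] at this
  obtain ⟨m, hm⟩ := Finset.card_eq_one.1 (show (Finset.univ.filter fun i => ¬ d () i = true).card = 1 by omega)
  refine ⟨b m, h1 m, en_inj (b.ext fun i => ?_)⟩
  have k : ¬ d () i = true ↔ i = m := by simpa using Finset.ext_iff.1 hm i
  rw [en_apply, en_apply, O_mul_apply, ng_apply, h4 () i]
  by_cases e : i = m
  · rw [if_neg (k.2 e), e, refl_apply_self (h1 m)]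
  · rw [if_pos (not_not.1 (mt k.1 e)), neg_neg, refl_apply_of_orth (h3 i m e)]

end gen

theorem spb_anti {u v : V7 K} (h : polar (Q7 K) u v = 0) (x : Oc K) : L u (L v x) = -L v (L u x) := by
  have := L_anti u v x
  rw [h, zero_smul] at this
  exact eq_neg_of_add_eq_zero_left this

theorem spb_refl {a : V7 K} (ha : Q7 K a ≠ 0) (v : V7 K) (x : Oc K) :
    L a (L v x) = -L ((refl (Q7 K) a).1 v) (L a x) := by
  have := L_anti v a x
  rw [refl_apply, map_sub, map_smul, LinearMap.sub_apply, LinearMap.smul_apply, L_L, smul_smul,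
    mul_right_comm, inv_mul_cancel₀ ha, one_mul, ← this]
  abel

theorem spb_pair {a b : V7 K} (ha : Q7 K a ≠ 0) (hb : Q7 K b ≠ 0) (v : V7 K) (x : Oc K) :
    L a (L b (L v x)) = L ((refl (Q7 K) a * refl (Q7 K) b).1 v) (L a (L b x)) := by
  rw [spb_refl hb, map_neg, spb_refl ha, neg_neg, O_mul_apply]

theorem spb_sq (h2 : (2 : K) ≠ 0) {t : G7 K} {s : G8 K} (ht : t * t = 1) (hs : Lf t s) (M : Module.End K (Oc K))
    (h1 : ∀ v x, M (L v x) = L (t.1 v) (M x)) {q ε : K} (hq : q ≠ 0) (h3 : ∀ x, N8 K (M x) = q * N8 K x)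
    (h4 : ∀ x, M (M x) = (ε * q) • x) (x : Oc K) : ε • s.1 (s.1 x) = x := by
  obtain ⟨c, hc⟩ := comm_L h2 (M * en s) fun v x => by
    rw [Module.End.mul_apply, Module.End.mul_apply, en_apply, en_apply, hs, h1, ← O_mul_apply, ht, O_one_apply]
  simp only [Module.End.mul_apply, en_apply] at hc
  have e1 : c * c = q := by
    have := h3 (s.1 (e8 K))
    rw [hc, Q_smul, O_map] at this
    simpa [N8_apply, e8] using this
  have := h4 (s.1 (s.1 x))
  rw [hc, map_smul, hc, smul_smul, e1, mul_comm, mul_smul] at this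
  exact (smul_right_injective _ hq this).symm

theorem spb_inj {v : V7 K} (hv : Q7 K v ≠ 0) : Function.Injective (L v) := fun x y e =>
  smul_right_injective _ hv (show Q7 K v • x = Q7 K v • y by rw [← L_L, ← L_L, e])

theorem Lf.inv4 (h2 : (2 : K) ≠ 0) {t : G7 K} {s : G8 K} (ht : t * t = 1) (h4 : rk t = 4)
    (hs : Lf t s) : s * s = 1 ∧ fx s = 4 := by
  obtain ⟨l, h1, h3, h5, h6⟩ := spb_refls h2 (nondeg_Q7 h2) ht
  rw [h4] at h1
  obtain ⟨a, b, c, d, rfl⟩ : ∃ a b c d, l = [a, b, c, d] := by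
    rcases l with _ | ⟨a, _ | ⟨b, _ | ⟨c, _ | ⟨d, _ | _⟩⟩⟩⟩ <;> simp at h1 ⊢
  obtain ⟨qa, ta⟩ := h3 a (by simp)
  have qb := (h3 b (by simp)).1
  have qc := (h3 c (by simp)).1
  have qd := (h3 d (by simp)).1
  simp only [List.pairwise_cons, List.mem_cons, List.not_mem_nil, or_false, forall_eq_or_imp, forall_eq] at h5
  obtain ⟨⟨ab, ac, ad⟩, ⟨bc, bd⟩, cd, -⟩ := h5
  have ss : ∀ x, s.1 (s.1 x) = x := fun x => by
    have := spb_sq h2 ht hs (L a * L b * L c * L d) (fun v x => by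
        simp only [Module.End.mul_apply]
        rw [spb_pair qc qd, spb_pair qa qb, h6, ← O_mul_apply]
        simp [mul_assoc]) (q := Q7 K a * Q7 K b * Q7 K c * Q7 K d) (ε := 1) (by simp [qa, qb, qc, qd])
      (fun x => by simp only [Module.End.mul_apply, N8_L]; ring) (fun x => by
        simp only [Module.End.mul_apply, spb_anti (pc ab), spb_anti (pc ac), spb_anti (pc ad), spb_anti (pc bc),
          spb_anti (pc bd), spb_anti (pc cd), map_neg, neg_neg, L_L, map_smul, smul_smul, smul_neg]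
        congr 1; ring) x
    rwa [one_smul] at this
  refine ⟨O_ext ss, ?_⟩
  have e1 := rk_add_fx s
  have e2 : fx s ≤ rk s := spb_le (L a) (spb_inj qa) fun x hx => ⟨(-2⁻¹ : K) • L a x, by
    rw [map_smul, LinearMap.sub_apply, en_apply, hs, ta, spb_ker.1 hx, map_neg, LinearMap.neg_apply,
      Module.End.one_apply, ← neg_add', ← two_smul K, neg_smul_neg, smul_smul, inv_mul_cancel₀ h2, one_smul]⟩
  have e3 : rk s ≤ fx s := spb_le (L a) (spb_inj qa) (by
    rintro _ ⟨x, rfl⟩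
    rw [spb_ker, hs, ta, LinearMap.sub_apply, en_apply, Module.End.one_apply, map_sub s.1, ss, map_neg,
      LinearMap.neg_apply, ← map_neg, neg_sub])
  rw [finrank_Oc] at e1
  omega

theorem Lf.inv2 (h2 : (2 : K) ≠ 0) {t : G7 K} {s : G8 K} (ht : t * t = 1) (h4 : rk t = 2)
    (hs : Lf t s) : s * s = ng (N8 K) := by
  obtain ⟨l, h1, h3, h5, h6⟩ := spb_refls h2 (nondeg_Q7 h2) ht
  rw [h4] at h1
  obtain ⟨a, b, rfl⟩ := List.length_eq_two.1 h1
  have qa := (h3 a (by simp)).1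
  have qb := (h3 b (by simp)).1
  have ab : polar (Q7 K) a b = 0 := by simpa using h5
  refine O_ext fun x => ?_
  have := spb_sq h2 ht hs (L a * L b) (fun v x => by
      simp only [Module.End.mul_apply]
      rw [spb_pair qa qb, h6]
      simp) (q := Q7 K a * Q7 K b) (ε := -1) (by simp [qa, qb])
    (fun x => by simp only [Module.End.mul_apply, N8_L]; ring) (fun x => by
      simp only [Module.End.mul_apply, spb_anti (pc ab), L_L, map_smul, smul_smul, ← neg_smul]
      congr 1; ring) x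
  rw [neg_smul, one_smul] at this
  rw [O_mul_apply, ng_apply, ← this, neg_neg, this]

theorem spb_eig (h2 : (2 : K) ≠ 0) (h3 : (3 : K) ≠ 0) {b : G7 K} {s : G8 K} (hs : Lf b s)
    (h : ∀ x, s.1 (s.1 x) = -s.1 x - x) {ω : K} (hω : ω * ω + ω + 1 = 0) :
    finrank K (LinearMap.ker (en b - ω • 1)) ≤ 1 := by
  have n : ω * (1 - ω) ≠ 0 := mul_ne_zero (fun e => by simp [e] at hω) fun e => h3 (by
    rw [← sub_eq_zero.1 e] at hω; linear_combination hω)
  have m : ∀ {v}, v ∈ LinearMap.ker (en b - ω • 1) → b.1 v = ω • v := fun hv => by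
    rwa [LinearMap.mem_ker, LinearMap.sub_apply, sub_eq_zero] at hv
  have k : ∀ v, b.1 v = ω • v → ∀ x, L v (s.1 x) = ω • L v x := fun v hv x => by
    have := h (L v x)
    rw [hs, hv, map_smul, LinearMap.smul_apply, map_smul, hs, hv, map_smul, LinearMap.smul_apply, h, map_sub,
      map_neg] at this
    refine smul_right_injective _ n ?_
    simp only
    linear_combination (norm := module) this - hω • ((1 - ω) • L v x)
  by_contra hn
  obtain ⟨v, hv, v0⟩ := Submodule.exists_mem_ne_zero_of_ne_bot (p := LinearMap.ker (en b - ω • 1)) fun e => by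
    rw [e, finrank_bot] at hn; omega
  obtain ⟨v', hv', n'⟩ := SetLike.not_le_iff_exists.1 fun e : _ ≤ Submodule.span K {v} =>
    hn ((Submodule.finrank_mono e).trans (finrank_span_singleton v0).le)
  have z : ∀ x, L v (L v' x) = 0 := fun x => by
    have := k v (m hv) (L v' x)
    rw [hs, m hv', map_smul, LinearMap.smul_apply, k v' (m hv'), map_smul, map_smul] at this
    refine (smul_eq_zero.1 ?_).resolve_left n
    linear_combination (norm := module) -this
  obtain ⟨w, w1, w0⟩ := exists_dual_one (nondeg_Q7 h2) n'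
  refine v0 (L_inj fun x => ?_)
  have := congrArg (L v) (L_anti v' w x)
  rwa [w1, one_smul, map_add, z, spb_anti w0, z, map_zero, neg_zero, add_zero, eq_comm] at this

theorem Lf.cube [IsAlgClosed K] (h2 : (2 : K) ≠ 0) {b : G7 K} {s : G8 K} (hs : Lf b s)
    (h3 : s ^ 3 = 1) (h : rk b = 4 ∨ (3 : K) = 0) : 3 ≤ fx s := by
  by_cases n3 : (3 : K) = 0
  · have := fx_three n3 h3
    rw [finrank_Oc] at this
    omega
  replace h := h.resolve_right n3
  have b3 : b ^ 3 = 1 := (hs.pow 3).inj (h3 ▸ Lf.one)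
  have c3 : ∀ {V : Type _} [AddCommGroup V] [Module K V] {Q : QuadraticForm K V} {g : O Q}, g ^ 3 = 1 →
      ∀ x, g.1 (g.1 (g.1 x)) = x := fun e x => by
    rw [← O_mul_apply, ← O_mul_apply, ← pow_three', e, O_one_apply]
  have ne : LinearMap.ker (en s - 1) ≠ ⊥ := fun e => by
    have k : ∀ x, s.1 (s.1 x) = -s.1 x - x := fun x => by
      have : s.1 (s.1 x) + s.1 x + x ∈ LinearMap.ker (en s - 1) := by
        rw [spb_ker, map_add, map_add, c3 h3]; abel
      rw [e, Submodule.mem_bot] at this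
      linear_combination (exp := 1) this
    obtain ⟨ω, hω⟩ := IsAlgClosed.exists_root (Polynomial.X ^ 2 + Polynomial.X + 1 : Polynomial K) (by
      have : (Polynomial.X ^ 2 + Polynomial.X + 1 : Polynomial K).degree = 2 := by compute_degree!
      rw [this]; decide)
    replace hω : ω * ω + ω + 1 = 0 := by simpa [pow_two] using hω
    have n : ω - ω * ω ≠ 0 := fun e => n3 (by linear_combination (3 - 2 * ω) * hω - (2 * ω + 1) * e)
    have e1 := spb_eig h2 n3 hs k hω
    have e2 := spb_eig h2 n3 hs k (ω := ω * ω) (by linear_combination (ω * ω - ω + 1) * hω)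
    have e3 : LinearMap.range (en b - 1) ≤ LinearMap.ker (en b - ω • 1) ⊔ LinearMap.ker (en b - (ω * ω) • 1) := by
      rintro _ ⟨x, rfl⟩
      rw [LinearMap.sub_apply, en_apply, Module.End.one_apply]
      have r : b.1 (b.1 (b.1 x - x)) = -b.1 (b.1 x - x) - (b.1 x - x) := by
        simp only [map_sub, c3 b3]; abel
      generalize b.1 x - x = v at r
      refine Submodule.mem_sup.2 ⟨(ω - ω * ω)⁻¹ • (b.1 v - (ω * ω) • v), Submodule.smul_mem _ _ ?_,
        (ω - ω * ω)⁻¹ • (ω • v - b.1 v), Submodule.smul_mem _ _ ?_, ?_⟩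
      · simp only [LinearMap.mem_ker, LinearMap.sub_apply, LinearMap.smul_apply, Module.End.one_apply, en_apply,
          map_sub, map_smul, r]
        linear_combination (norm := module) hω • (-b.1 v) + hω • ((ω - 1) • v)
      · simp only [LinearMap.mem_ker, LinearMap.sub_apply, LinearMap.smul_apply, Module.End.one_apply, en_apply,
          map_sub, map_smul, r]
        linear_combination (norm := module) hω • b.1 v - hω • ((ω - 1) • v)
      · rw [← smul_add, sub_add_sub_cancel', ← sub_smul, smul_smul, inv_mul_cancel₀ n, one_smul]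
    have := (Submodule.finrank_mono e3).trans (Submodule.finrank_add_le_finrank_add_finrank _ _)
    rw [rk] at h
    omega
  obtain ⟨y, hy, qy⟩ : ∃ y ∈ LinearMap.ker (en s - 1), N8 K y ≠ 0 := by
    by_contra! hn
    refine ne (eq_bot_iff.2 fun x hx => nd_iff.1 (nd_fix nondeg_N8 (n := 3) n3 h3) x hx fun y hy => ?_)
    rw [polar, hn x hx, hn y hy, hn _ (add_mem hx hy)]; ring
  have := spb_le (L.flip y) (p := LinearMap.ker (en b - 1)) (q := LinearMap.ker (en s - 1))
    ((injective_iff_map_eq_zero _).2 fun v => L_eq_zero qy) fun w hw => by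
      rw [spb_ker, LinearMap.flip_apply, hs, spb_ker.1 hw, spb_ker.1 hy]
  have e1 := rk_add_fx b
  rw [finrank_V7, h] at e1
  rw [fx] at e1 ⊢
  omega

theorem Lf.c4 (h2 : (2 : K) ≠ 0) {g : G7 K} {s : G8 K} (hs : Lf g s) {W : Submodule K (Oc K)}
    (hW : ND (N8 K) W) (h6 : finrank K W = 6) (h : ∀ w ∈ W, s.1 w = w) : g = 1 := by
  refine O_ext fun v => sub_eq_zero.1 ?_
  have k : ∀ x ∈ W, L (g.1 v - v) x ∈ perp (N8 K) W := fun x hx => mem_perp.2 fun w hw => by
    have := O_polar s w (L v x)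
    rw [hs, h w hw, h x hx] at this
    rw [map_sub, LinearMap.sub_apply, polar_sub_right, this, sub_self]
  rw [O_one_apply]
  generalize g.1 v - v = u at k
  by_contra u0
  obtain ⟨w, hw⟩ := (nondeg_Q7 h2).exists_eq u0 1
  have e1 : LinearMap.ker (L u) ≤ LinearMap.range (L u) := fun x hx => ⟨L w x, by
    have := L_anti w u x
    rwa [LinearMap.mem_ker.1 hx, map_zero, zero_add, hw, one_smul] at this⟩
  have e2 := LinearMap.finrank_range_add_finrank_ker (L u)
  have e3 := LinearMap.finrank_range_add_finrank_ker ((L u).domRestrict W)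
  have e4 := finrank_perp nondeg_N8 W
  have e5 := Submodule.finrank_mono e1
  have e6 := Submodule.finrank_mono ((Submodule.map_le_iff_le_comap (f := L u) (p := W) (q := perp (N8 K) W)).2 k)
  rw [LinearMap.range_domRestrict, LinearMap.ker_domRestrict, ← Submodule.finrank_map_subtype_eq W,
    Submodule.map_comap_subtype] at e3
  rw [finrank_Oc] at e2 e4
  have e7 : W ⊓ LinearMap.ker (L u) = LinearMap.ker (L u) := Submodule.eq_of_le_of_finrank_le inf_le_right (by omega)
  have q : Q7 K u = 0 := by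
    by_contra q
    rw [LinearMap.ker_eq_bot.2 (spb_inj q), inf_bot_eq, finrank_bot] at e3
    omega
  have := Submodule.finrank_mono (show W ≤ LinearMap.ker (L u) from fun x hx =>
    Submodule.disjoint_def.1 hW _ (inf_eq_right.1 e7 (by rw [LinearMap.mem_ker, L_L, q, zero_smul])) (k x hx))
  omega

/-- involutions have weight two or four -/
theorem Hy.wt (h : Hy ρ) {t : G} (h1 : t ≠ 1) (ht : t * t = 1) : rk (ρ t) = 2 ∨ rk (ρ t) = 4 := by
  have e1 := even_rk h.two (nondeg_Q7 h.two) (h.det t)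
  have e2 := rk_add_fx (ρ t)
  have e3 : rk (ρ t) ≠ 0 := fun e => h1 (h.inj ((rk_eq_zero e).trans (map_one ρ).symm))
  have e4 : rk (ρ t) ≠ 6 := fun e => by
    obtain ⟨v, hv, k⟩ := spb_six h.two (nondeg_Q7 h.two) (t := ρ t) (by rw [← map_mul, ht, map_one])
      (by rw [e, finrank_V7])
    refine h.nr v hv ?_
    rintro _ ⟨x, rfl⟩
    refine ⟨t * x * t⁻¹, ?_⟩
    rw [k, mul_inv_rev, mul_assoc (ng _), mul_assoc (ng _), ng_comm, map_mul, map_mul, map_inv]
    group
  rw [finrank_V7] at e2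
  obtain ⟨m, hm⟩ := e1
  omega

/-- the third generator of a Hurwitz triple -/
def Third (K : Type*) [Field K] (c : G) : Prop :=
  (∃ p k : ℕ, p.Prime ∧ (p : K) = 0 ∧ c ^ p ^ k = 1) ∨ (c ^ 7 = 1 ∧ IsConj c (c ^ 2)) ∨
    (c ^ 13 = 1 ∧ IsConj c (c ^ 3))

theorem Hy.spb_odd [IsAlgClosed K] (h : Hy ρ) {c : G} {n : ℕ} (hn : Odd n) (hc : c ^ n = 1) :
    ∃ s, Lf (ρ c) s ∧ s ^ n = 1 :=
  let ⟨_, hs⟩ := h.lift c; hs.odd h.two hn (by rw [← map_pow, hc, map_one])

theorem Hy.spb_conj [IsAlgClosed K] (h : Hy ρ) {c : G} {n k : ℕ} (hn : Odd n) (hc : c ^ n = 1) (e : IsConj c (c ^ k)) :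
    ∃ s u, Lf (ρ c) s ∧ s ^ n = 1 ∧ u * s * u⁻¹ = s ^ k := by
  obtain ⟨s, hs, h1⟩ := h.spb_odd hn hc
  obtain ⟨g, hg⟩ := isConj_iff.1 e
  obtain ⟨u, hu⟩ := h.lift g
  have := (hu.mul hs).mul hu.inv
  rw [← map_inv, ← map_mul, ← map_mul, hg, map_pow] at this
  exact ⟨s, u, hs, h1, this.odd_uniq h.two (hs.pow k) hn (by rw [conj_pow, h1, mul_one, mul_inv_cancel])
    (by rw [← pow_mul, mul_comm, pow_mul, h1, one_pow])⟩

theorem Hy.third [IsAlgClosed K] (h : Hy ρ) {c : G} (hc : Third K c) :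
    ∃ s, Lf (ρ c) s ∧ 2 ≤ fx s := by
  have k : ∀ p k : ℕ, p.Prime → (p : K) = 0 → c ^ p ^ k = 1 → ∃ s, Lf (ρ c) s ∧ 2 ≤ fx s := fun p k hp h0 e => by
    have := Fact.mk hp
    have := (CharP.charP_iff_prime_eq_zero hp).2 h0
    obtain ⟨s, hs, h1⟩ := h.spb_odd (hp.odd_of_ne_two fun e => h.two (by simpa [e] using h0)).pow e
    exact ⟨s, hs, fx_unip h.two nondeg_N8 (by rw [finrank_Oc]; decide) (by rw [finrank_Oc]; decide) p h1⟩
  have k' : ∀ s : G8 K, 6 ∣ rk s → 2 ≤ fx s := fun s e => by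
    have := rk_add_fx s
    rw [finrank_Oc] at this
    omega
  rcases hc with ⟨p, n, hp, h0, e⟩ | ⟨e, e'⟩ | ⟨e, e'⟩
  · exact k p n hp h0 e
  · by_cases h0 : (7 : K) = 0
    · exact k 7 1 (by decide) (by simpa using h0) e
    · obtain ⟨s, u, hs, h1, h2⟩ := h.spb_conj (by decide) e e'
      exact ⟨s, hs, k' s (six_dvd nondeg_N8 (Or.inl ⟨h0, h1, h2⟩))⟩
  · by_cases h0 : (13 : K) = 0
    · exact k 13 1 (by decide) (by simpa using h0) e
    · obtain ⟨s, u, hs, h1, h2⟩ := h.spb_conj (by decide) e e'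
      exact ⟨s, hs, k' s (six_dvd nondeg_N8 (Or.inr ⟨h0, h1, h2⟩))⟩

/-- HUR, local form: the lifts of `a`, `b` fix a line -/
theorem Hy.hur0 [IsAlgClosed K] (h : Hy ρ) {a b : G} (ha : a * a = 1) (h4 : rk (ρ a) = 4)
    (hb : b ^ 3 = 1) (h3 : rk (ρ b) = 4 ∨ (3 : K) = 0) (hc : Third K (a * b)) :
    ∃ y, y ≠ 0 ∧ ∀ g ∈ closure {a, b}, ∀ s, Lf (ρ g) s → s.1 y = y ∨ s.1 y = -y := by
  obtain ⟨sb, lb, b3⟩ := h.spb_odd (by decide) hb
  obtain ⟨sc, lc, c2⟩ := h.third hc
  have la := lc.mul lb.inv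
  rw [map_mul, mul_inv_cancel_right] at la
  obtain ⟨y, y0, ya, yb⟩ := scottO nondeg_N8 (sc * sb⁻¹) sb (by
    have := lb.cube h.two b3 h3
    rw [(la.inv4 h.two (by rw [← map_mul, ha, map_one]) h4).2, inv_mul_cancel_right, finrank_Oc]
    omega)
  refine ⟨y, y0, fun g hg s hs => ?_⟩
  obtain ⟨t, ht, e⟩ : ∃ t, Lf (ρ g) t ∧ t.1 y = y := by
    clear hs
    induction hg using closure_induction with
    | mem x hx =>
      rcases hx with rfl | rfl
      exacts [⟨_, la, ya⟩, ⟨_, lb, yb⟩]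
    | one => exact ⟨1, map_one ρ ▸ Lf.one, rfl⟩
    | mul x z _ _ ih ih' =>
      obtain ⟨t, ht, e⟩ := ih
      obtain ⟨t', ht', e'⟩ := ih'
      exact ⟨t * t', map_mul ρ x z ▸ ht.mul ht', by rw [O_mul_apply, e', e]⟩
    | inv x _ ih =>
      obtain ⟨t, ht, e⟩ := ih
      exact ⟨t⁻¹, map_inv ρ x ▸ ht.inv, O_inv_apply_eq t e⟩
  rcases ht.uniq h.two hs with rfl | rfl
  exacts [Or.inl e, Or.inr (by rw [O_mul_apply, e, ng_apply])]

theorem Hy.hur [IsAlgClosed K] (h : Hy ρ) {a b : G} (hg : closure {a, b} = ⊤) (ha : a * a = 1)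
    (h4 : rk (ρ a) = 4) (hb : b ^ 3 = 1) (h3 : rk (ρ b) = 4 ∨ (3 : K) = 0)
    (hc : Third K (a * b)) : FixL ρ := by
  obtain ⟨y, y0, k⟩ := h.hur0 ha h4 hb h3 hc
  refine ⟨y, y0, fun g s hs => ?_⟩
  rcases k g (hg ▸ mem_top g) s hs with e | e
  exacts [⟨1, by rw [e, one_smul]⟩, ⟨-1, by rw [e, neg_smul, one_smul]⟩]

/-- W4: three conjugate involutions -/
theorem Hy.w4 (h : Hy ρ) {a b c : G} (hg : closure {a, b, c} = ⊤) (h1 : a ≠ 1) (ha : a * a = 1)
    (hb : IsConj a b) (hc : IsConj a c) : rk (ρ a) = 4 := by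
  have := h.sum_rk Finset.univ ![a, b, c] (by
    rw [← hg, Finset.coe_univ, Set.image_univ, Matrix.range_cons, Matrix.range_cons, Matrix.range_cons,
      Matrix.range_empty, Set.union_empty]
    rfl)
  simp only [Fin.sum_univ_three, Matrix.cons_val, ← rk_isConj hb, ← rk_isConj hc] at this
  rcases h.wt h1 ha with e | e <;> omega

end CfsgLib.O7
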