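import Cfsg.Agent.Lib.O7.TmG

/-!
TAME: Dickson's theorem for the three-dimensional root subspaces.  See `plans/O7B.md`.
-/

set_option autoImplicit false

namespace CfsgLib.O7

open CfsgLib.OrthE CfsgLib.OMax Module QuadraticMap Subgroup

variable {F V : Type*} [Field F] [Finite F] [AddCommGroup V] [Module F V] [FiniteDimensional F V]
  {Q : QuadraticForm F V} {H P : Subgroup (O Q)} {R : Set V}

theorem RS.tame_out (h : RS Q H P R) {u v : V} (hu : u ∈ R) :
    ∃ w ∈ R, w ∉ Submodule.span F {u, v} ∧ (polar Q w u ≠ 0 ∨ polar Q w v ≠ 0) := by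
  have h0 : Submodule.span F {u, v} ≠ ⊥ := fun e => by
    have : u ∈ Submodule.span F {u, v} := Submodule.subset_span (by simp)
    rw [e, Submodule.mem_bot] at this
    exact one_ne_zero ((h.one u hu).symm.trans (by rw [this, map_zero]))
  have h1 : Submodule.span F {u, v} ≠ ⊤ := fun e => by
    classical
    have := finrank_span_le_card (R := F) ({u, v} : Set V)
    rw [e, finrank_top, h.dim] at this
    have h2 : ({u, v} : Set V).toFinset.card ≤ 2 := by
      rw [Set.toFinset_insert, Set.toFinset_singleton]; exact Finset.card_le_two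
    omega
  obtain ⟨w, hw, h2, h3⟩ := h.exists_out h0 h1
  refine ⟨w, hw, h2, by_contra fun hn => h3 ?_⟩
  push Not at hn
  rw [mem_perp_span]
  rintro y (rfl | rfl)
  · exact pc hn.1
  · exact pc hn.2

theorem RS.tame_gold (h : RS Q H P R) {u v w : V} (hu : u ∈ R) (hv : v ∈ R) (hw : w ∈ R)
    (hd : Df u v) (hg : Gold (polar Q u v ^ 2)) (h1 : w ∉ Submodule.span F {u, v})
    (h2 : polar Q w u ≠ 0 ∨ polar Q w v ≠ 0) : TA5 Q R (Submodule.span F {u, v, w}) := by
  have h0 : polar Q u v ≠ 0 := fun e => gold_zero (F := F) (by simpa [e] using hg)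
  have h4 : polar Q u v ^ 2 ≠ 4 := fun e => h.two (by
    linear_combination gold_four (e ▸ hg) - h.tm_uni' hu hv hd e)
  have h5 : Dg Q u v w ≠ 0 := fun e => gold_two ((h.tm_deg hu hv hw h0 h4 h1 e).2 ▸ hg)
  refine (h.t3 ⟨hu, hv, hw, h0, h2, h5⟩).resolve_left fun t => ?_
  rcases t.val u hu (Submodule.subset_span (by simp)) v hv (Submodule.subset_span (by simp)) hd
    with e | e | e
  · exact h0 e
  · exact gold_one (e ▸ hg)
  · exact gold_two (e ▸ hg)

theorem RS.tame (h : RS Q H P R) : Tame Q R ∧ NoMix Q R := by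
  have m1 : ∀ a b c : V, a ∈ Submodule.span F ({a, b, c} : Set V) :=
    fun a b c => Submodule.subset_span (by simp)
  have m2 : ∀ a b c : V, b ∈ Submodule.span F ({a, b, c} : Set V) :=
    fun a b c => Submodule.subset_span (by simp)
  have m3 : ∀ a b c : V, c ∈ Submodule.span F ({a, b, c} : Set V) :=
    fun a b c => Submodule.subset_span (by simp)
  have n24 : (2 : F) ≠ 4 := fun e => h.two (by linear_combination -e)
  have n21 : (2 : F) ≠ 1 := fun e => one_ne_zero (α := F) (by linear_combination e)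
  refine ⟨⟨fun u hu v hv hd => ?_, fun u hu v hv hd e => h.tm_uni' hu hv hd e,
    fun u hu v hv w hw hd hg h1 => ?_, fun h3 u hu v hv w hw e h1 => ?_⟩,
    fun u hu v hv w hw hd hg e => ?_⟩
  · refine or_iff_not_imp_left.2 fun h0 => ?_
    by_cases h4 : polar Q u v ^ 2 = 4
    · exact Or.inl (by linear_combination h4 + h.tm_uni' hu hv hd h4)
    obtain ⟨w, hw, h1, h2⟩ := h.tame_out (v := v) hu
    by_cases h5 : Dg Q u v w = 0
    · exact Or.inr (Or.inl (h.tm_deg hu hv hw h0 h4 h1 h5).2)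
    rcases h.t3 ⟨hu, hv, hw, h0, h2, h5⟩ with t | t
    · rcases t.val u hu (m1 _ _ _) v hv (m2 _ _ _) hd with e | e | e
      exacts [absurd e h0, Or.inl e, Or.inr (Or.inl e)]
    · rcases t.val u hu (m1 _ _ _) v hv (m2 _ _ _) hd with e | e | e
      exacts [absurd e h0, Or.inl e, Or.inr (Or.inr e)]
  · refine or_iff_not_imp_left.2 fun h0 => ?_
    exact ((h.tame_gold hu hv hw hd hg h1 (Or.inl h0)).five u hu (m1 _ _ _) v hv (m2 _ _ _) w hw (m3 _ _ _)
      hd hg h1).resolve_left h0
  · refine or_iff_not_imp_left.2 fun h0 => ?_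
    have c0 : polar Q u v ≠ 0 := fun e' => h.two (by rw [← e, e']; ring)
    have hd : Df u v := by_contra fun hn => n24 (e.symm.trans (sq_of_not_df (h.one u hu) hn))
    have h5 : Dg Q u v w ≠ 0 := fun e' => h3 (h.tm_deg hu hv hw c0 (e ▸ n24) h1 e').1
    rcases h.t3 ⟨hu, hv, hw, c0, Or.inl h0, h5⟩ with t | t
    · exact (t.four h3 u hu (m1 _ _ _) v hv (m2 _ _ _) w hw (m3 _ _ _) e h1).resolve_left h0
    · rcases t.val u hu (m1 _ _ _) v hv (m2 _ _ _) hd with e' | e' | e'
      exacts [absurd e' c0, absurd (e.symm.trans e') n21, absurd (e ▸ e') gold_two]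
  · have c0 : polar Q w u ≠ 0 := fun e' => h.two (by rw [← e, e']; ring)
    have hd' : Df w u := by_contra fun hn => n24 (e.symm.trans (sq_of_not_df (h.one w hw) hn))
    have key : ∀ U : Submodule F V, TA5 Q R U → u ∈ U → w ∈ U → False := fun U t h1 h2 => by
      rcases t.val w hw h2 u hu h1 hd' with e' | e' | e'
      exacts [c0 e', n21 (e.symm.trans e'), gold_two (e ▸ e')]
    by_cases h1 : w ∈ Submodule.span F {u, v}
    · obtain ⟨x, hx, h2, h3⟩ := h.tame_out (v := v) hu
      exact key _ (h.tame_gold hu hv hx hd hg h2 h3) (m1 _ _ _)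
        (Submodule.span_mono (by intro y; simp; tauto) h1)
    · exact key _ (h.tame_gold hu hv hw hd hg h1 (Or.inl c0)) (m1 _ _ _) (m3 _ _ _)

end CfsgLib.O7
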