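import Cfsg.Agent.Lib.O7.DefsA

/-!
Vocabulary for TAME: three-dimensional root subspaces.  See `plans/O7B.md`, `plans/O7T.md`.
-/

set_option autoImplicit false

namespace CfsgLib.O7

open CfsgLib.Forms CfsgLib.ClMax CfsgLib.RootMax CfsgLib.OrthE CfsgLib.OMax CfsgLib.Dickson
  Module QuadraticMap
open scoped MatrixGroups

variable {F V : Type*} [Field F] [AddCommGroup V] [Module F V]

/-- half the Gram determinant of three vectors of norm one -/
def Dg (Q : QuadraticForm F V) (a b c : V) : F :=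
  4 + polar Q a b * polar Q c a * polar Q c b - polar Q a b ^ 2 - polar Q c a ^ 2 - polar Q c b ^ 2

/-- three roots, connected, spanning a non-degenerate space -/
structure Tr3 (Q : QuadraticForm F V) (R : Set V) (a b c : V) : Prop where
  ma : a ∈ R
  mb : b ∈ R
  mc : c ∈ R
  ab : polar Q a b ≠ 0
  cc : polar Q c a ≠ 0 ∨ polar Q c b ≠ 0
  dg : Dg Q a b c ≠ 0

/-- type `S₄` -/
structure TS4 (Q : QuadraticForm F V) (R : Set V) (U : Submodule F V) : Prop where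
  val : ∀ u ∈ R, u ∈ U → ∀ v ∈ R, v ∈ U → Df u v →
    polar Q u v = 0 ∨ polar Q u v ^ 2 = 1 ∨ polar Q u v ^ 2 = 2
  four : (3 : F) ≠ 0 → ∀ u ∈ R, u ∈ U → ∀ v ∈ R, v ∈ U → ∀ w ∈ R, w ∈ U → polar Q u v ^ 2 = 2 →
    w ∉ Submodule.span F {u, v} → polar Q w u = 0 ∨ polar Q w v = 0 ∨
      polar Q w ((refl Q u).1 v) = 0 ∨ polar Q w ((refl Q v).1 u) = 0

/-- type `A₅` -/
structure TA5 (Q : QuadraticForm F V) (R : Set V) (U : Submodule F V) : Prop where
  ne5 : (5 : F) ≠ 0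
  val : ∀ u ∈ R, u ∈ U → ∀ v ∈ R, v ∈ U → Df u v →
    polar Q u v = 0 ∨ polar Q u v ^ 2 = 1 ∨ Gold (polar Q u v ^ 2)
  five : ∀ u ∈ R, u ∈ U → ∀ v ∈ R, v ∈ U → ∀ w ∈ R, w ∈ U → Df u v → Gold (polar Q u v ^ 2) →
    w ∉ Submodule.span F {u, v} → polar Q w u = 0 ∨ polar Q w v = 0 ∨
      polar Q w ((refl Q u).1 v) = 0 ∨ polar Q w ((refl Q v).1 u) = 0 ∨
      polar Q w ((refl Q u).1 ((refl Q v).1 u)) = 0

/-- the square of `c` generates `K` -/
structure Gd5 (K : Subfield F) (c : F) : Prop where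
  ne : c ≠ 0
  mem : c ^ 2 ∈ K
  one : c ^ 2 = 1 → (5 : F) = 0
  gen : ∀ L : Subfield F, c ^ 2 ∈ L → K ≤ L

/-- field type -/
structure TFd (Q : QuadraticForm F V) (R : Set V) (U : Submodule F V) (K : Subfield F) : Prop where
  nd : ND Q U
  dim : finrank F U = 3
  val : ∀ u ∈ R, u ∈ U → ∀ v ∈ R, v ∈ U → polar Q u v ^ 2 ∈ K
  three : 5 ≤ Nat.card K → ∃ u ∈ R, ∃ v₁ ∈ R, ∃ v₂ ∈ R, ∃ α β γ : F,
    α • v₁ + β • v₂ + γ • u ∈ R ∧ α ≠ 0 ∧ β ≠ 0 ∧ Dg Q u v₁ v₂ ≠ 0 ∧ Gd5 K (polar Q u v₁) ∧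
      Gd5 K (polar Q u v₂) ∧ Gd5 K (polar Q u (α • v₁ + β • v₂ + γ • u))
  full : K = ⊤ → EIn (RG Q R) U

/-- the involution of a non-singular vector -/
noncomputable def ps (Ψ : V →ₗ[F] Matrix (Fin 2) (Fin 2) F) (u : V) : PGL(2, F) :=
  Matrix.ProjGenLinGroup.mk (glOf (Ψ u))

/-- the group generated by the involutions of the roots in `U` -/
noncomputable def GU (Ψ : V →ₗ[F] Matrix (Fin 2) (Fin 2) F) (R : Set V) (U : Submodule F V) :
    Subgroup PGL(2, F) := Subgroup.closure (ps Ψ '' {u | u ∈ R ∧ u ∈ U})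

theorem ps_mem (Ψ : V →ₗ[F] Matrix (Fin 2) (Fin 2) F) {R : Set V} {U : Submodule F V} {u : V}
    (hu : u ∈ R) (hU : u ∈ U) : ps Ψ u ∈ GU Ψ R U := Subgroup.subset_closure ⟨u, ⟨hu, hU⟩, rfl⟩

variable {Q : QuadraticForm F V}

theorem df_of_dg {a b c : V} (ha : Q a = 1) (h : Dg Q a b c ≠ 0) : Df a b := by
  constructor <;> rintro rfl <;> apply h <;> simp only [Dg, polar_neg_right, polar_self', ha] <;> ring

theorem gold_zero : ¬ Gold (0 : F) := by simp [Gold]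

theorem gold_one : ¬ Gold (1 : F) := fun h => one_ne_zero (α := F) (by
  unfold Gold at h; linear_combination -h)

theorem gold_two : ¬ Gold (2 : F) := fun h => one_ne_zero (α := F) (by
  unfold Gold at h; linear_combination -h)

theorem gold_four (h : Gold (4 : F)) : (5 : F) = 0 := by
  unfold Gold at h; linear_combination h

theorem sq_of_not_df {u v : V} (hu : Q u = 1) (h : ¬ Df u v) : polar Q u v ^ 2 = 4 := by
  unfold Df at h
  by_cases h1 : v = u
  · rw [h1, polar_self', hu]; ring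
  · obtain rfl : v = -u := by tauto
    rw [polar_neg_right, polar_self', hu]; ring

end CfsgLib.O7
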