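import Cfsg.Agent.Lib.O7.TmC1
import Cfsg.Agent.Lib.O7.TmD

/-!
TAME, part C: finite field computations.  See `plans/O7T.md`.
-/

set_option autoImplicit false

namespace CfsgLib.O7

open CfsgLib.Forms CfsgLib.ClMax CfsgLib.RootMax CfsgLib.OrthE CfsgLib.OMax CfsgLib.Dickson
  Module QuadraticMap
open scoped MatrixGroups

variable {F : Type*} [Field F] [Finite F]

theorem tmc_one (K : Subfield F) (h7 : 6 ≤ Nat.card K) {γ : Kˣ} (hγ : ∀ x, x ∈ Subgroup.zpowers γ) :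
    ((γ : K) : F) ^ 4 ≠ 1 ∧ ∀ L : Subfield F, ((γ : K) : F) ^ 2 ∈ L → K ≤ L := by
  refine ⟨fun e => ?_, fun L hL y hy => ?_⟩
  · have e1 : γ ^ 4 = 1 := Units.ext (Subtype.ext (by simpa using e))
    have := Nat.le_of_dvd (by norm_num) (orderOf_dvd_of_pow_eq_one e1)
    rw [orderOf_eq_card_of_forall_mem_zpowers hγ, Nat.card_units] at this
    omega
  · have sq : ∀ x : K, (x : F) * x ∈ L := fun x => by
      by_cases h0 : x = 0
      · rw [h0]; simp
      · obtain ⟨k, hk⟩ := mem_powers_iff_mem_zpowers.2 (hγ (Units.mk0 x h0))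
        have : (x : F) = ((γ : K) : F) ^ k := by simpa using congrArg (fun u : Kˣ => ((u : K) : F)) hk.symm
        rw [this, ← mul_pow, ← pow_two]
        exact pow_mem hL k
    obtain ⟨a, b, e⟩ := Orth.exists_sq_add_sq_eq (F := K) one_ne_zero one_ne_zero ⟨y, hy⟩
    have : y = (a : F) * a + (b : F) * b := by simpa using congrArg (fun u : K => (u : F)) e.symm
    rw [this]
    exact add_mem (sq a) (sq b)

theorem tmc_gen (K : Subfield F) (h7 : 6 ≤ Nat.card K) :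
    ∃ c ∈ K, c ≠ 0 ∧ c ^ 4 ≠ 1 ∧ c ^ 2 ≠ 4 ∧ ∀ L : Subfield F, c ^ 2 ∈ L → K ≤ L := by
  obtain ⟨γ, hγ⟩ := IsCyclic.exists_generator (α := Kˣ)
  have n0 : ∀ u : Kˣ, ((u : K) : F) ≠ 0 := fun u e => u.ne_zero (Subtype.ext e)
  obtain ⟨a, b⟩ := tmc_one K h7 hγ
  by_cases h4 : ((γ : K) : F) ^ 2 = 4
  · obtain ⟨a', b'⟩ := tmc_one K h7 (γ := γ⁻¹) (by rwa [Subgroup.zpowers_inv])
    refine ⟨_, ((γ⁻¹ : Kˣ) : K).2, n0 _, a', fun e => a ?_, b'⟩
    have i : ((γ : K) : F) * (((γ⁻¹ : Kˣ) : K) : F) = 1 := by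
      simpa using congrArg (fun u : Kˣ => ((u : K) : F)) (mul_inv_cancel γ)
    calc _ = ((γ : K) : F) ^ 2 * ((γ : K) : F) ^ 2 := by ring
      _ = (((γ : K) : F) * (((γ⁻¹ : Kˣ) : K) : F)) ^ 2 := by rw [mul_pow, e, h4]
      _ = 1 := by rw [i, one_pow]
  · exact ⟨_, (γ : K).2, n0 _, a, h4, b⟩


theorem tm_gen (h2 : (2 : F) ≠ 0) (K : Subfield F) (h7 : 6 ≤ Nat.card K) :
    ∃ c ∈ K, c ≠ 0 ∧ c ^ 2 ≠ 1 ∧ c ^ 2 ≠ 4 ∧ ∀ L : Subfield F, c ^ 2 ∈ L → K ≤ L := by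
  obtain ⟨c, a1, a2, a3, a4, a5⟩ := tmc_gen K h7
  exact ⟨c, a1, a2, fun e => a3 (by linear_combination (c ^ 2 + 1) * e), a4, a5⟩

omit [Finite F] in
theorem tmc_pack {K : Subfield F} {δ : F} (t0 x0 y0 t1 x1 y1 t2 x2 y2 : F)
    (p0 : t0 ∈ K ∧ x0 ∈ K ∧ y0 ∈ K ∧ δ * t0 ^ 2 - x0 ^ 2 - δ * y0 ^ 2 = δ ∧ Gd5 K (2 * t0))
    (p1 : t1 ∈ K ∧ x1 ∈ K ∧ y1 ∈ K ∧ δ * t1 ^ 2 - x1 ^ 2 - δ * y1 ^ 2 = δ ∧ Gd5 K (2 * t1))
    (p2 : t2 ∈ K ∧ x2 ∈ K ∧ y2 ∈ K ∧ δ * t2 ^ 2 - x2 ^ 2 - δ * y2 ^ 2 = δ ∧ Gd5 K (2 * t2))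
    (c01 : x0 * y1 - x1 * y0 ≠ 0) (c02 : x0 * y2 - x2 * y0 ≠ 0) (c12 : x1 * y2 - x2 * y1 ≠ 0) :
    ∃ t x y : Fin 3 → F, (∀ i, t i ∈ K ∧ x i ∈ K ∧ y i ∈ K ∧
      δ * t i ^ 2 - x i ^ 2 - δ * y i ^ 2 = δ ∧ Gd5 K (2 * t i)) ∧
      ∀ i j, i ≠ j → x i * y j - x j * y i ≠ 0 := by
  have sw : ∀ {a b : F}, a - b ≠ 0 → b - a ≠ 0 := fun h e => h (by linear_combination -e)
  refine ⟨![t0, t1, t2], ![x0, x1, x2], ![y0, y1, y2], fun i => ?_, fun i j hij => ?_⟩
  · fin_cases i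
    exacts [p0, p1, p2]
  · fin_cases i <;> fin_cases j
    exacts [absurd rfl hij, c01, c02, sw c01, absurd rfl hij, c12, sw c02, sw c12, absurd rfl hij]


theorem tm_pts (h2 : (2 : F) ≠ 0) (K : Subfield F) (h5 : 5 ≤ Nat.card K) {δ : F} (hδ : δ ∈ K)
    (h0 : δ ≠ 0) : ∃ t x y : Fin 3 → F, (∀ i, t i ∈ K ∧ x i ∈ K ∧ y i ∈ K ∧
      δ * t i ^ 2 - x i ^ 2 - δ * y i ^ 2 = δ ∧ Gd5 K (2 * t i)) ∧
      ∀ i j, i ≠ j → x i * y j - x j * y i ≠ 0 := by
  have m2 : (2 : F) ∈ K := ofNat_mem K 2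
  rcases h5.eq_or_lt with h5 | h6
  · haveI := Fintype.ofFinite K
    rw [Nat.card_eq_fintype_card] at h5
    have e5 : (5 : F) = 0 := by
      have := FiniteField.cast_card_eq_zero K
      rw [← h5] at this
      have := congrArg K.subtype this
      rwa [map_natCast, map_zero, Nat.cast_ofNat] at this
    have el : ∀ x ∈ K, x ≠ 0 → x = 1 ∨ x = -1 ∨ x = 2 ∨ x = -2 := fun x hx x0 => by
      have := FiniteField.pow_card_sub_one_eq_one (⟨x, hx⟩ : K) fun e => x0 (congrArg Subtype.val e)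
      rw [← h5] at this
      have e4 : x ^ 4 = 1 := by simpa using congrArg (fun u : K => (u : F)) this
      have : (x - 1) * ((x + 1) * ((x - 2) * (x + 2))) = 0 := by linear_combination e4 + (1 - x ^ 2) * e5
      simpa only [mul_eq_zero, sub_eq_zero, add_eq_zero_iff_eq_neg] using this
    have gd : ∀ c ∈ K, c ≠ 0 → Gd5 K (2 * c) := fun c hc c0 =>
      ⟨mul_ne_zero h2 c0, pow_mem (mul_mem m2 hc) 2, fun _ => e5, fun L _ x hx => by
        by_cases x0 : x = 0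
        · rw [x0]; exact L.zero_mem
        rcases el x hx x0 with rfl | rfl | rfl | rfl
        exacts [L.one_mem, L.neg_mem L.one_mem, ofNat_mem L 2, L.neg_mem (ofNat_mem L 2)]⟩
    have g1 := gd 1 K.one_mem one_ne_zero
    have g2 := gd 2 m2 h2
    rcases el δ hδ h0 with rfl | rfl | rfl | rfl
    · exact tmc_pack 1 1 2 1 1 (-2) 2 2 2
        ⟨K.one_mem, K.one_mem, m2, by linear_combination (-1 : F) * e5, g1⟩
        ⟨K.one_mem, K.one_mem, K.neg_mem m2, by linear_combination (-1 : F) * e5, g1⟩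
        ⟨m2, m2, m2, by linear_combination (-1 : F) * e5, g2⟩
        (fun e => one_ne_zero (α := F) (by linear_combination (1 : F) * e + (1 : F) * e5))
        (fun e => one_ne_zero (α := F) (by linear_combination (2 : F) * e + (1 : F) * e5))
        (fun e => one_ne_zero (α := F) (by linear_combination (1 : F) * e + (-1 : F) * e5))
    · exact tmc_pack 1 1 1 1 1 (-1) 2 1 2
        ⟨K.one_mem, K.one_mem, K.one_mem, by linear_combination (0 : F) * e5, g1⟩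
        ⟨K.one_mem, K.one_mem, K.neg_mem K.one_mem, by linear_combination (0 : F) * e5, g1⟩
        ⟨m2, K.one_mem, m2, by linear_combination (0 : F) * e5, g2⟩
        (fun e => one_ne_zero (α := F) (by linear_combination (2 : F) * e + (1 : F) * e5))
        (fun e => one_ne_zero (α := F) (by linear_combination (1 : F) * e + (0 : F) * e5))
        (fun e => one_ne_zero (α := F) (by linear_combination (2 : F) * e + (-1 : F) * e5))
    · exact tmc_pack 2 1 0 2 2 1 2 2 (-1)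
        ⟨m2, K.one_mem, K.zero_mem, by linear_combination (1 : F) * e5, g2⟩
        ⟨m2, m2, K.one_mem, by linear_combination (0 : F) * e5, g2⟩
        ⟨m2, m2, K.neg_mem K.one_mem, by linear_combination (0 : F) * e5, g2⟩
        (fun e => one_ne_zero (α := F) (by linear_combination (1 : F) * e + (0 : F) * e5))
        (fun e => one_ne_zero (α := F) (by linear_combination (-1 : F) * e + (0 : F) * e5))
        (fun e => one_ne_zero (α := F) (by linear_combination (1 : F) * e + (1 : F) * e5))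
    · exact tmc_pack 2 2 0 2 1 1 2 1 (-1)
        ⟨m2, m2, K.zero_mem, by linear_combination (-2 : F) * e5, g2⟩
        ⟨m2, K.one_mem, K.one_mem, by linear_combination (-1 : F) * e5, g2⟩
        ⟨m2, K.one_mem, K.neg_mem K.one_mem, by linear_combination (-1 : F) * e5, g2⟩
        (fun e => one_ne_zero (α := F) (by linear_combination (-2 : F) * e + (1 : F) * e5))
        (fun e => one_ne_zero (α := F) (by linear_combination (2 : F) * e + (1 : F) * e5))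
        (fun e => one_ne_zero (α := F) (by linear_combination (2 : F) * e + (1 : F) * e5))
  obtain ⟨c, a1, a2, a3, a4, a5⟩ := tmc_gen K h6
  have tm : c / 2 ∈ K := div_mem a1 m2
  have gd : Gd5 K (2 * (c / 2)) := by
    rw [mul_div_cancel₀ _ h2]
    exact ⟨a2, pow_mem a1 2, fun e => absurd (by linear_combination (c ^ 2 + 1) * e) a3, a5⟩
  have n0 : δ * ((c / 2) ^ 2 - 1) ≠ 0 := mul_ne_zero h0 fun e => a4 (by
    field_simp at e; linear_combination e)
  generalize c / 2 = t at tm gd n0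
  obtain ⟨⟨x, hx⟩, ⟨y, hy⟩, e⟩ := Orth.exists_sq_add_sq_eq (F := K) one_ne_zero (b := ⟨δ, hδ⟩)
    (fun e => h0 (congrArg Subtype.val e)) ⟨δ * (t ^ 2 - 1), mul_mem hδ (sub_mem (pow_mem tm 2) K.one_mem)⟩
  replace e : x * x + y * y * δ = δ * (t ^ 2 - 1) := by simpa using congrArg (fun u : K => (u : F)) e
  obtain ⟨s, hs, s0, s4⟩ : ∃ s ∈ K, s ≠ 0 ∧ (1 + δ * s ^ 2) * (1 - δ * s ^ 2) ≠ 0 := by
    by_cases d : (1 + δ * 1 ^ 2) * (1 - δ * 1 ^ 2) = 0
    · exact ⟨c, a1, a2, fun e => a3 (by linear_combination c ^ 4 * d - e)⟩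
    · exact ⟨1, K.one_mem, one_ne_zero, d⟩
  have n1 := left_ne_zero_of_mul s4
  have ma : (1 - δ * s ^ 2) / (1 + δ * s ^ 2) ∈ K :=
    div_mem (sub_mem K.one_mem (mul_mem hδ (pow_mem hs 2))) (add_mem K.one_mem (mul_mem hδ (pow_mem hs 2)))
  have mb : 2 * s / (1 + δ * s ^ 2) ∈ K := div_mem (mul_mem m2 hs) (add_mem K.one_mem (mul_mem hδ (pow_mem hs 2)))
  have a0 := div_ne_zero (right_ne_zero_of_mul s4) n1
  have b0 := div_ne_zero (mul_ne_zero h2 s0) n1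
  have ab : ((1 - δ * s ^ 2) / (1 + δ * s ^ 2)) ^ 2 + δ * (2 * s / (1 + δ * s ^ 2)) ^ 2 = 1 := by
    field_simp; ring
  generalize (1 - δ * s ^ 2) / (1 + δ * s ^ 2) = a at ma a0 ab
  generalize 2 * s / (1 + δ * s ^ 2) = b at mb b0 ab
  have m1 := mul_mem ma hx
  have m3 := mul_mem (mul_mem hδ mb) hy
  have m4 := mul_mem mb hx
  have m5 := mul_mem ma hy
  exact tmc_pack t x y t (a * x - δ * b * y) (a * y + b * x) t (a * x + δ * b * y) (a * y - b * x)
    ⟨tm, hx, hy, by linear_combination -e, gd⟩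
    ⟨tm, sub_mem m1 m3, add_mem m5 m4, by linear_combination -e - (x * x + y * y * δ) * ab, gd⟩
    ⟨tm, add_mem m1 m3, sub_mem m5 m4, by linear_combination -e - (x * x + y * y * δ) * ab, gd⟩
    (fun k => mul_ne_zero b0 n0 (by linear_combination k - b * e))
    (fun k => mul_ne_zero b0 n0 (by linear_combination -k - b * e))
    (fun k => mul_ne_zero (mul_ne_zero h2 (mul_ne_zero a0 b0)) n0 (by linear_combination -k - 2 * a * b * e))

end CfsgLib.O7
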