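import Cfsg.Agent.Lib.O7.TmD

/-!
TAME, part C: finite field computations.  See `plans/O7T.md`.
-/

set_option autoImplicit false

namespace CfsgLib.O7

open CfsgLib.Forms CfsgLib.ClMax CfsgLib.RootMax CfsgLib.OrthE CfsgLib.OMax CfsgLib.Dickson
  Module QuadraticMap
open scoped MatrixGroups

variable {F : Type*} [Field F] [Finite F]

theorem tmc_conj {δ x y z ε : F} (hε : ε = 1 ∨ ε = -1) (h0 : (0 : F) * 0 - -δ * 1 ≠ 0)
    (h1 : x * -x - y * z ≠ 0) (e : x * -x - y * z = δ) (hD : 2 * δ + ε * (δ * z - y) ≠ 0) :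
    ∃ g ∈ (pslPGL F).range, g * pm 0 (-δ) 1 0 h0 * g⁻¹ = pm x y z (-x) h1 := by
  have hδ : δ ≠ 0 := e ▸ h1
  obtain ⟨a, b, hab⟩ := CfsgLib.Orth.exists_sq_add_sq_eq one_ne_zero hδ (2 * δ + ε * (δ * z - y))
  have eN : ε * x * (-(ε * x)) - (-δ + ε * y) * (1 + ε * z) = 2 * δ + ε * (δ * z - y) := by
    rcases hε with rfl | rfl <;> linear_combination e
  have eA : a * a - (-(δ * b)) * b = 2 * δ + ε * (δ * z - y) := by linear_combination hab
  have hN := eN ▸ hD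
  have hA := eA ▸ hD
  refine ⟨pm (ε * x) (-δ + ε * y) (1 + ε * z) (-(ε * x)) hN * pm a (-(δ * b)) b a hA, ?_, ?_⟩
  · rw [pm_mul, pm_mem_range_pslPGL_iff]
    refine ⟨2 * δ + ε * (δ * z - y), ?_⟩
    calc _ = (ε * x * (-(ε * x)) - (-δ + ε * y) * (1 + ε * z)) * (a * a - (-(δ * b)) * b) := by ring
      _ = _ := by rw [eN, eA]
  · have c1 : pm a (-(δ * b)) b a hA * pm 0 (-δ) 1 0 h0 = pm 0 (-δ) 1 0 h0 * pm a (-(δ * b)) b a hA := by
      rw [pm_mul, pm_mul]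
      exact pm_congr (by ring) (by ring) (by ring) (by ring)
    have c2 : pm (ε * x) (-δ + ε * y) (1 + ε * z) (-(ε * x)) hN * pm 0 (-δ) 1 0 h0 =
        pm x y z (-x) h1 * pm (ε * x) (-δ + ε * y) (1 + ε * z) (-(ε * x)) hN := by
      rw [pm_mul, pm_mul, pm_eq_pm_iff]
      subst e
      refine ⟨ε, ?_, ?_, ?_, ?_⟩ <;> rcases hε with rfl | rfl <;> ring
    rw [mul_inv_eq_iff_eq_mul, mul_assoc, c1, ← mul_assoc, c2, mul_assoc]

theorem tm_conj (h2 : (2 : F) ≠ 0) {δ x y z : F} (h0 : (0 : F) * 0 - -δ * 1 ≠ 0)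
    (h1 : x * -x - y * z ≠ 0) (e : x * -x - y * z = δ) :
    ∃ g ∈ (pslPGL F).range, g * pm 0 (-δ) 1 0 h0 * g⁻¹ = pm x y z (-x) h1 := by
  have hδ : δ ≠ 0 := e ▸ h1
  by_cases hD : 2 * δ + 1 * (δ * z - y) = 0
  · refine tmc_conj (Or.inr rfl) h0 h1 e fun hD' => ?_
    have : (2 : F) * (2 * δ) = 0 := by linear_combination hD + hD'
    exact mul_ne_zero h2 (mul_ne_zero h2 hδ) this
  · exact tmc_conj (Or.inl rfl) h0 h1 e hD

theorem tm_sub3 (h2 : (2 : F) ≠ 0) (K : Subfield F) (h3 : 3 ≤ Nat.card K) (h5 : Nat.card K < 5) :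
    (3 : F) = 0 ∧ ∀ x ∈ K, x = 0 ∨ x = 1 ∨ x = 2 := by
  have := Fintype.ofFinite K
  have hc : ((Nat.card K : ℕ) : F) = 0 := by
    have := congrArg K.subtype (FiniteField.cast_card_eq_zero K)
    rwa [map_natCast, map_zero, ← Nat.card_eq_fintype_card] at this
  have hp : ∀ x ∈ K, x ^ Nat.card K = x := fun x hx => by
    have := congrArg K.subtype (FiniteField.pow_card (⟨x, hx⟩ : K))
    rwa [map_pow, ← Nat.card_eq_fintype_card] at this
  obtain h | h : Nat.card K = 3 ∨ Nat.card K = 4 := by omega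
  · rw [h] at hc hp
    have h3 : (3 : F) = 0 := by exact_mod_cast hc
    refine ⟨h3, fun x hx => ?_⟩
    have : x * ((x - 1) * (x - 2)) = 0 := by linear_combination hp x hx + (x - x ^ 2) * h3
    rcases mul_eq_zero.1 this with h | h
    · exact Or.inl h
    · rcases mul_eq_zero.1 h with h | h
      · exact Or.inr (Or.inl (sub_eq_zero.1 h))
      · exact Or.inr (Or.inr (sub_eq_zero.1 h))
  · rw [h] at hc
    have h4 : (2 : F) * 2 = 0 := by
      have : (4 : F) = 0 := by exact_mod_cast hc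
      linear_combination this
    exact absurd h4 (mul_ne_zero h2 h2)

end CfsgLib.O7
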