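import Cfsg.Agent.Lib.O7.TmS1
import Cfsg.Agent.Lib.O7.TmD
import Cfsg.Agent.Lib.O7.Base

/-!
TAME, part S: the projective model of a three-dimensional root subspace.  See `plans/O7T.md`.
-/

set_option autoImplicit false

namespace CfsgLib.O7

open CfsgLib.Forms CfsgLib.ClMax CfsgLib.RootMax CfsgLib.OrthE CfsgLib.OMax CfsgLib.Dickson
  Module QuadraticMap
open scoped MatrixGroups

variable {F V : Type*} [Field F] [Finite F] [AddCommGroup V] [Module F V] [FiniteDimensional F V]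
  {Q : QuadraticForm F V} {H P : Subgroup (O Q)} {R : Set V}
  {U : Submodule F V} {Ψ : V →ₗ[F] Matrix (Fin 2) (Fin 2) F} {k : F}

theorem tms_ne {u : V} (h1 : Q u = 1) : Q u ≠ 0 := h1 ▸ one_ne_zero

theorem tms_refl {u w : V} (hu : u ∈ U) (hw : w ∈ U) : (refl Q u).1 w ∈ U := by
  rw [refl_ap]; exact Submodule.sub_mem _ hw (Submodule.smul_mem _ _ hu)

theorem tms_tr {a0 a1 a2 b0 b1 b2 c0 c1 c2 k p q r : F} (ha : a0 * a0 + a1 * a2 = k)
    (hb : b0 * b0 + b1 * b2 = k) (hc : c0 * c0 + c1 * c2 = k)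
    (hab : 2 * a0 * b0 + a1 * b2 + a2 * b1 = k * p) (hca : 2 * a0 * c0 + a1 * c2 + a2 * c1 = k * q)
    (hcb : 2 * b0 * c0 + b1 * c2 + b2 * c1 = k * r) :
    (c0 * (a1 * b2 - a2 * b1) + c2 * (a0 * b1 - a1 * b0) + c1 * (a2 * b0 - a0 * b2)) ^ 2 =
      -(k ^ 3 * (4 + p * q * r - p ^ 2 - q ^ 2 - r ^ 2)) := by
  have I : (c0 * (a1 * b2 - a2 * b1) + c2 * (a0 * b1 - a1 * b0) + c1 * (a2 * b0 - a0 * b2)) ^ 2 =
      -(4 * (a0 * a0 + a1 * a2) * (b0 * b0 + b1 * b2) * (c0 * c0 + c1 * c2) +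
        (2 * a0 * b0 + a1 * b2 + a2 * b1) * (2 * a0 * c0 + a1 * c2 + a2 * c1) *
          (2 * b0 * c0 + b1 * c2 + b2 * c1) -
        (c0 * c0 + c1 * c2) * (2 * a0 * b0 + a1 * b2 + a2 * b1) ^ 2 -
        (b0 * b0 + b1 * b2) * (2 * a0 * c0 + a1 * c2 + a2 * c1) ^ 2 -
        (a0 * a0 + a1 * a2) * (2 * b0 * c0 + b1 * c2 + b2 * c1) ^ 2) := by ring
  rw [I, ha, hb, hc, hab, hca, hcb]; ring

theorem ps_sq (s : Spin Q U Ψ k) {u : V} (hu : u ∈ U) (h1 : Q u = 1) : ps Ψ u * ps Ψ u = 1 :=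
  s.invol hu (tms_ne h1)

theorem ps_ne_one (s : Spin Q U Ψ k) {u : V} (hu : u ∈ U) (h1 : Q u = 1) : ps Ψ u ≠ 1 := fun e => by
  rw [ps, mk_eq_pm, pm_eq_one_iff] at e
  simp only [s.val hu (tms_ne h1), s.tr] at e
  have h0 : Ψ u 0 0 = 0 := (mul_eq_zero.1 (show 2 * Ψ u 0 0 = 0 by
    linear_combination e.2.2)).resolve_left s.h2
  have h2 := s.det hu
  rw [Matrix.det_fin_two, h0, e.1, h1] at h2
  exact s.hk (by linear_combination h2)

theorem ps_tau (s : Spin Q U Ψ k) {u v : V} (hu : u ∈ U) (hv : v ∈ U) (h1 : Q u = 1)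
    (h2 : Q v = 1) : tau (ps Ψ u * ps Ψ v) = polar Q u v ^ 2 := by
  rw [ps, ps, s.tau_mul hu hv (tms_ne h1) (tms_ne h2), h1, h2, one_mul, div_one]

theorem ps_ne (s : Spin Q U Ψ k) (hU : ND Q U) {u v : V} (hu : u ∈ U) (hv : v ∈ U) (h1 : Q u = 1)
    (h2 : Q v = 1) (h : Df u v) : ps Ψ u * ps Ψ v ≠ 1 := fun e => by
  obtain ⟨μ, e1⟩ := Matrix.ProjGenLinGroup.mk_eq_mk_iff.1
    (mul_right_cancel (e.trans (ps_sq s hv h2).symm))
  have e2 := congrArg Units.val e1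
  rw [Units.val_mul, s.val hu (tms_ne h1), s.val hv (tms_ne h2)] at e2
  have e3 : v = (μ : F) • u := sub_eq_zero.1 (spin_inj s hU (U.sub_mem hv (U.smul_mem _ hu)) (by
    rw [map_sub, map_smul, ← e2]
    simp [Matrix.scalar_apply, ← Matrix.smul_eq_mul_diagonal]))
  rw [e3, Q_smul, h1, mul_one] at h2
  rcases mul_self_eq_one_iff.1 (by simpa [pow_two] using h2) with e4 | e4
  · exact h.1 (by rw [e3, e4, one_smul])
  · exact h.2 (by rw [e3, e4, neg_one_smul])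

theorem ps_comm (s : Spin Q U Ψ k) (hU : ND Q U) {u v : V} (hu : u ∈ U) (hv : v ∈ U)
    (h1 : Q u = 1) (h2 : Q v = 1) (h : Df u v) (e : ps Ψ u * ps Ψ v = ps Ψ v * ps Ψ u) :
    polar Q u v = 0 := by
  have h3 := (pow_two_eq_one_iff (g := ps Ψ u * ps Ψ v)).1 (by
    rw [pow_two]; nth_rw 1 [e]
    rw [mul_assoc, ← mul_assoc (ps Ψ u), ps_sq s hu h1, one_mul, ps_sq s hv h2])
  rw [ps_tau s hu hv h1 h2] at h3
  exact pow_eq_zero_iff two_ne_zero |>.1 (h3.resolve_right (ps_ne s hU hu hv h1 h2 h))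

theorem ps_conj (s : Spin Q U Ψ k) {u w : V} (hu : u ∈ U) (hw : w ∈ U) (h1 : Q u = 1)
    (h2 : Q w = 1) : ps Ψ u * ps Ψ w * ps Ψ u = ps Ψ ((refl Q u).1 w) := by
  have u0 := tms_ne h1
  have w0 := tms_ne h2
  obtain ⟨ε, e1, e2⟩ := s.rel_refl hu u0
  have e0 : ε ≠ 0 := by rintro rfl; simp at e1
  rw [ps, ps, ps, ← map_mul, ← map_mul, eq_comm, Matrix.ProjGenLinGroup.mk_eq_mk_iff]
  refine ⟨Units.mk0 _ (mul_ne_zero e0 (mul_ne_zero s.hk u0)), Units.ext ?_⟩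
  rw [Units.val_mul, Units.val_mul, Units.val_mul, s.val hw w0, e2,
    s.val (tms_refl hu hw) (by rwa [O_map]), s.val hu u0, Matrix.smul_mul, mul_assoc, s.sq hu]
  simp [Matrix.scalar_apply, ← Matrix.smul_eq_mul_diagonal, smul_smul, mul_comm, mul_left_comm]

theorem ps_three (s : Spin Q U Ψ k) {a b c : V} (ha : a ∈ U) (hb : b ∈ U) (hc : c ∈ U)
    (h1 : Q a = 1) (h2 : Q b = 1) (h3 : Q c = 1) (hab : polar Q a b ≠ 0) (h : Dg Q a b c ≠ 0) :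
    (ps Ψ a * ps Ψ b * ps Ψ c) ^ 2 ≠ 1 := fun e => by
  rcases pow_two_eq_one_iff.1 e with e | e
  · have k1 : ∀ u ∈ U, Q u = 1 → Ψ u 0 0 * Ψ u 0 0 + Ψ u 0 1 * Ψ u 1 0 = k := fun u hu h0 => by
      have := s.det hu
      rw [Matrix.det_fin_two, s.tr, h0] at this
      linear_combination -this
    have k2 : ∀ u ∈ U, ∀ v, 2 * Ψ u 0 0 * Ψ v 0 0 + Ψ u 0 1 * Ψ v 1 0 + Ψ u 1 0 * Ψ v 0 1 =
        k * polar Q u v := fun u hu v => by
      have := congrFun (congrFun (s.anti u hu v) 0) 0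
      simp only [Matrix.mul_apply, Fin.sum_univ_two, Matrix.smul_apply, Matrix.one_apply_eq,
        smul_eq_mul, Matrix.add_apply] at this
      linear_combination this
    have k3 := tms_tr (k1 a ha h1) (k1 b hb h2) (k1 c hc h3) (k2 a ha b) (k2 a ha c) (k2 b hb c)
    rw [ps, ps, ps, ← map_mul, ← map_mul, mk_eq_pm, tau_pm, div_eq_zero_iff, or_iff_left (gl_det_ne _),
      pow_eq_zero_iff two_ne_zero] at e
    simp only [Units.val_mul, s.val ha (tms_ne h1), s.val hb (tms_ne h2), s.val hc (tms_ne h3),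
      Matrix.mul_apply, Fin.sum_univ_two, s.tr] at e
    refine mul_ne_zero (pow_ne_zero 3 s.hk) h ?_
    rw [Dg, polar_comm Q c a, polar_comm Q c b, ← neg_eq_zero, ← k3, pow_eq_zero_iff two_ne_zero]
    linear_combination e
  · have h4 := (pow_two_eq_one_iff.1 ((pow_two _).trans (ps_sq s hc h3))).resolve_right
      (ps_ne_one s hc h3)
    rw [← mul_right_cancel (e.trans (ps_sq s hc h3).symm), ps_tau s ha hb h1 h2] at h4
    exact pow_ne_zero 2 hab h4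

theorem RS.gu_le (h : RS Q H P R) (s : Spin Q U Ψ k) :
    GU Ψ R U ≤ spinG Ψ U (RG Q R) (τ := 1) (one_mul _) (fun _ _ => rfl) :=
  (Subgroup.closure_le _).2 (by
    rintro _ ⟨u, hu, rfl⟩
    exact s.mem_spinG hu.2 (tms_ne (h.one u hu.1)) (.inl (Subgroup.subset_closure ⟨u, hu.1, rfl⟩)))

theorem RS.gu_conj (h : RS Q H P R) (s : Spin Q U Ψ k) {g : PGL(2, F)} (hg : g ∈ GU Ψ R U) {u : V}
    (hu : u ∈ R) (hU : u ∈ U) : ∃ v ∈ R, v ∈ U ∧ g * ps Ψ u * g⁻¹ = ps Ψ v := by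
  have key : ∀ x ∈ R, x ∈ U → ∀ g : PGL(2, F), (∃ v ∈ R, v ∈ U ∧ g * ps Ψ u * g⁻¹ = ps Ψ v) →
      ∃ v ∈ R, v ∈ U ∧ ps Ψ x * g * ps Ψ u * (ps Ψ x * g)⁻¹ = ps Ψ v := by
    rintro x hx xU g ⟨v, hv, vU, e⟩
    refine ⟨_, h.ref x hx v hv, tms_refl xU vU, ?_⟩
    rw [← ps_conj s xU vU (h.one x hx) (h.one v hv), ← e, mul_inv_rev,
      inv_eq_of_mul_eq_one_right (ps_sq s xU (h.one x hx))]
    simp only [mul_assoc]
  induction hg using Subgroup.closure_induction_left with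
  | one => exact ⟨u, hu, hU, by simp⟩
  | mul_left x hx g _ ih =>
    obtain ⟨x, hx, rfl⟩ := hx
    exact key x hx.1 hx.2 g ih
  | inv_mul_cancel x hx g _ ih =>
    obtain ⟨x, hx, rfl⟩ := hx
    rw [inv_eq_of_mul_eq_one_right (ps_sq s hx.2 (h.one x hx.1))]
    exact key x hx.1 hx.2 g ih

end CfsgLib.O7
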