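import Cfsg.Agent.Lib.O7.TmQ1
import Cfsg.Agent.Lib.O7.TmS
import Cfsg.Agent.Lib.O7.TmC

/-!
TAME, part Q: the field type.  See `plans/O7T.md`.
-/

set_option autoImplicit false

namespace CfsgLib.O7

open CfsgLib.Forms CfsgLib.ClMax CfsgLib.RootMax CfsgLib.OrthE CfsgLib.OMax CfsgLib.Dickson
  Module QuadraticMap
open scoped MatrixGroups

variable {F V : Type*} [Field F] [Finite F] [AddCommGroup V] [Module F V] [FiniteDimensional F V]
  {Q : QuadraticForm F V} {H P : Subgroup (O Q)} {R : Set V}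
  {U : Submodule F V} {Ψ : V →ₗ[F] Matrix (Fin 2) (Fin 2) F} {k : F}

theorem RS.tf_val (h : RS Q H P R) (s : Spin Q U Ψ k) {K : Subfield F} {l : PGL(2, F)}
    (e : GU Ψ R U ≤ pglSub K l) : ∀ u ∈ R, u ∈ U → ∀ v ∈ R, v ∈ U → polar Q u v ^ 2 ∈ K := by
  intro u hu huU v hv hvU
  obtain ⟨x, hx⟩ := mem_pglSub.1 (e ((GU Ψ R U).mul_mem (ps_mem Ψ hu huU) (ps_mem Ψ hv hvU)))
  rw [← ps_tau s huU hvU (h.one u hu) (h.one v hv), ← tau_conj' _ l, ← hx, tau_map]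
  exact (tau x).2

theorem RS.tf_full (h : RS Q H P R) (s : Spin Q U Ψ k) (hU : ND Q U) (h3 : finrank F U = 3)
    {l : PGL(2, F)} (e : pslSub ⊤ l ≤ GU Ψ R U) : EIn (RG Q R) U := by
  have hF := s.full (N := RG Q R) h.nd hU h3.ge ((pslSub_top l ▸ e).trans (h.gu_le s))
  intro y hy y0 b hb yb
  by_cases b0 : Q b = 0
  · obtain ⟨a, ha, a0, ya⟩ := exists_nonsing_orth h.nd hU h3.ge y
    have ea := hF.1 y hy a ha y0 ya a0
    by_cases h1 : Q (b + a) = 0
    · have h2 : Q (b - a) ≠ 0 := fun h2 => by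
        rw [Q_add, b0] at h1
        rw [Q_sub, b0] at h2
        exact mul_ne_zero h.two a0 (by linear_combination h1 + h2)
      exact ((hF.1 y hy (b - a) (U.sub_mem hb ha) y0
        (by rw [polar_sub_right, yb, ya, sub_zero]) h2).add ea).congr (sub_add_cancel _ _)
    · exact ((hF.1 y hy (b + a) (U.add_mem hb ha) y0
        (by rw [polar_add_right, yb, ya, add_zero]) h1).sub ea).congr (add_sub_cancel_right _ _)
  · exact hF.1 y hy b hb y0 yb b0

theorem RS.tf_of (h : RS Q H P R) (s : Spin Q U Ψ k) (hU : ND Q U) (h3 : finrank F U = 3)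
    {K : Subfield F} {l : PGL(2, F)} (e1 : pslSub K l ≤ GU Ψ R U) (e2 : GU Ψ R U ≤ pglSub K l)
    {u : V} (hu : u ∈ R) (huU : u ∈ U) : TFd Q R U K := by
  refine ⟨hU, h3, h.tf_val s e2, fun h5 => ?_, fun hK => h.tf_full s hU h3 (hK ▸ e1)⟩
  obtain ⟨δ, δK, δ0, Φ, inj, anti, Φu, rt⟩ := h.tf_form s hU e1 e2 hu huU
  obtain ⟨t, x, y, hp, hd⟩ := tm_pts h.two K h5 δK δ0
  have hv : ∀ i, ∃ v ∈ R, v ∈ U ∧ Φ v = !![x i, δ * (y i - t i); t i + y i, -x i] := fun i =>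
    rt _ (hp i).2.1 _ (K.mul_mem δK (K.sub_mem (hp i).2.2.1 (hp i).1)) _
      (K.add_mem (hp i).1 (hp i).2.2.1) (by linear_combination (hp i).2.2.2.1)
  choose v vR vU Φv using hv
  have uv : ∀ i, polar Q u (v i) = 2 * t i := fun i => by
    have := congrFun (congrFun (anti u huU (v i) (vU i)) 0) 0
    rw [Φu, Φv] at this
    simp only [Matrix.add_apply, Matrix.mul_apply, Fin.sum_univ_two, Matrix.smul_apply,
      Matrix.one_apply_eq, smul_eq_mul, Matrix.of_apply, Matrix.cons_val', Matrix.cons_val_zero,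
      Matrix.cons_val_one, Matrix.cons_val_fin_one] at this
    exact mul_left_cancel₀ δ0 (by linear_combination this)
  have hC : δ * polar Q (v 1) (v 0) = 2 * δ * t 0 * t 1 - 2 * x 0 * x 1 - 2 * δ * y 0 * y 1 := by
    have := congrFun (congrFun (anti (v 1) (vU 1) (v 0) (vU 0)) 0) 0
    rw [Φv, Φv] at this
    simp only [Matrix.add_apply, Matrix.mul_apply, Fin.sum_univ_two, Matrix.smul_apply,
      Matrix.one_apply_eq, smul_eq_mul, Matrix.of_apply, Matrix.cons_val', Matrix.cons_val_zero,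
      Matrix.cons_val_one, Matrix.cons_val_fin_one] at this
    linear_combination this
  have d0 := hd 0 1 (by decide)
  obtain ⟨α, hα⟩ : ∃ α, α = (x 2 * y 1 - x 1 * y 2) / (x 0 * y 1 - x 1 * y 0) := ⟨_, rfl⟩
  obtain ⟨β, hβ⟩ : ∃ β, β = (x 0 * y 2 - x 2 * y 0) / (x 0 * y 1 - x 1 * y 0) := ⟨_, rfl⟩
  have ex : α * x 0 + β * x 1 = x 2 := by
    rw [hα, hβ, div_mul_eq_mul_div, div_mul_eq_mul_div, ← add_div, div_eq_iff d0]; ring
  have ey : α * y 0 + β * y 1 = y 2 := by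
    rw [hα, hβ, div_mul_eq_mul_div, div_mul_eq_mul_div, ← add_div, div_eq_iff d0]; ring
  have e3 : α • v 0 + β • v 1 + (t 2 - α * t 0 - β * t 1) • u = v 2 := by
    refine sub_eq_zero.1 (inj _ (U.sub_mem (U.add_mem (U.add_mem (U.smul_mem _ (vU 0))
      (U.smul_mem _ (vU 1))) (U.smul_mem _ huU)) (vU 2)) ?_)
    rw [map_sub, map_add, map_add, map_smul, map_smul, map_smul, Φu, Φv, Φv, Φv]
    ext i j
    fin_cases i <;> fin_cases j <;> simp
    · linear_combination ex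
    · linear_combination δ * ey
    · linear_combination ey
    · linear_combination -ex
  refine ⟨u, hu, v 0, vR 0, v 1, vR 1, α, β, t 2 - α * t 0 - β * t 1, e3 ▸ vR 2,
    hα ▸ div_ne_zero (hd 2 1 (by decide)) d0, hβ ▸ div_ne_zero (hd 0 2 (by decide)) d0,
    fun hD => ?_, uv 0 ▸ (hp 0).2.2.2.2, uv 1 ▸ (hp 1).2.2.2.2, e3 ▸ uv 2 ▸ (hp 2).2.2.2.2⟩
  rw [Dg, polar_comm Q (v 1) u, uv, uv] at hD
  have h4 : (4 : F) ≠ 0 := fun h4 => mul_ne_zero h.two h.two (by linear_combination h4)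
  refine mul_ne_zero (mul_ne_zero h4 δ0) (pow_ne_zero 2 d0) ?_
  linear_combination δ ^ 2 * hD - (4 * t 0 * t 1 * δ - δ * polar Q (v 1) (v 0) -
    (2 * δ * t 0 * t 1 - 2 * x 0 * x 1 - 2 * δ * y 0 * y 1)) * hC -
    4 * (δ * t 1 ^ 2 - δ) * (hp 0).2.2.2.1 - 4 * (x 0 ^ 2 + δ * y 0 ^ 2) * (hp 1).2.2.2.1

end CfsgLib.O7
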