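import Cfsg.Agent.Lib.O7.Base

/-!
TRC: the squares of the inner products generate the field.  See `plans/O7B.md`.
-/

set_option autoImplicit false

namespace CfsgLib.O7

open CfsgLib.OrthE CfsgLib.OMax Module QuadraticMap Subgroup

variable {F V : Type*} [Field F] [Finite F] [AddCommGroup V] [Module F V] [FiniteDimensional F V]
  {Q : QuadraticForm F V} {H P : Subgroup (O Q)} {R : Set V}

omit [Finite F] in
/-- the trace of a map which preserves a form over a subfield -/
theorem trc_tr (nd : Nondeg Q) (F₀ : Subfield F) {s : Set V} (hs : Submodule.span F s = ⊤)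
    (h1 : ∀ u ∈ s, ∀ v ∈ s, polar Q u v ∈ F₀) {g : O Q} (h2 : ∀ u ∈ s, ∀ v ∈ s, polar Q (g.1 u) v ∈ F₀) :
    tr g ∈ F₀ := by
  classical
  obtain ⟨t, ht, e, li⟩ := exists_linearIndependent F s
  let b : Basis t F V := Basis.mk li (by rw [Subtype.range_coe_subtype, Set.setOf_mem_eq, e, hs])
  have hb : ∀ i, b i ∈ s := fun i => by rw [Basis.mk_apply]; exact ht i.2
  haveI : Fintype t := FiniteDimensional.fintypeBasisIndex b
  let G₀ : Matrix t t F₀ := Matrix.of fun i k => ⟨_, h1 _ (hb k) _ (hb i)⟩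
  let N₀ : Matrix t t F₀ := Matrix.of fun i j => ⟨_, h2 _ (hb j) _ (hb i)⟩
  have key : ∀ (x : t → F) i, (G₀.map F₀.subtype).mulVec x i = polar Q (∑ k, x k • b k) (b i) := fun x i => by
    rw [← polarBilin_apply_apply, map_sum, LinearMap.sum_apply]
    simp [Matrix.mulVec, dotProduct, G₀, mul_comm]
  have d : (G₀.map F₀.subtype).det ≠ 0 := fun d => by
    obtain ⟨x, x0, hx⟩ := Matrix.exists_mulVec_eq_zero_iff.2 d
    have h3 : (∑ k, x k • b k) = 0 := nd _ fun y => by
      rw [← polarBilin_apply_apply]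
      exact LinearMap.congr_fun (b.ext fun i => by
        rw [polarBilin_apply_apply, ← key, hx]; rfl : polarBilin Q (∑ k, x k • b k) = 0) y
    exact x0 (funext (Fintype.linearIndependent_iff.1 b.linearIndependent x h3))
  have d0 : IsUnit G₀.det := isUnit_iff_ne_zero.2 fun e => d (by
    rw [← RingHom.mapMatrix_apply, ← RingHom.map_det, e, map_zero])
  have e1 : G₀.map F₀.subtype * LinearMap.toMatrix b b (en g) = N₀.map F₀.subtype := Matrix.ext fun i j => by
    have := key (fun k => LinearMap.toMatrix b b (en g) k j) i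
    simp only [LinearMap.toMatrix_apply, Basis.sum_repr] at this
    simpa [Matrix.mul_apply, LinearMap.toMatrix_apply, Matrix.mulVec, dotProduct, N₀, en_apply] using this
  have e2 : LinearMap.toMatrix b b (en g) = (G₀⁻¹ * N₀).map F₀.subtype := by
    rw [Matrix.map_mul, ← e1, ← Matrix.mul_assoc, ← Matrix.map_mul, Matrix.nonsing_inv_mul _ d0,
      Matrix.map_one _ (map_zero _) (map_one _), Matrix.one_mul]
  rw [tr, LinearMap.trace_eq_matrix_trace F b, e2]
  exact sum_mem fun i _ => ((G₀⁻¹ * N₀) i i).2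

theorem RS.trc (h : RS Q H P R) (F₀ : Subfield F) (hF : ∀ u ∈ R, ∀ v ∈ R, polar Q u v ^ 2 ∈ F₀) :
    F₀ = ⊤ := by
  have two : (2 : F) ∈ F₀ := ofNat_mem F₀ 2
  have T : ∀ u ∈ R, ∀ v ∈ R, ∀ w ∈ R, polar Q u v * polar Q u w * polar Q v w ∈ F₀ := fun u hu v hv w hw => by
    have h1 := hF v hv _ (h.ref u hu w hw)
    rw [h.refl_ap hu, polar_sub_right, polar_smul_right, smul_eq_mul, polar_comm Q w u, polar_comm Q v u] at h1
    have := mul_mem (inv_mem two) (sub_mem (add_mem (hF v hv w hw) (mul_mem (hF u hu w hw) (hF u hu v hv))) h1)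
    convert this using 1
    have := h.two
    field_simp
    ring
  obtain ⟨u, hu⟩ := h.ne
  obtain ⟨s, hs⟩ : ∃ s : Set V, ∀ x, x ∈ s ↔ ∃ v ∈ R, polar Q u v ≠ 0 ∧ x = polar Q u v • v :=
    ⟨_, fun _ => Iff.rfl⟩
  have s1 : ∀ x ∈ s, ∀ y ∈ s, polar Q x y ∈ F₀ := fun x hx y hy => by
    obtain ⟨v, hv, -, rfl⟩ := (hs x).1 hx
    obtain ⟨w, hw, -, rfl⟩ := (hs y).1 hy
    rw [polar_smul_left, polar_smul_right, smul_eq_mul, smul_eq_mul, ← mul_assoc]
    exact T u hu v hv w hw
  have s2 : ∀ y ∈ R, ∀ x ∈ s, (refl Q y).1 x ∈ s ∨ ∃ y' ∈ s, ∃ c ∈ F₀, (refl Q y).1 x = x - c • y' :=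
    fun y hy x hx => by
      by_cases e : polar Q u y = 0
      · obtain ⟨v, hv, v0, rfl⟩ := (hs x).1 hx
        have e1 : polar Q u ((refl Q y).1 v) = polar Q u v := by
          rw [h.refl_ap hy, polar_sub_right, polar_smul_right, e, smul_zero, sub_zero]
        exact Or.inl ((hs _).2 ⟨_, h.ref y hy v hv, e1.symm ▸ v0, by rw [map_smul, e1]⟩)
      · have y1 := (hs _).2 ⟨y, hy, e, rfl⟩
        refine Or.inr ⟨_, y1, _, mul_mem (s1 x hx _ y1) (inv_mem (hF u hu y hy)), ?_⟩
        rw [h.refl_ap hy, polar_smul_right, smul_smul, smul_eq_mul]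
        congr 2
        field_simp
  have s3 : Submodule.span F s = ⊤ := by
    refine (h.irr' _ fun y hy v hv => ?_).resolve_left fun e => ?_
    · refine (Submodule.span_le.2 fun x hx => ?_ : Submodule.span F s ≤ (Submodule.span F s).comap (en (refl Q y))) hv
      refine Submodule.mem_comap.2 ?_
      rcases s2 y hy x hx with k | ⟨y', k, c, -, e⟩
      · exact Submodule.subset_span k
      · rw [en_apply, e]
        exact sub_mem (Submodule.subset_span hx) (Submodule.smul_mem _ _ (Submodule.subset_span k))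
    · have u0 : polar Q u u ≠ 0 := h.pol_self hu ▸ h.two
      have := Submodule.span_eq_bot.1 e _ ((hs _).2 ⟨u, hu, u0, rfl⟩)
      rw [smul_eq_zero_iff_right u0] at this
      exact u0 (by rw [this, polar_zero_left])
  have s4 : ∀ y ∈ R, ∀ x, (∀ v ∈ s, polar Q x v ∈ F₀) → ∀ v ∈ s, polar Q ((refl Q y).1 x) v ∈ F₀ :=
    fun y hy x hx v hv => by
      rw [O_polar_left, refl_inv]
      rcases s2 y hy v hv with k | ⟨y', k, c, hc, e⟩
      · exact hx _ k
      · rw [e, polar_sub_right, polar_smul_right, smul_eq_mul]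
        exact sub_mem (hx v hv) (mul_mem hc (hx y' k))
  have s5 : ∀ g ∈ RG Q R, ∀ x, (∀ v ∈ s, polar Q x v ∈ F₀) → ∀ v ∈ s, polar Q (g.1 x) v ∈ F₀ := fun g hg => by
    induction hg using closure_induction'' with
    | one => exact fun x hx => hx
    | mem g hg => obtain ⟨y, hy, rfl⟩ := hg; exact s4 y hy
    | inv_mem g hg => obtain ⟨y, hy, rfl⟩ := hg; rw [refl_inv]; exact s4 y hy
    | mul g k _ _ h1 h2 => exact fun x hx => h1 _ (h2 x hx)
  exact h.nosub F₀ fun g hg => trc_tr h.nd F₀ s3 s1 fun x hx => s5 g (h.le_RG hg) x (s1 x hx)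

theorem RS.trc_char (h : RS Q H P R) (hv : ∀ u ∈ R, ∀ v ∈ R, Df u v → ∃ n : ℕ, polar Q u v ^ 2 = n) {p : ℕ}
    [CharP F p] : p.Prime ∧ Nat.card F = p := by
  haveI := Fact.mk (CharP.char_is_prime F p)
  have e := h.trc ⊥ fun u hu v hv' => by
    have k : ∃ n : ℕ, polar Q u v ^ 2 = n := by
      by_cases e1 : v = u
      · exact ⟨4, by rw [e1, h.pol_self hu]; norm_num⟩
      by_cases e2 : v = -u
      · exact ⟨4, by rw [e2, polar_neg_right, h.pol_self hu]; norm_num⟩
      · exact hv u hu v hv' ⟨e1, e2⟩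
    obtain ⟨n, k⟩ := k
    exact k ▸ natCast_mem _ n
  refine ⟨Fact.out, ?_⟩
  rw [← Subfield.card_bot F p, e]
  exact (Nat.card_congr Subfield.topEquiv.toEquiv).symm

theorem RS.prime (h : RS Q H P R) (hl : Lace Q R) : (Nat.card F).Prime := by
  have := h.trc_char (p := ringChar F) fun u hu v hv e => by
    rcases hl u hu v hv e with k | k | k <;> rw [k]
    exacts [⟨0, by simp⟩, ⟨1, by simp⟩, ⟨1, by simp⟩]
  exact this.2 ▸ this.1

theorem RS.three (h : RS Q H P R) (h3 : (3 : F) = 0) (t : Tame Q R) (hg : NoGold Q R) :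
    Nat.card F = 3 := by
  haveI : CharP F 3 := CharP.ringChar_of_prime_eq_zero Nat.prime_three (by exact_mod_cast h3) ▸ ringChar.charP F
  refine (h.trc_char fun u hu v hv e => ?_).2
  rcases t.val u hu v hv e with k | k | k | k
  · exact ⟨0, by simp [k]⟩
  · exact ⟨1, by simp [k]⟩
  · exact ⟨2, by simp [k]⟩
  · exact absurd k (hg u hu v hv e)

end CfsgLib.O7
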