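import Cfsg.Agent.Lib.O7.TmT
import Cfsg.Agent.Lib.O7.TmQ
import Cfsg.Agent.Lib.O7.Grow
import Cfsg.Agent.Lib.O7.Trc

/-!
TAME, part L: the field type does not occur.  See `plans/O7T.md`.
-/

set_option autoImplicit false

namespace CfsgLib.O7

open CfsgLib.Forms CfsgLib.ClMax CfsgLib.RootMax CfsgLib.OrthE CfsgLib.OMax CfsgLib.Dickson
  Module QuadraticMap
open scoped MatrixGroups

variable {F V : Type*} [Field F] [Finite F] [AddCommGroup V] [Module F V] [FiniteDimensional F V]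
  {Q : QuadraticForm F V} {H P : Subgroup (O Q)} {R : Set V}

theorem RS.t3_pre (h : RS Q H P R) {a b c : V} (t : Tr3 Q R a b c) :
    TS4 Q R (Submodule.span F {a, b, c}) ∨ TA5 Q R (Submodule.span F {a, b, c}) ∨
      ∃ K : Subfield F, 3 ≤ Nat.card K ∧ TFd Q R (Submodule.span F {a, b, c}) K := by
  have a1 := h.one a t.ma
  have b1 := h.one b t.mb
  have c1 := h.one c t.mc
  have hU := dg_nd h.two a1 b1 c1 t.dg
  have h3 := dg_dim h.two a1 b1 c1 t.dg
  obtain ⟨Ψ, k, s⟩ := tm_spin h.two h.nd hU h3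
  have ma : a ∈ Submodule.span F ({a, b, c} : Set V) := Submodule.subset_span (by simp)
  have mb : b ∈ Submodule.span F ({a, b, c} : Set V) := Submodule.subset_span (by simp)
  have mc : c ∈ Submodule.span F ({a, b, c} : Set V) := Submodule.subset_span (by simp)
  have d1 : Df c a := df_of_dg (c := b) c1 fun e => t.dg (by
    unfold Dg at e ⊢; rw [polar_comm Q b c, polar_comm Q b a] at e; linear_combination e)
  have d2 : Df c b := df_of_dg (c := a) c1 fun e => t.dg (by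
    unfold Dg at e ⊢; rw [polar_comm Q a c] at e; linear_combination e)
  rcases tm_dk h.two (GU Ψ R _) (ps_mem Ψ t.ma ma) (ps_mem Ψ t.mb mb) (ps_mem Ψ t.mc mc)
    (ps_sq s ma a1) (ps_sq s mb b1) (ps_sq s mc c1)
    (fun e => t.ab (ps_comm s hU ma mb a1 b1 (df_of_dg a1 t.dg) e))
    (t.cc.imp (fun n e => n (ps_comm s hU mc ma c1 a1 d1 e))
      fun n e => n (ps_comm s hU mc mb c1 b1 d2 e))
    (ps_three s ma mb mc a1 b1 c1 t.ab t.dg) with e | ⟨h5, e⟩ | ⟨K, l, hK, e1, e2⟩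
  · exact Or.inl (h.ts_of s hU e)
  · exact Or.inr (Or.inl (h.ta_of s hU h5 e))
  · exact Or.inr (Or.inr ⟨K, hK, h.tf_of s hU h3 e1 e2 t.ma ma⟩)

theorem tm_bin (h2 : (2 : F) ≠ 0) {u v₁ v₂ x : V} {α β γ : F} (hu : Q u = 1) (h1 : Q v₁ = 1)
    (h1' : Q v₂ = 1) (hx : Q x = 1) (h3 : Q (α • v₁ + β • v₂ + γ • u) = 1) (hα : α ≠ 0) (hβ : β ≠ 0)
    (hd : Dg Q u v₁ v₂ ≠ 0) (e1 : Dg Q u v₁ x = 0) (e2 : Dg Q u v₂ x = 0)
    (e3 : Dg Q u (α • v₁ + β • v₂ + γ • u) x = 0) : polar Q x u ^ 2 = 4 := by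
  simp only [Dg, polar_add_right, polar_smul_right, polar_self', hu, smul_eq_mul, Q_add, Q_smul,
    polar_add_left, polar_smul_left, h1, h1', polar_comm Q v₁ u, polar_comm Q v₂ u,
    polar_comm Q v₂ v₁] at h3 hd e1 e2 e3
  generalize polar Q u v₁ = c₁, polar Q u v₂ = c₂, polar Q v₁ v₂ = d, polar Q x u = s,
    polar Q x v₁ = t₁, polar Q x v₂ = t₂ at *
  have k1 : (4 - s ^ 2) * (2 * d - c₁ * c₂) = (2 * t₁ - c₁ * s) * (2 * t₂ - c₂ * s) :=
    mul_left_cancel₀ (mul_ne_zero h2 (mul_ne_zero hα hβ)) (by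
      linear_combination 4 * e3 - 4 * α ^ 2 * e1 - 4 * β ^ 2 * e2 + 4 * (4 - s ^ 2) * h3)
  have k2 : (4 - s ^ 2) * (4 - c₁ ^ 2) = (2 * t₁ - c₁ * s) ^ 2 := by linear_combination 4 * e1
  have k3 : (4 - s ^ 2) * (4 - c₂ ^ 2) = (2 * t₂ - c₂ * s) ^ 2 := by linear_combination 4 * e2
  have k4 : (4 - s ^ 2) ^ 2 * (2 * 2 * (4 + c₁ * c₂ * d - c₁ ^ 2 - c₂ ^ 2 - d ^ 2)) = 0 := by
    linear_combination (4 - s ^ 2) * (4 - c₂ ^ 2) * k2 + (2 * t₁ - c₁ * s) ^ 2 * k3 -
      ((4 - s ^ 2) * (2 * d - c₁ * c₂) + (2 * t₁ - c₁ * s) * (2 * t₂ - c₂ * s)) * k1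
  have := (mul_eq_zero.1 k4).resolve_right (mul_ne_zero (mul_ne_zero h2 h2) hd)
  linear_combination -(pow_eq_zero_iff two_ne_zero).1 this

theorem RS.no_fld (h : RS Q H P R) {U : Submodule F V} {K : Subfield F} (t : TFd Q R U K) :
    Nat.card K < 5 := by
  by_contra h5
  obtain ⟨K, ⟨U, t, h5⟩, hm⟩ := Set.exists_max_image
    {K : Subfield F | ∃ U, TFd Q R U K ∧ 5 ≤ Nat.card K} (fun K => Nat.card K)
    (Set.toFinite _) ⟨K, U, t, not_lt.1 h5⟩
  obtain ⟨u, hu, v₁, h1, v₂, h2, α, β, γ, h3, hα, hβ, hd, g1, g2, g3⟩ := t.three h5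
  have m4 : (4 : F) ∈ K := ofNat_mem K 4
  have key : ∀ x ∈ R, polar Q x u ≠ 0 → ∀ v ∈ R, Gd5 K (polar Q u v) → Dg Q u v x ≠ 0 →
      polar Q x u ^ 2 ∈ K := fun x hx x0 v hv g hd => by
    have ma : u ∈ Submodule.span F ({u, v, x} : Set V) := Submodule.subset_span (by simp)
    have mb : v ∈ Submodule.span F ({u, v, x} : Set V) := Submodule.subset_span (by simp)
    have mc : x ∈ Submodule.span F ({u, v, x} : Set V) := Submodule.subset_span (by simp)
    by_cases d : Df x u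
    swap
    · exact sq_of_not_df (h.one x hx) d ▸ m4
    rcases h.t3_pre ⟨hu, hv, hx, g.ne, Or.inl x0, hd⟩ with t' | t' | ⟨K', -, t'⟩
    · rcases t'.val x hx mc u hu ma d with e | e | e
      exacts [absurd e x0, e ▸ K.one_mem, e ▸ ofNat_mem K 2]
    · have gv : Gold (polar Q u v ^ 2) :=
        ((t'.val u hu ma v hv mb (df_of_dg (h.one u hu) hd)).resolve_left g.ne).resolve_left
          fun e => t'.ne5 (g.one e)
      rcases t'.val x hx mc u hu ma d with e | e | e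
      · exact absurd e x0
      · exact e ▸ K.one_mem
      · unfold Gold at e gv
        have : (polar Q x u ^ 2 - polar Q u v ^ 2) * (polar Q x u ^ 2 - (3 - polar Q u v ^ 2)) = 0 := by
          linear_combination e - gv
        rcases mul_eq_zero.1 this with e' | e'
        · exact sub_eq_zero.1 e' ▸ g.mem
        · exact sub_eq_zero.1 e' ▸ K.sub_mem (ofNat_mem K 3) g.mem
    · have le := g.gen K' (t'.val u hu ma v hv mb)
      have c1 : Nat.card K ≤ Nat.card K' := Nat.card_le_card_of_injective _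
        (Subfield.inclusion le).injective
      have : K = K' := SetLike.coe_injective (Set.Finite.eq_of_subset_of_card_le (Set.toFinite _) le
        (hm K' ⟨_, t', h5.trans c1⟩))
      exact this ▸ t'.val x hx mc u hu ma
  have all : ∀ x ∈ R, polar Q x u ^ 2 ∈ K := fun x hx => by
    by_cases x0 : polar Q x u = 0
    · rw [x0, zero_pow two_ne_zero]; exact K.zero_mem
    by_cases e1 : Dg Q u v₁ x = 0
    swap
    · exact key x hx x0 _ h1 g1 e1
    by_cases e2 : Dg Q u v₂ x = 0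
    swap
    · exact key x hx x0 _ h2 g2 e2
    by_cases e3 : Dg Q u (α • v₁ + β • v₂ + γ • u) x = 0
    swap
    · exact key x hx x0 _ h3 g3 e3
    exact tm_bin h.two (h.one u hu) (h.one _ h1) (h.one _ h2) (h.one x hx) (h.one _ h3) hα hβ hd
      e1 e2 e3 ▸ m4
  obtain rfl := h.trc K fun x hx y hy => by
    obtain ⟨g, hg, e⟩ := h.trans y hy u hu
    have := all _ (h.inv g hg x hx)
    rw [← O_polar g]
    rcases e with e | e <;> rw [e]
    · exact this
    · rwa [polar_neg_right, neg_sq]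
  exact h.grow (by rwa [Nat.card_congr (Subfield.topEquiv (K := F)).toEquiv] at h5) t.nd t.dim
    (t.full rfl)

theorem RS.t3 (h : RS Q H P R) {a b c : V} (t : Tr3 Q R a b c) :
    TS4 Q R (Submodule.span F {a, b, c}) ∨ TA5 Q R (Submodule.span F {a, b, c}) := by
  rcases h.t3_pre t with t' | t' | ⟨K, hK, t'⟩
  · exact Or.inl t'
  · exact Or.inr t'
  · obtain ⟨h3, hx⟩ := tm_sub3 h.two K hK (h.no_fld t')
    refine Or.inl ⟨fun u hu uU v hv vU _ => ?_, fun n => absurd h3 n⟩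
    exact (hx _ (t'.val u hu uU v hv vU)).imp_left (pow_eq_zero_iff two_ne_zero).1

end CfsgLib.O7
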