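import Cfsg.Agent.Lib.O7.TmG1
import Cfsg.Agent.Lib.O7.TmL

/-!
TAME, part G: unipotent pairs and degenerate triples.  See `plans/O7T.md`.
-/

set_option autoImplicit false

namespace CfsgLib.O7

open CfsgLib.Forms CfsgLib.ClMax CfsgLib.RootMax CfsgLib.OrthE CfsgLib.OMax CfsgLib.Dickson
  Module QuadraticMap
open scoped MatrixGroups

variable {F V : Type*} [Field F] [Finite F] [AddCommGroup V] [Module F V] [FiniteDimensional F V]
  {Q : QuadraticForm F V} {H P : Subgroup (O Q)} {R : Set V}

theorem RS.tmg_tr (h : RS Q H P R) {u z : V} (hu : u ∈ R) (hz : z ≠ 0)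
    (huz : polar Q u z = 0) (e : u + z ∈ R) : ∃ x, polar Q x z ≠ 0 ∧ Tr3 Q R u (u + z) x := by
  obtain ⟨x, hx, t⟩ : ∃ x ∈ R, polar Q x z ≠ 0 := by
    by_contra k
    push Not at k
    refine hz (h.nd z fun y => ?_)
    have hy : y ∈ Submodule.span F R := h.span_eq ▸ Submodule.mem_top
    rw [polar_comm]
    induction hy using Submodule.span_induction with
    | mem y hy => exact k y hy
    | zero => exact polar_zero_left Q z
    | add a b _ _ ha hb => rw [polar_add_left, ha, hb, add_zero]
    | smul c a _ ha => rw [polar_smul_left, ha, smul_zero]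
  have p : polar Q u (u + z) = 2 := by rw [polar_add_right, h.pol_self hu, huz, add_zero]
  refine ⟨x, t, hu, e, hx, p ▸ h.two, or_iff_not_imp_left.2 fun k => ?_, fun k => t ?_⟩
  · rwa [polar_add_right, not_not.1 k, zero_add]
  · rw [Dg, p, polar_add_right] at k
    exact pow_eq_zero_iff two_ne_zero |>.1 (by linear_combination -k)

theorem RS.tm_uni (h : RS Q H P R) {u z : V} (hu : u ∈ R) (hz : z ≠ 0) (hz0 : Q z = 0)
    (huz : polar Q u z = 0) (e : u + z ∈ R) : (3 : F) = 0 := by
  have _ := hz0
  obtain ⟨x, -, t⟩ := h.tmg_tr hu hz huz e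
  have p : polar Q u (u + z) = 2 := by rw [polar_add_right, h.pol_self hu, huz, add_zero]
  have hd := df_of_dg (h.one u hu) t.dg
  have m1 : u ∈ Submodule.span F ({u, u + z, x} : Set V) := Submodule.subset_span (by simp)
  have m2 : u + z ∈ Submodule.span F ({u, u + z, x} : Set V) := Submodule.subset_span (by simp)
  rcases h.t3 t with k | k
  · rcases k.val u hu m1 _ e m2 hd with e' | e' | e' <;> rw [p] at e'
    · exact absurd e' h.two
    · linear_combination e'
    · exact absurd (by linear_combination e') h.two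
  · rcases k.val u hu m1 _ e m2 hd with e' | e' | e' <;> rw [p] at e'
    · exact absurd e' h.two
    · linear_combination e'
    · exact absurd (gold_four (by rwa [show (2 : F) ^ 2 = 4 by ring] at e')) k.ne5

theorem RS.tm_uni' (h : RS Q H P R) {u v : V} (hu : u ∈ R) (hv : v ∈ R) (hd : Df u v)
    (e : polar Q u v ^ 2 = 4) : (3 : F) = 0 := by
  have k : ∀ v ∈ R, v ≠ u → polar Q u v = 2 → (3 : F) = 0 := fun v hv ne e =>
    h.tm_uni (z := v - u) hu (sub_ne_zero.2 ne)
      (by rw [Q_sub, h.one u hu, h.one v hv, polar_comm, e]; ring)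
      (by rw [polar_sub_right, h.pol_self hu, e, sub_self]) (by simpa using hv)
  rcases mul_eq_zero.1 (show (polar Q u v - 2) * (polar Q u v + 2) = 0 by linear_combination e) with e | e
  · exact k v hv hd.1 (by linear_combination e)
  · exact k (-v) (h.neg v hv) (fun e' => hd.2 (by rw [← e', neg_neg]))
      (by rw [polar_neg_right]; linear_combination -e)

theorem tmg_z3 : ∀ a : ZMod 3, a = 0 ∨ a = 1 ∨ a = -1 := by decide

theorem RS.tm_root (h : RS Q H P R) {u z : V} (hu : u ∈ R) (hz : z ≠ 0) (hz0 : Q z = 0)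
    (huz : polar Q u z = 0) (e : u + z ∈ R) {κ : F} (e' : u + κ • z ∈ R) :
    κ = 0 ∨ κ = 1 ∨ κ = -1 := by
  have h3 := h.tm_uni hu hz hz0 huz e
  by_contra hκ
  have : CharP F 3 := (CharP.charP_iff_prime_eq_zero Nat.prime_three).2 (by exact_mod_cast h3)
  have : Fact (Nat.Prime 3) := ⟨Nat.prime_three⟩
  let c : ZMod 3 →+* F := ZMod.castHom (dvd_refl 3) F
  have hc : ∀ a, c a = 0 ∨ c a = 1 ∨ c a = -1 := fun a => by
    rcases tmg_z3 a with rfl | rfl | rfl <;> simp
  have ad : ∀ a b : F, u + a • z ∈ R → u + b • z ∈ R → u + (a + b) • z ∈ R ∧ u + (-a) • z ∈ R := fun a b ha hb => by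
    have := h.root_add hu (z := a • z) (z' := b • z) (by simp [Q_smul, hz0]) (by simp [Q_smul, hz0])
      (by simp [huz]) (by simp [huz]) (by simp [hz0]) ha hb
    rwa [← add_smul, sub_eq_add_neg, ← neg_smul] at this
  have mu : ∀ (a : ZMod 3) (b : F), u + b • z ∈ R → u + (c a * b) • z ∈ R := fun a b hb => by
    rcases hc a with k | k | k <;> rw [k]
    · simpa using hu
    · rwa [one_mul]
    · rw [neg_one_mul]; exact (ad b b hb hb).2
  have rt : ∀ a b, u + (c a + c b * κ) • z ∈ R := fun a b =>
    (ad _ _ (by simpa using mu a 1 (by rwa [one_smul])) (mu b κ e')).1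
  obtain ⟨x, t, T⟩ := h.tmg_tr hu hz huz e
  have m1 : u ∈ Submodule.span F ({u, u + z, x} : Set V) := Submodule.subset_span (by simp)
  have m2 : u + z ∈ Submodule.span F ({u, u + z, x} : Set V) := Submodule.subset_span (by simp)
  have m3 : x ∈ Submodule.span F ({u, u + z, x} : Set V) := Submodule.subset_span (by simp)
  have m4 : ∀ a : F, u + a • z ∈ Submodule.span F ({u, u + z, x} : Set V) := fun a =>
    add_mem m1 (Submodule.smul_mem _ _ (by simpa using sub_mem m2 m1))
  let f : ZMod 3 × ZMod 3 → F := fun i => polar Q x (u + (c i.1 + c i.2 * κ) • z)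
  have inj : Function.Injective f := by
    rintro ⟨a, b⟩ ⟨a', b'⟩ k
    simp only [f, polar_add_right, polar_smul_right, smul_eq_mul, add_right_inj, mul_eq_mul_right_iff, t,
      or_false] at k
    by_cases hb : b = b'
    · subst hb
      rw [c.injective (add_right_cancel k)]
    · have n0 : c (b - b') ≠ 0 := (map_ne_zero c).2 (sub_ne_zero.2 hb)
      refine absurd (?_ : κ = c ((a' - a) / (b - b'))) fun k' => hκ (k' ▸ hc _)
      rw [map_div₀, eq_div_iff n0, map_sub, map_sub]
      linear_combination k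
  have key : ∀ p : Polynomial F, p.natDegree < 9 → p.eval 1 = 0 → p.eval (-1) = 0 →
      (∀ i, Df x (u + (c i.1 + c i.2 * κ) • z) → p.eval (f i) = 0) → p = 0 := fun p d p1 p2 k =>
    Polynomial.eq_zero_of_natDegree_lt_card_of_eval_eq_zero p inj (fun i => by
      by_cases hd : Df x (u + (c i.1 + c i.2 * κ) • z)
      · exact k i hd
      · have := sq_of_not_df (h.one x T.mc) hd
        rcases mul_eq_zero.1 (show (f i - 1) * (f i + 1) = 0 by linear_combination this + h3) with e1 | e1
        · rwa [sub_eq_zero.1 e1]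
        · rwa [eq_neg_of_add_eq_zero_left e1]) (by simpa using d)
  rcases h.t3 T with k | k
  · have := key (Polynomial.X ^ 5 - 3 * Polynomial.X ^ 3 + 2 * Polynomial.X) (by
      refine lt_of_le_of_lt (?_ : _ ≤ 5) (by norm_num)
      compute_degree) (by simp; norm_num) (by simp; norm_num) fun i hd => by
        simp only [Polynomial.eval_add, Polynomial.eval_sub, Polynomial.eval_mul, Polynomial.eval_pow,
          Polynomial.eval_X, Polynomial.eval_ofNat]
        rcases k.val x T.mc m3 _ (rt i.1 i.2) (m4 _) hd with e1 | e1 | e1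
        · rw [show f i = 0 from e1]; ring
        · linear_combination (f i ^ 3 - 2 * f i) * e1
        · linear_combination (f i ^ 3 - f i) * e1
    have := congrArg (Polynomial.coeff · 5) this
    simp [Polynomial.coeff_X, Polynomial.coeff_X_pow] at this
  · have := key (Polynomial.X ^ 7 - 4 * Polynomial.X ^ 5 + 4 * Polynomial.X ^ 3 - Polynomial.X) (by
      refine lt_of_le_of_lt (?_ : _ ≤ 7) (by norm_num)
      compute_degree) (by simp) (by simp; norm_num) fun i hd => by
        simp only [Polynomial.eval_add, Polynomial.eval_sub, Polynomial.eval_mul, Polynomial.eval_pow,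
          Polynomial.eval_X, Polynomial.eval_ofNat]
        rcases k.val x T.mc m3 _ (rt i.1 i.2) (m4 _) hd with e1 | e1 | e1
        · rw [show f i = 0 from e1]; ring
        · linear_combination (f i ^ 5 - 3 * f i ^ 3 + f i) * e1
        · unfold Gold at e1
          linear_combination (f i ^ 3 - f i) * e1
    have := congrArg (Polynomial.coeff · 7) this
    simp [Polynomial.coeff_X, Polynomial.coeff_X_pow] at this

theorem RS.tmg_step (h : RS Q H P R) {u v z : V} (hu : u ∈ R) (hv : v ∈ R) (h1 : polar Q u z = 0)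
    (h2 : polar Q v z = 0) (e : u + z ∈ R) : v + polar Q u v • z ∈ R := by
  have := h.ref _ e _ (h.ref u hu v hv)
  rw [h.refl_ap e, h.refl_ap hu, polar_sub_left, polar_smul_left, polar_add_right, polar_add_right,
    h.pol_self hu, h1, h2, polar_comm Q v u] at this
  convert this using 1
  simp only [smul_eq_mul]
  module

theorem RS.tm_deg (h : RS Q H P R) {u v w : V} (hu : u ∈ R) (hv : v ∈ R) (hw : w ∈ R)
    (h0 : polar Q u v ≠ 0) (h4 : polar Q u v ^ 2 ≠ 4) (hw' : w ∉ Submodule.span F {u, v})
    (hd : Dg Q u v w = 0) : (3 : F) = 0 ∧ polar Q u v ^ 2 = 2 := by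
  obtain ⟨z, z0, zs, h1, h2, e⟩ := h.tm_tl hu hv hw h4 hw' hd
  have k : ∀ u ∈ R, ∀ v ∈ R, polar Q u v ≠ 0 → polar Q u v ^ 2 ≠ 4 → polar Q u z = 0 → polar Q v z = 0 →
      u + z ∈ R → (3 : F) = 0 ∧ polar Q u v ^ 2 = 2 := fun u hu v hv h0 h4 h1 h2 e => by
    have h3 := h.tm_uni hu z0 zs h1 e
    have r := h.tmg_step hv hu (by simp [h2]) (by simp [h1]) (h.tmg_step hu hv h1 h2 e)
    rw [smul_smul, polar_comm Q v u, ← pow_two] at r
    refine ⟨h3, ?_⟩
    rcases h.tm_root hu z0 zs h1 e r with e1 | e1 | e1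
    · exact absurd (pow_eq_zero_iff two_ne_zero |>.1 e1) h0
    · exact absurd (by linear_combination e1 - h3) h4
    · linear_combination e1 - h3
  rcases e with e | e
  · exact k u hu v hv h0 h4 h1 h2 e
  · rw [polar_comm] at h0 h4 ⊢
    exact k v hv u hu h0 h4 h2 h1 e

end CfsgLib.O7
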