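import Cfsg.Agent.Lib.O7.TmD
import Cfsg.Agent.Lib.O7.Base

/-!
TAME, part G: unipotent pairs and degenerate triples.  See `plans/O7T.md`.
-/

set_option autoImplicit false

namespace CfsgLib.O7

open CfsgLib.Forms CfsgLib.ClMax CfsgLib.RootMax CfsgLib.OrthE CfsgLib.OMax CfsgLib.Dickson
  Module QuadraticMap
open scoped MatrixGroups

variable {F V : Type*} [Field F] [Finite F] [AddCommGroup V] [Module F V] [FiniteDimensional F V]
  {Q : QuadraticForm F V} {H P : Subgroup (O Q)} {R : Set V}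

theorem RS.tmg1_aux (h : RS Q H P R) {u v z : V} {α β c : F} (hu : u ∈ R) (hv : v ∈ R)
    (hw : α • u + β • v + z ∈ R) (hc : polar Q u v = c) (z0 : Q z = 0) (uz : polar Q u z = 0)
    (vz : polar Q v z = 0) :
    u + (α * (c ^ 2 - 4)) • z ∈ R ∧ v + ((α * c + β) * (c ^ 2 - 4)) • z ∈ R ∧
      α ^ 2 + β ^ 2 + α * β * c = 1 := by
  have u1 := h.one u hu
  have v1 := h.one v hv
  have hc' : polar Q v u = c := (polar_comm _ _ _).trans hc
  have zu : polar Q z u = 0 := (polar_comm _ _ _).trans uz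
  have zv : polar Q z v = 0 := (polar_comm _ _ _).trans vz
  have q : α ^ 2 + β ^ 2 + α * β * c - 1 = 0 := by
    have := h.one _ hw
    simp only [Q_add, Q_smul, polar_add_left, polar_smul_left, polar_smul_right, smul_eq_mul, u1, v1,
      hc, z0, uz, vz] at this
    linear_combination this
  have T : ∀ {a b e : F}, a • u + b • v + e • z ∈ R →
      ((c ^ 2 - 1) * (a - (a * (2 * α + β * c) + b * (α * c + 2 * β)) * α) +
          c * (b - (a * (2 * α + β * c) + b * (α * c + 2 * β)) * β)) • u +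
        (-(b - (a * (2 * α + β * c) + b * (α * c + 2 * β)) * β) -
          c * (a - (a * (2 * α + β * c) + b * (α * c + 2 * β)) * α)) • v +
        (e - (a * (2 * α + β * c) + b * (α * c + 2 * β))) • z ∈ R := fun {a b e} hy => by
    have := h.ref u hu _ (h.ref v hv _ (h.ref _ hw _ hy))
    rw [h.refl_ap hu, h.refl_ap hv, h.refl_ap hw] at this
    simp only [polar_add_left, polar_add_right, polar_sub_left, polar_smul_left, polar_smul_right,
      smul_eq_mul, polar_self', u1, v1, hc, hc', z0, uz, vz, zu, zv] at this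
    convert this using 1
    module
  have cv : ∀ {a b e a' b' e' : F}, a • u + b • v + e • z ∈ R → a = a' → b = b' → e = e' →
      a' • u + b' • v + e' • z ∈ R := fun hy e1 e2 e3 => e1 ▸ e2 ▸ e3 ▸ hy
  refine ⟨?_, ?_, by linear_combination q⟩
  · have := cv (a' := 1) (b' := 0) (e' := α * (c ^ 2 - 4))
      (T (T (a := 1) (b := 0) (e := 0) (by simpa using hu)))
      (by linear_combination (2 * α ^ 2 * c ^ 4 - 6 * α ^ 2 * c ^ 2 + 4 * α ^ 2 + α * β * c ^ 5 -
        α * β * c ^ 3 - 2 * α * β * c + β ^ 2 * c ^ 4 - 2 * β ^ 2 * c ^ 2 - c ^ 4 + 3 * c ^ 2) * q)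
      (by linear_combination (-2 * α ^ 2 * c ^ 3 + 4 * α ^ 2 * c - α * β * c ^ 4 + 4 * α * β -
        β ^ 2 * c ^ 3 + 2 * β ^ 2 * c + c ^ 3 - 2 * c) * q)
      (by linear_combination (2 * α * c ^ 2 - 4 * α + β * c ^ 3 - 2 * β * c) * q)
    simpa using this
  · have := cv (a' := 0) (b' := 1) (e' := (α * c + β) * (c ^ 2 - 4))
      (T (T (a := 0) (b := 1) (e := 0) (by simpa using hv)))
      (by linear_combination (α ^ 2 * c ^ 5 - 3 * α ^ 2 * c ^ 3 + 2 * α ^ 2 * c + 3 * α * β * c ^ 4 -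
        8 * α * β * c ^ 2 + 4 * α * β + 2 * β ^ 2 * c ^ 3 - 4 * β ^ 2 * c - c ^ 3 + 2 * c) * q)
      (by linear_combination (-α ^ 2 * c ^ 4 + 2 * α ^ 2 * c ^ 2 - 3 * α * β * c ^ 3 + 6 * α * β * c -
        2 * β ^ 2 * c ^ 2 + 4 * β ^ 2 + c ^ 2) * q)
      (by linear_combination (α * c ^ 3 - 2 * α * c + 2 * β * c ^ 2 - 4 * β) * q)
    simpa using this

/-- a degenerate triple gives a unipotent pair (no use of Dickson's theorem) -/
theorem RS.tm_tl (h : RS Q H P R) {u v w : V} (hu : u ∈ R) (hv : v ∈ R) (hw : w ∈ R)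
    (h4 : polar Q u v ^ 2 ≠ 4) (hw' : w ∉ Submodule.span F {u, v}) (hd : Dg Q u v w = 0) :
    ∃ z, z ≠ 0 ∧ Q z = 0 ∧ polar Q u z = 0 ∧ polar Q v z = 0 ∧ (u + z ∈ R ∨ v + z ∈ R) := by
  have u1 := h.one u hu
  have v1 := h.one v hv
  have w1 := h.one w hw
  have d0 : 4 - polar Q u v ^ 2 ≠ 0 := sub_ne_zero.2 h4.symm
  obtain ⟨α, hα⟩ : ∃ α, α * (4 - polar Q u v ^ 2) = 2 * polar Q w u - polar Q u v * polar Q w v :=
    ⟨_, div_mul_cancel₀ _ d0⟩
  obtain ⟨β, hβ⟩ : ∃ β, β * (4 - polar Q u v ^ 2) = 2 * polar Q w v - polar Q u v * polar Q w u :=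
    ⟨_, div_mul_cancel₀ _ d0⟩
  have s1 : polar Q w u = 2 * α + β * polar Q u v := mul_right_cancel₀ d0 (by
    linear_combination -2 * hα - polar Q u v * hβ)
  have s2 : polar Q w v = α * polar Q u v + 2 * β := mul_right_cancel₀ d0 (by
    linear_combination -polar Q u v * hα - 2 * hβ)
  have q : α ^ 2 + β ^ 2 + α * β * polar Q u v = 1 := mul_right_cancel₀ d0 (by
    rw [Dg, s1, s2] at hd
    linear_combination -hd)
  obtain ⟨z, rfl⟩ : ∃ z, w = α • u + β • v + z := ⟨w - (α • u + β • v), by abel⟩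
  have z0 : z ≠ 0 := by
    rintro rfl
    exact hw' (Submodule.mem_span_pair.2 ⟨α, β, (add_zero _).symm⟩)
  simp only [polar_add_left, polar_smul_left, smul_eq_mul, polar_self', u1, v1,
    polar_comm Q v u, polar_comm Q z u, polar_comm Q z v] at s1 s2
  have uz : polar Q u z = 0 := by linear_combination s1
  have vz : polar Q v z = 0 := by linear_combination s2
  have qz : Q z = 0 := by
    simp only [Q_add, Q_smul, polar_add_left, polar_smul_left, polar_smul_right, smul_eq_mul, u1, v1,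
      uz, vz] at w1
    linear_combination w1 - q
  obtain ⟨k1, k2, -⟩ := h.tmg1_aux hu hv hw rfl qz uz vz
  have d1 : polar Q u v ^ 2 - 4 ≠ 0 := sub_ne_zero.2 h4
  have fin : ∀ μ : F, μ ≠ 0 → u + μ • z ∈ R ∨ v + μ • z ∈ R →
      ∃ z, z ≠ 0 ∧ Q z = 0 ∧ polar Q u z = 0 ∧ polar Q v z = 0 ∧ (u + z ∈ R ∨ v + z ∈ R) :=
    fun μ h0 k => ⟨μ • z, smul_ne_zero h0 z0, by rw [Q_smul, qz, mul_zero],
      by rw [polar_smul_right, uz, smul_zero], by rw [polar_smul_right, vz, smul_zero], k⟩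
  by_cases a0 : α = 0
  · refine fin _ (mul_ne_zero (fun b0 => ?_) d1) (.inr k2)
    rw [a0, zero_mul, zero_add] at b0
    rw [a0, b0] at q
    simp at q
  · exact fin _ (mul_ne_zero a0 d1) (.inl k1)

end CfsgLib.O7
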