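import Cfsg.Agent.Lib.O7.TmD

/-!
TAME, part K: three involutions in Dickson's list.  See `plans/O7T.md`.
-/

set_option autoImplicit false

namespace CfsgLib.O7

open CfsgLib.Forms CfsgLib.ClMax CfsgLib.RootMax CfsgLib.OrthE CfsgLib.OMax CfsgLib.Dickson
  Module QuadraticMap
open scoped MatrixGroups

variable {F : Type*} [Field F] [Finite F]

omit [Finite F] in
theorem tmk_aff (k : PGL(2, F)) {A : PGL(2, F)} (a2 : A * A = 1) (a1 : A ≠ 1) (h2 : (2 : F) ≠ 0)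
    (h : A • k • (P1.inf : P1 F) = k • P1.inf) :
    ∃ b, k⁻¹ * A * k = aff (-1) b (neg_ne_zero.2 one_ne_zero) := by
  obtain ⟨a, b, ha, e⟩ := exists_aff (g := k⁻¹ * A * k) (by rw [mul_smul, mul_smul, h, inv_smul_smul])
  have e2 : aff a b ha * aff a b ha = 1 := by
    rw [← e, show k⁻¹ * A * k * (k⁻¹ * A * k) = k⁻¹ * (A * A) * k by group, a2]; group
  rw [aff_mul, aff_eq_one_iff] at e2
  rcases mul_self_eq_one_iff.1 e2.1 with rfl | rfl
  · have hb : b = 0 := (mul_eq_zero.1 (by linear_combination e2.2 : (2 : F) * b = 0)).resolve_left h2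
    have := e.trans (aff_eq_one_iff.2 ⟨rfl, hb⟩)
    exact absurd (by rw [show A = k * (k⁻¹ * A * k) * k⁻¹ by group, this]; group) a1
  · exact ⟨b, e⟩

theorem tm_dk (h2 : (2 : F) ≠ 0) (G : Subgroup PGL(2, F)) {A B C : PGL(2, F)} (hA : A ∈ G)
    (hB : B ∈ G) (hC : C ∈ G) (a2 : A * A = 1) (b2 : B * B = 1) (c2 : C * C = 1)
    (n1 : A * B ≠ B * A) (n2 : C * A ≠ A * C ∨ C * B ≠ B * C) (n3 : (A * B * C) ^ 2 ≠ 1) :
    Nonempty (G ≃* Equiv.Perm (Fin 4)) ∨
      ((5 : F) ≠ 0 ∧ Nonempty (G ≃* alternatingGroup (Fin 5))) ∨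
      ∃ (K : Subfield F) (l : PGL(2, F)), 3 ≤ Nat.card K ∧ pslSub K l ≤ G ∧ G ≤ pglSub K l := by
  obtain ⟨p, hp⟩ := CharP.exists F
  have := Fact.mk (CharP.char_is_prime F p)
  have a1 : A ≠ 1 := by rintro rfl; simp at n1
  have b1 : B ≠ 1 := by rintro rfl; simp at n1
  have c1 : C ≠ 1 := by rintro rfl; simp at n2
  have pair : ∀ x y, x ≠ y → ¬ G ≤ pairStab ⊤ x y := fun x y hxy h => by
    have key : ∀ Z ∈ G, ∀ R ∈ G, Z * Z = 1 → R * R = 1 → Z * R ≠ R * Z → Z • x = y ∧ Z • y = x := by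
      intro Z hZ R hR z2 r2 nz
      refine (mem_pairStab.1 (h hZ)).2.resolve_left fun h1 => nz ?_
      rcases (mem_pairStab.1 (h hR)).2 with h3 | h3
      · rw [invol_eq hxy ⟨trivial, h1⟩ ⟨trivial, h3⟩ z2 r2 (by rintro rfl; simp at nz)
          (by rintro rfl; simp at nz)]
      · have := swap_conj_eq_inv hxy ⟨trivial, h1⟩ h3.1 h3.2
        rw [inv_eq_of_mul_eq_one_right z2, mul_inv_eq_iff_eq_mul] at this
        exact this.symm
    have kA := key A hA B hB a2 b2 n1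
    have kB := key B hB A hA b2 a2 n1.symm
    have kC := n2.elim (key C hC A hA c2 a2) (key C hC B hB c2 b2)
    refine n3 ?_
    rw [pow_two]
    exact (mob_bar p).swap_mul_self hxy (by rw [mul_smul, mul_smul, kC.1, kB.2, kA.1])
      (by rw [mul_smul, mul_smul, kC.2, kB.1, kA.2])
  rcases dickson_fin p G with ⟨x, h⟩ | ⟨x, y, hxy, h⟩ | ⟨x, y, hxy, h⟩ | ⟨-, -, ⟨e⟩⟩ | h | h |
    ⟨K, k, h3, h⟩
  · obtain ⟨k, rfl⟩ := exists_smul_inf x
    obtain ⟨a, ea⟩ := tmk_aff k a2 a1 h2 (smul_emb_eq_iff.1 (h hA).2)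
    obtain ⟨b, eb⟩ := tmk_aff k b2 b1 h2 (smul_emb_eq_iff.1 (h hB).2)
    obtain ⟨c, ec⟩ := tmk_aff k c2 c1 h2 (smul_emb_eq_iff.1 (h hC).2)
    refine absurd ?_ n3
    have e : (k⁻¹ * A * k * (k⁻¹ * B * k) * (k⁻¹ * C * k)) ^ 2 = 1 := by
      rw [ea, eb, ec, pow_two]
      simp only [aff_mul, aff_eq_one_iff]
      constructor <;> ring
    rw [show A * B * C = k * (k⁻¹ * A * k * (k⁻¹ * B * k) * (k⁻¹ * C * k)) * k⁻¹ by group, conj_pow, e,
      mul_one, mul_inv_cancel]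
  · exact absurd h (pair _ _ (emb_injective.ne hxy))
  · exact absurd h (pair _ _ hxy.2.1)
  · refine absurd ?_ n1
    have := a4_klein (e ⟨A, hA⟩) (e ⟨B, hB⟩)
    simpa [← map_mul, Subtype.ext_iff, a2, a1, b2] using this
  · exact Or.inl h.2.2
  · refine Or.inr (Or.inl ⟨fun h5 => h.2.1 ?_, h.2.2⟩)
    exact (Nat.prime_dvd_prime_iff_eq (CharP.char_is_prime F p) Nat.prime_five).1
      ((CharP.cast_eq_zero_iff F p 5).1 (by exact_mod_cast h5))
  · exact Or.inr (Or.inr ⟨K, k, h3, pslSub_le_of h, le_pglSub_of h⟩)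

set_option synthInstance.maxSize 100000 in
set_option maxRecDepth 100000 in
theorem tm_s4 : ∀ A B C : Equiv.Perm (Fin 4), A * A = 1 → B * B = 1 → C * C = 1 →
    (A * B) ^ 2 ≠ 1 → (A * B) ^ 4 = 1 → C * A = A * C ∨ C * B = B * C ∨
      C * (A * B * A) = A * B * A * C ∨ C * (B * A * B) = B * A * B * C := by
  have h : ∀ A : Equiv.Perm (Fin 4), A * A = 1 → ∀ B : Equiv.Perm (Fin 4), B * B = 1 →
      A * B * (A * B) ≠ 1 → A * B * (A * B) * (A * B * (A * B)) = 1 → ∀ C : Equiv.Perm (Fin 4),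
      C * C = 1 → C * A = A * C ∨ C * B = B * C ∨
      C * (A * B * A) = A * B * A * C ∨ C * (B * A * B) = B * A * B * C := by decide +kernel
  intro A B C a b c d e
  exact h A a B b (by rwa [← pow_two]) (by rw [← e]; simp only [pow_succ, pow_zero, one_mul, mul_assoc]) C c

/-- the value at `i` of the permutation with code `a` -/
def tmk_ap (a i : ℕ) : ℕ := Nat.land (Nat.shiftRight a (3 * i)) 7

/-- the elements of order at most two of `A₅` -/
def tmk_L : List ℕ :=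
  [18056, 14416, 8984, 5344, 14465, 17601, 9985, 14346, 16922, 5666, 8459, 16467, 4259, 1228, 1620, 668]

theorem tmk_mem : ∀ A : Equiv.Perm (Fin 5), A * A = 1 → Equiv.Perm.sign A = 1 →
    ∃ a ∈ tmk_L, ∀ i, (A i).val = tmk_ap a i.val := by
  decide +kernel

set_option synthInstance.maxSize 100000 in
set_option maxRecDepth 100000 in
theorem tm_a5 : ∀ A B C : alternatingGroup (Fin 5), A * A = 1 → B * B = 1 → C * C = 1 →
    A * B ≠ 1 → (A * B) ^ 5 = 1 → C * A = A * C ∨ C * B = B * C ∨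
      C * (A * B * A) = A * B * A * C ∨ C * (B * A * B) = B * A * B * C ∨
      C * (A * (B * A * B) * A) = A * (B * A * B) * A * C := by
  intro A B C a b c d e
  have e' : A * B * (A * B) * (A * B * (A * B)) * (A * B) = 1 := by
    rw [← e]; simp only [pow_succ, pow_zero, one_mul, mul_assoc]
  obtain ⟨x, hx, ex⟩ := tmk_mem A (congrArg Subtype.val a) A.2
  obtain ⟨y, hy, ey⟩ := tmk_mem B (congrArg Subtype.val b) B.2
  obtain ⟨z, hz, ez⟩ := tmk_mem C (congrArg Subtype.val c) C.2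
  simp only [Subtype.ext_iff, ne_eq, Subgroup.coe_mul, Subgroup.coe_one, Equiv.ext_iff,
    Equiv.Perm.mul_apply, Equiv.Perm.one_apply, Fin.ext_iff, ex, ey, ez] at d e' ⊢
  clear a b c e ex ey ez
  revert x y z
  suffices h : ∀ x ∈ tmk_L, ∀ y ∈ tmk_L, _ → _ → ∀ z ∈ tmk_L, _ from
    fun x hx y hy z hz d e => h x hx y hy d e z hz
  decide +kernel

end CfsgLib.O7
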