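import Cfsg.Agent.Lib.O7.TmS
import Cfsg.Agent.Lib.O7.TmC1

/-!
TAME, part Q: the field type.  See `plans/O7T.md`.
-/

set_option autoImplicit false

namespace CfsgLib.O7

open CfsgLib.Forms CfsgLib.ClMax CfsgLib.RootMax CfsgLib.OrthE CfsgLib.OMax CfsgLib.Dickson
  Module QuadraticMap
open scoped MatrixGroups

variable {F V : Type*} [Field F] [Finite F] [AddCommGroup V] [Module F V] [FiniteDimensional F V]
  {Q : QuadraticForm F V} {H P : Subgroup (O Q)} {R : Set V}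
  {U : Submodule F V} {Ψ : V →ₗ[F] Matrix (Fin 2) (Fin 2) F} {k : F}

omit [Finite F] [FiniteDimensional F V] in
theorem tmq_key (s : Spin Q U Ψ k) (g : GL (Fin 2) F) {v : V} (hv : v ∈ U) (h1 : Q v = 1)
    {a b c d : F} {hh : a * d - b * c ≠ 0}
    (e : (Matrix.ProjGenLinGroup.mk g)⁻¹ * ps Ψ v * Matrix.ProjGenLinGroup.mk g = pm a b c d hh) :
    ∃ μ : F, μ ≠ 0 ∧ (g⁻¹ : GL (Fin 2) F).1 * Ψ v * g.1 = μ • !![a, b; c, d] := by
  rw [ps, ← map_inv, ← map_mul, ← map_mul, pm, eq_comm,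
    Matrix.ProjGenLinGroup.mk_eq_mk_iff] at e
  obtain ⟨μ, e⟩ := e
  refine ⟨μ, μ.ne_zero, ?_⟩
  have := congrArg Units.val e
  rw [Units.val_mul, Units.val_mul, Units.val_mul, s.val hv (by rw [h1]; exact one_ne_zero),
    gm_val] at this
  rw [← this]
  simp [Matrix.scalar_apply, ← Matrix.smul_eq_mul_diagonal]

/-- the rational form: every rational vector of norm one is a root -/
theorem RS.tf_form (h : RS Q H P R) (s : Spin Q U Ψ k) (hU : ND Q U) {K : Subfield F}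
    {l : PGL(2, F)} (e1 : pslSub K l ≤ GU Ψ R U) (e2 : GU Ψ R U ≤ pglSub K l) {u : V} (hu : u ∈ R)
    (huU : u ∈ U) : ∃ δ ∈ K, δ ≠ 0 ∧ ∃ Φ : V →ₗ[F] Matrix (Fin 2) (Fin 2) F,
      (∀ v ∈ U, Φ v = 0 → v = 0) ∧
      (∀ v ∈ U, ∀ w ∈ U, Φ v * Φ w + Φ w * Φ v = (-δ * polar Q v w) • 1) ∧
      Φ u = !![0, -δ; 1, 0] ∧ ∀ x ∈ K, ∀ y ∈ K, ∀ z ∈ K, x * -x - y * z = δ →
        ∃ v ∈ R, v ∈ U ∧ Φ v = !![x, y; z, -x] := by
  have u1 := h.one u hu
  obtain ⟨x₀, hx₀⟩ := mem_pglSub.1 (e2 (ps_mem Ψ hu huU))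
  have inj := pglMap_injective K.subtype
  have x2 : x₀ ^ 2 = 1 := inj (by
    rw [map_one, map_pow, pow_two]
    change pglMap K.subtype x₀ * pglMap K.subtype x₀ = 1
    rw [hx₀, show l⁻¹ * ps Ψ u * l * (l⁻¹ * ps Ψ u * l) = l⁻¹ * (ps Ψ u * ps Ψ u) * l by group,
      ps_sq s huU u1]
    simp)
  have x1 : x₀ ≠ 1 := by
    rintro rfl
    rw [map_one, eq_comm, mul_assoc, inv_mul_eq_one, eq_comm, mul_eq_right] at hx₀
    exact ps_ne_one s huU u1 hx₀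
  obtain ⟨k₀, δ, hδ, e₀⟩ := exists_conj_invol x2 x1
  obtain ⟨g, hg⟩ := Matrix.ProjGenLinGroup.mk_surjective (l * pglMap K.subtype k₀)
  have eu : (Matrix.ProjGenLinGroup.mk g)⁻¹ * ps Ψ u * Matrix.ProjGenLinGroup.mk g =
      pglMap K.subtype (pm 0 (-δ) 1 0 (by simpa using hδ)) := by
    rw [← e₀, hg, map_mul, map_mul, hx₀, map_inv]; group
  obtain ⟨μ, μ0, eμ⟩ := tmq_key s g huU u1 (eu.trans (map_pm ..))
  simp only [map_zero, map_one, map_neg, Subfield.coe_subtype] at eμ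
  let Φ : V →ₗ[F] Matrix (Fin 2) (Fin 2) F :=
    μ⁻¹ • ((LinearMap.mulRight F g.1).comp ((LinearMap.mulLeft F (g⁻¹ : GL (Fin 2) F).1).comp Ψ))
  have hΦ : ∀ v, Φ v = μ⁻¹ • ((g⁻¹ : GL (Fin 2) F).1 * Ψ v * g.1) := fun v => rfl
  have Φu : Φ u = !![0, -(δ : F); 1, 0] := by rw [hΦ, eμ, smul_smul, inv_mul_cancel₀ μ0, one_smul]
  have anti : ∀ v ∈ U, ∀ w, Φ v * Φ w + Φ w * Φ v = (μ⁻¹ * μ⁻¹ * k * polar Q v w) • 1 := by
    intro v hv w
    have : Φ v * Φ w + Φ w * Φ v =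
        (μ⁻¹ * μ⁻¹) • ((g⁻¹ : GL (Fin 2) F).1 * (Ψ v * Ψ w + Ψ w * Ψ v) * g.1) := by
      simp [hΦ, smul_smul, mul_add, add_mul, mul_assoc]
    rw [this, s.anti v hv]
    simp [smul_smul, mul_assoc]
  have hk : μ⁻¹ * μ⁻¹ * k = -(δ : F) := by
    have := congrFun (congrFun (anti u huU u) 0) 0
    rw [Φu, polar_self', u1] at this
    simp only [Matrix.add_apply, Matrix.mul_apply, Fin.sum_univ_two, Matrix.smul_apply,
      Matrix.one_apply_eq, smul_eq_mul] at this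
    simp at this
    exact mul_left_cancel₀ h.two (by linear_combination -this)
  rw [hk] at anti
  have δ0 : (δ : F) ≠ 0 := by simpa using hδ
  refine ⟨δ, δ.2, δ0, Φ, fun v hv h0 => spin_inj s hU hv ?_, fun v hv w _ => anti v hv w, Φu,
    fun x hx y hy z hz e => ?_⟩
  · have := congrArg (fun M => μ • (g.1 * M * (g⁻¹ : GL (Fin 2) F).1)) h0
    simpa [hΦ, smul_smul, μ0, mul_assoc] using this
  · have e' : (⟨x, hx⟩ : K) * -⟨x, hx⟩ - ⟨y, hy⟩ * ⟨z, hz⟩ = δ := Subtype.ext e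
    have h2 : (2 : K) ≠ 0 := fun h0 => h.two (by
      have := congrArg K.subtype h0; rwa [map_ofNat, map_zero] at this)
    obtain ⟨t, ht, et⟩ := tm_conj h2 (δ := δ) (by simpa using hδ) (e' ▸ hδ) e'
    have m1 : Matrix.ProjGenLinGroup.mk g * pglMap K.subtype t * (Matrix.ProjGenLinGroup.mk g)⁻¹ ∈
        GU Ψ R U := e1 (mem_pslSub.2 ⟨k₀ * t * k₀⁻¹, psl_normal.conj_mem t ht k₀, by
      rw [hg, map_mul, map_mul, map_inv]; group⟩)
    obtain ⟨v, hv, hvU, ev⟩ := h.gu_conj s m1 hu huU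
    have ev' : (Matrix.ProjGenLinGroup.mk g)⁻¹ * ps Ψ v * Matrix.ProjGenLinGroup.mk g =
        pglMap K.subtype (pm ⟨x, hx⟩ ⟨y, hy⟩ ⟨z, hz⟩ (-⟨x, hx⟩) (e' ▸ hδ)) := by
      rw [← et, map_mul, map_mul, map_inv, ← eu, ← ev]; group
    obtain ⟨ν, ν0, eν⟩ := tmq_key s g hvU (h.one v hv) (ev'.trans (map_pm ..))
    simp only [map_neg, Subfield.coe_subtype] at eν
    have Φv : Φ v = (μ⁻¹ * ν) • !![x, y; z, -x] := by rw [hΦ, eν, smul_smul]
    have := congrFun (congrFun (anti v hvU v) 0) 0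
    rw [Φv, polar_self', h.one v hv] at this
    simp only [Matrix.add_apply, Matrix.mul_apply, Fin.sum_univ_two, Matrix.smul_apply,
      Matrix.one_apply_eq, smul_eq_mul] at this
    simp at this
    have h3 : (μ⁻¹ * ν - 1) * (μ⁻¹ * ν + 1) = 0 := mul_left_cancel₀ (mul_ne_zero h.two δ0) (by
      linear_combination -this - 2 * (μ⁻¹ * ν) ^ 2 * e)
    rcases mul_eq_zero.1 h3 with h4 | h4
    · exact ⟨v, hv, hvU, by rw [Φv, sub_eq_zero.1 h4, one_smul]⟩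
    · exact ⟨-v, h.neg v hv, U.neg_mem hvU, by
        rw [map_neg, Φv, eq_neg_of_add_eq_zero_left h4, neg_one_smul, neg_neg]⟩

end CfsgLib.O7
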