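import Cfsg.Agent.Lib.O7.TmD

/-!
TAME, part S: the projective model of a three-dimensional root subspace.  See `plans/O7T.md`.
-/

set_option autoImplicit false

namespace CfsgLib.O7

open CfsgLib.Forms CfsgLib.ClMax CfsgLib.RootMax CfsgLib.OrthE CfsgLib.OMax CfsgLib.Dickson
  Module QuadraticMap
open scoped MatrixGroups

variable {F V : Type*} [Field F] [Finite F] [AddCommGroup V] [Module F V] [FiniteDimensional F V]
  {Q : QuadraticForm F V} {H P : Subgroup (O Q)} {R : Set V}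
  {U : Submodule F V} {Ψ : V →ₗ[F] Matrix (Fin 2) (Fin 2) F} {k : F}

omit [Finite F] [FiniteDimensional F V] in
theorem tms_gram (h2 : (2 : F) ≠ 0) {a b c : V} (ha : Q a = 1) (hb : Q b = 1) (hc : Q c = 1)
    (h : Dg Q a b c ≠ 0) {r s t : F} (h1 : polar Q (r • a + s • b + t • c) a = 0)
    (h3 : polar Q (r • a + s • b + t • c) b = 0) (h4 : polar Q (r • a + s • b + t • c) c = 0) :
    r = 0 ∧ s = 0 ∧ t = 0 := by
  simp only [polar_add_left, polar_smul_left, polar_self', ha, hb, hc, smul_eq_mul, polar_comm Q b a,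
    polar_comm Q a c, polar_comm Q b c] at h1 h3 h4
  have k := mul_ne_zero h2 h
  unfold Dg at k
  generalize polar Q a b = p at *
  generalize polar Q c a = q at *
  generalize polar Q c b = w at *
  exact ⟨(mul_eq_zero.1 (by linear_combination (4 - w ^ 2) * h1 + (q * w - 2 * p) * h3 + (p * w - 2 * q) * h4)).resolve_left k,
    (mul_eq_zero.1 (by linear_combination (q * w - 2 * p) * h1 + (4 - q ^ 2) * h3 + (p * q - 2 * w) * h4)).resolve_left k,
    (mul_eq_zero.1 (by linear_combination (p * w - 2 * q) * h1 + (p * q - 2 * w) * h3 + (4 - p ^ 2) * h4)).resolve_left k⟩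

theorem dg_nd (h2 : (2 : F) ≠ 0) {a b c : V} (ha : Q a = 1) (hb : Q b = 1) (hc : Q c = 1)
    (h : Dg Q a b c ≠ 0) : ND Q (Submodule.span F {a, b, c}) := by
  refine nd_iff.2 fun x hx k => ?_
  obtain ⟨r, s, t, rfl⟩ := Submodule.mem_span_triple.1 hx
  obtain ⟨rfl, rfl, rfl⟩ := tms_gram h2 ha hb hc h (k a (Submodule.subset_span (by simp)))
    (k b (Submodule.subset_span (by simp))) (k c (Submodule.subset_span (by simp)))
  simp

theorem dg_dim (h2 : (2 : F) ≠ 0) {a b c : V} (ha : Q a = 1) (hb : Q b = 1) (hc : Q c = 1)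
    (h : Dg Q a b c ≠ 0) : finrank F (Submodule.span F {a, b, c}) = 3 := by
  have li : LinearIndependent F ![a, b, c] := Fintype.linearIndependent_iff.2 fun g e => by
    rw [Fin.sum_univ_three] at e
    replace e : g 0 • a + g 1 • b + g 2 • c = 0 := e
    obtain ⟨h0, h1, h3⟩ := tms_gram h2 ha hb hc h (r := g 0) (s := g 1) (t := g 2) (by rw [e, polar_zero_left])
      (by rw [e, polar_zero_left]) (by rw [e, polar_zero_left])
    intro i
    fin_cases i
    exacts [h0, h1, h3]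
  have := finrank_span_eq_card li
  rwa [show Set.range ![a, b, c] = {a, b, c} by ext x; simp [or_comm, or_left_comm, eq_comm], Fintype.card_fin] at this

theorem tm_spin (h2 : (2 : F) ≠ 0) (hQ : Nondeg Q) (hU : ND Q U) (h3 : finrank F U = 3) :
    ∃ Ψ k, Spin Q U Ψ k := by
  obtain ⟨a, a1, a2, -⟩ := exists_nonsing_orth hQ hU h3.ge 0
  obtain ⟨b, b1, b2, b3⟩ := exists_nonsing_orth hQ hU h3.ge a
  have k1 := finrank_inf_one hQ U a
  have k2 := finrank_inf_one hQ (U ⊓ perp Q (Submodule.span F {a})) b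
  obtain ⟨c, ⟨⟨c1, c2⟩, c3⟩, c4⟩ := exists_nonsing_mem hQ (nd_inf_perp_one (nd_inf_perp_one hU a1 (polar_self_ne h2 a2))
    (a := b) ⟨b1, mem_perp_one.2 b3⟩ (polar_self_ne h2 b2)) le_rfl (by omega)
  have e : Submodule.span F {a, b, c} = U := Submodule.eq_of_le_of_finrank_eq
    (Submodule.span_le.2 (Set.insert_subset a1 (Set.pair_subset b1 c1)))
    ((finrank_triple a2 b2 c4 b3 (mem_perp_one.1 c2) (mem_perp_one.1 c3) h2).trans h3.symm)
  obtain ⟨Ψ, k, s, -⟩ := exists_spin a2 b2 c4 b3 (mem_perp_one.1 c2) (mem_perp_one.1 c3) h2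
  exact ⟨Ψ, k, e ▸ s⟩

theorem spin_inj (s : Spin Q U Ψ k) (hU : ND Q U) {v : V} (hv : v ∈ U) (h0 : Ψ v = 0) : v = 0 := by
  refine nd_iff.1 hU v hv fun y hy => pc ?_
  have := congrFun (congrFun (s.anti y hy v) 0) 0
  simpa [h0, s.hk] using this.symm

end CfsgLib.O7
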