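import Cfsg.Agent.Lib.O7.TmS
import Cfsg.Agent.Lib.O7.TmK

/-!
TAME, part T: the types `S₄` and `A₅`.  See `plans/O7T.md`.
-/

set_option autoImplicit false

namespace CfsgLib.O7

open CfsgLib.Forms CfsgLib.ClMax CfsgLib.RootMax CfsgLib.OrthE CfsgLib.OMax CfsgLib.Dickson
  Module QuadraticMap
open scoped MatrixGroups

variable {F V : Type*} [Field F] [Finite F] [AddCommGroup V] [Module F V] [FiniteDimensional F V]
  {Q : QuadraticForm F V} {H P : Subgroup (O Q)} {R : Set V}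
  {U : Submodule F V} {Ψ : V →ₗ[F] Matrix (Fin 2) (Fin 2) F} {k : F}

omit [Finite F] [FiniteDimensional F V] in
theorem tmt_df {W : Submodule F V} {w y : V} (hw : w ∉ W) (hy : y ∈ W) : Df w y :=
  ⟨fun e => hw (e ▸ hy), fun e => hw (by simpa [e] using W.neg_mem hy)⟩

omit [Finite F] [FiniteDimensional F V] in
theorem tmt_mem {W : Submodule F V} {x y : V} (hx : x ∈ W) (hy : y ∈ W) : (refl Q x).1 y ∈ W := by
  rw [refl_ap]; exact W.sub_mem hy (W.smul_mem _ hx)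

theorem RS.tmt_comm (h : RS Q H P R) (s : Spin Q U Ψ k) (hU : ND Q U) {W : Submodule F V} {w y : V}
    (hw : w ∈ R) (hwU : w ∈ U) (hy : y ∈ R) (hyU : y ∈ U) (h1 : w ∉ W) (h2 : y ∈ W)
    (e : ps Ψ w * ps Ψ y = ps Ψ y * ps Ψ w) : polar Q w y = 0 :=
  ps_comm s hU hwU hyU (h.one w hw) (h.one y hy) (tmt_df h1 h2) e

theorem RS.ts_of (h : RS Q H P R) (s : Spin Q U Ψ k) (hU : ND Q U)
    (e : Nonempty (GU Ψ R U ≃* Equiv.Perm (Fin 4))) : TS4 Q R U := by
  refine ⟨fun u hu uU v hv vU hd => ?_, fun _ u hu uU v hv vU w hw wU e2 h1 => ?_⟩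
  · have h6 := ps_ne s hU uU vU (h.one u hu) (h.one v hv) hd
    have h7 := ps_tau s uU vU (h.one u hu) (h.one v hv)
    rcases pow_cases_of_equiv e s4_pow ((GU Ψ R U).mul_mem (ps_mem Ψ hu uU) (ps_mem Ψ hv vU))
      with h8 | h8 | h8 <;> rw [orderOf_dvd_iff_pow_eq_one] at h8
    · exact Or.inl (pow_eq_zero_iff two_ne_zero |>.1
        (h7 ▸ (pow_two_eq_one_iff.1 h8).resolve_right h6))
    · exact Or.inr (Or.inl (h7 ▸ (pow_three_eq_one_iff.1 h8).resolve_right h6))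
    · rcases (pow_four_eq_one_iff.1 h8).resolve_right h6 with h9 | h9
      · exact Or.inl (pow_eq_zero_iff two_ne_zero |>.1 (h7 ▸ h9))
      · exact Or.inr (Or.inr (h7 ▸ h9))
  · obtain ⟨f⟩ := e
    have h7 := (ps_tau s uU vU (h.one u hu) (h.one v hv)).trans e2
    have h8 : (ps Ψ u * ps Ψ v) ^ 2 ≠ 1 := fun h0 => by
      rcases pow_two_eq_one_iff.1 h0 with h9 | h9
      · exact h.two (h7.symm.trans h9)
      · rw [h9, tau_one] at h7; exact h.two (by linear_combination h7)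
    have h9 : (ps Ψ u * ps Ψ v) ^ 4 = 1 := pow_four_eq_one_iff.2 (Or.inl (Or.inr h7))
    have mu : u ∈ Submodule.span F ({u, v} : Set V) := Submodule.subset_span (by simp)
    have mv : v ∈ Submodule.span F ({u, v} : Set V) := Submodule.subset_span (by simp)
    have := tm_s4 (f ⟨_, ps_mem Ψ hu uU⟩) (f ⟨_, ps_mem Ψ hv vU⟩) (f ⟨_, ps_mem Ψ hw wU⟩)
    simp only [← map_mul, ← map_pow, ne_eq, EmbeddingLike.map_eq_one_iff, EmbeddingLike.apply_eq_iff_eq,
      Subtype.ext_iff, Subgroup.coe_mul, Subgroup.coe_one, SubmonoidClass.coe_pow] at this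
    have := this (ps_sq s uU (h.one u hu)) (ps_sq s vU (h.one v hv)) (ps_sq s wU (h.one w hw)) h8 h9
    rw [ps_conj s uU vU (h.one u hu) (h.one v hv), ps_conj s vU uU (h.one v hv) (h.one u hu)] at this
    exact this.imp (h.tmt_comm s hU hw wU hu uU h1 mu) (Or.imp (h.tmt_comm s hU hw wU hv vU h1 mv)
      (Or.imp (h.tmt_comm s hU hw wU (h.ref u hu v hv) (tmt_mem uU vU) h1 (tmt_mem mu mv))
        (h.tmt_comm s hU hw wU (h.ref v hv u hu) (tmt_mem vU uU) h1 (tmt_mem mv mu))))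

theorem RS.ta_of (h : RS Q H P R) (s : Spin Q U Ψ k) (hU : ND Q U) (h5 : (5 : F) ≠ 0)
    (e : Nonempty (GU Ψ R U ≃* alternatingGroup (Fin 5))) : TA5 Q R U := by
  refine ⟨h5, fun u hu uU v hv vU hd => ?_, fun u hu uU v hv vU w hw wU hd e2 h1 => ?_⟩
  · have h6 := ps_ne s hU uU vU (h.one u hu) (h.one v hv) hd
    have h7 := ps_tau s uU vU (h.one u hu) (h.one v hv)
    rcases pow_cases_of_equiv e a5_pow ((GU Ψ R U).mul_mem (ps_mem Ψ hu uU) (ps_mem Ψ hv vU))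
      with h8 | h8 | h8 <;> rw [orderOf_dvd_iff_pow_eq_one] at h8
    · exact Or.inl (pow_eq_zero_iff two_ne_zero |>.1
        (h7 ▸ (pow_two_eq_one_iff.1 h8).resolve_right h6))
    · exact Or.inr (Or.inl (h7 ▸ (pow_three_eq_one_iff.1 h8).resolve_right h6))
    · exact Or.inr (Or.inr (h7 ▸ (pow_five_eq_one_iff.1 h8).resolve_right h6))
  · obtain ⟨f⟩ := e
    have h7 := ps_tau s uU vU (h.one u hu) (h.one v hv)
    have h8 := ps_ne s hU uU vU (h.one u hu) (h.one v hv) hd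
    have h9 : (ps Ψ u * ps Ψ v) ^ 5 = 1 := pow_five_eq_one_iff.2 (Or.inl (h7 ▸ e2))
    have mu : u ∈ Submodule.span F ({u, v} : Set V) := Submodule.subset_span (by simp)
    have mv : v ∈ Submodule.span F ({u, v} : Set V) := Submodule.subset_span (by simp)
    have := tm_a5 (f ⟨_, ps_mem Ψ hu uU⟩) (f ⟨_, ps_mem Ψ hv vU⟩) (f ⟨_, ps_mem Ψ hw wU⟩)
    simp only [← map_mul, ← map_pow, ne_eq, EmbeddingLike.map_eq_one_iff, EmbeddingLike.apply_eq_iff_eq,
      Subtype.ext_iff, Subgroup.coe_mul, Subgroup.coe_one, SubmonoidClass.coe_pow] at this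
    have := this (ps_sq s uU (h.one u hu)) (ps_sq s vU (h.one v hv)) (ps_sq s wU (h.one w hw)) h8 h9
    rw [ps_conj s uU vU (h.one u hu) (h.one v hv), ps_conj s vU uU (h.one v hv) (h.one u hu),
      ps_conj s uU (tmt_mem vU uU) (h.one u hu) (h.one _ (h.ref v hv u hu))] at this
    exact this.imp (h.tmt_comm s hU hw wU hu uU h1 mu) (Or.imp (h.tmt_comm s hU hw wU hv vU h1 mv)
      (Or.imp (h.tmt_comm s hU hw wU (h.ref u hu v hv) (tmt_mem uU vU) h1 (tmt_mem mu mv))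
        (Or.imp (h.tmt_comm s hU hw wU (h.ref v hv u hu) (tmt_mem vU uU) h1 (tmt_mem mv mu))
          (h.tmt_comm s hU hw wU (h.ref u hu _ (h.ref v hv u hu)) (tmt_mem uU (tmt_mem vU uU)) h1
            (tmt_mem mu (tmt_mem mv mu))))))

end CfsgLib.O7
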