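import Cfsg.Agent.Lib.O7.Fx

/-!
TRI: an `SL₂` with centre in a four-group fixes a spinor.  See `plans/O7B.md`.
-/

set_option autoImplicit false

namespace CfsgLib.O7

open CfsgLib.OrthE CfsgLib.OMax Module QuadraticMap Subgroup Cfsg
open scoped MatrixGroups

variable {K G : Type*} [Field K] [IsAlgClosed K] [Group G] [Finite G] {ρ : G →* G7 K}
  {E : Type} [Field E] [Fintype E]

/-- the data of an `SL₂` with centre `z₁` and a torus element `g` -/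
structure TD (z₁ z₂ σ : G) (φ : SL(2, E) →* G) (g : SL(2, E)) : Prop where
  a4 : A4 z₁ z₂ σ
  cen : φ (-1) = z₁
  nrm : ∀ x, ∃ x', z₂ * φ x * z₂⁻¹ = φ x'
  ord : orderOf g = Fintype.card E - 1 ∨ orderOf g = Fintype.card E + 1
  comm : z₂ * φ g = φ g * z₂
  comm' : φ g * (σ * φ g * σ⁻¹) = σ * φ g * σ⁻¹ * φ g
  prod : φ g * (σ * φ g * σ⁻¹) * (σ⁻¹ * φ g * σ) = 1
  small : g ^ 6 = 1 → ∀ x, Commute (φ g ^ 2 * (σ * φ g ^ 2 * σ⁻¹)⁻¹) (φ x)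

section aux

theorem tri_ind {E : Type} [Field E] (p : ℕ) [CharP E p] (P : SL(2, E) → Prop) (h1 : ∀ x, x ^ p = 1 → P x)
    (hm : ∀ x y, P x → P y → P (x * y)) (x : SL(2, E)) : P x := by
  refine Matrix.SL2.transvection_induction P (fun i j hij c => h1 _ ?_) hm x
  have : ∀ n : ℕ, Matrix.SpecialLinearGroup.transvection hij c ^ n =
      Matrix.SpecialLinearGroup.transvection hij ((n : E) * c) := fun n => by
    induction n with
    | zero => rw [pow_zero, Nat.cast_zero, zero_mul, Matrix.SpecialLinearGroup.transvection_coeff_zero]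
    | succ n ih =>
      rw [pow_succ, ih, ← Matrix.SpecialLinearGroup.transvection_add, Nat.cast_succ, add_mul, one_mul]
  rw [this, CharP.cast_eq_zero, zero_mul, Matrix.SpecialLinearGroup.transvection_coeff_zero]

theorem tri_odd {K : Type*} [Field K] (p : ℕ) [Fact p.Prime] [CharP K p] (h2 : (2 : K) ≠ 0) : Odd p :=
  (Fact.out : p.Prime).odd_of_ne_two fun e => h2 (by
    have := CharP.cast_eq_zero K p
    rw [e] at this
    exact_mod_cast this)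

theorem tri_oddE {E : Type} [Field E] [Fintype E] (p : ℕ) [CharP E p] (hp : Odd p) :
    Odd (Fintype.card E) := by
  obtain ⟨n, -, e⟩ := FiniteField.card E p
  rw [e]
  exact hp.pow

variable {K : Type*} [Field K] {V : Type*} [AddCommGroup V] [Module K V] [FiniteDimensional K V]
  {Q : QuadraticForm K V}

theorem tri_fix {E : Type} [Field E] (p : ℕ) [CharP E p] (hp : Odd p) (h2 : (2 : K) ≠ 0)
    (τ : SL(2, E) →* O Q) {W U : Submodule K V} (hW : ND Q W) (h4 : finrank K W = 4)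
    (hi : ∀ g, ∀ w ∈ W, (τ g).1 w ∈ W) (hU : U ≤ W) (d2 : finrank K U = 2) {x : SL(2, E)}
    (hx : ∀ u ∈ U, (τ x).1 u = u) {y : V} (hy : y ∈ W) (hy' : y ∉ U) (hf : (τ x).1 y = y) :
    ∀ w ∈ W, (τ x).1 w = w := by
  have det : ∀ g, LinearMap.det (en (eigRes W (τ g) (hi g))) = 1 := tri_ind p _
    (fun g hg => by
      rw [eig_det (eig_nondeg hW)]
      exact (eig_even_odd h2 (eig_nondeg hW) hp (O_ext fun w => Subtype.ext (by
        rw [eigRes_pow, ← map_pow, hg, map_one]; rfl))).neg_one_pow)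
    fun a b ha hb => by
      have : eigRes W (τ (a * b)) (hi _) = eigRes W (τ a) (hi a) * eigRes W (τ b) (hi b) :=
        O_ext fun w => Subtype.ext (by rw [eigRes_apply, map_mul]; rfl)
      rw [this, en_mul, map_mul, ha, hb, one_mul]
  obtain ⟨a, ha⟩ := even_rk h2 (eig_nondeg hW) (det x)
  have h1 := rk_add_fx (eigRes W (τ x) (hi x))
  have h3 : finrank K (U.comap W.subtype) < fx (eigRes W (τ x) (hi x)) :=
    Submodule.finrank_lt_finrank_of_lt (lt_of_le_of_ne (fun u hu => eig_mem.2 (Subtype.ext (hx _ hu)))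
      fun e => hy' (e.ge (x := ⟨y, hy⟩) (eig_mem.2 (Subtype.ext hf))))
  rw [(Submodule.comapSubtypeEquivOfLe hU).finrank_eq, d2] at h3
  have h5 : eigRes W (τ x) (hi x) = 1 := rk_eq_zero (by omega)
  intro w hw
  rw [← eigRes_apply W _ (hi x) ⟨w, hw⟩, h5]
  rfl

theorem tri_perp (h2 : (2 : K) ≠ 0) (hQ : Nondeg Q) {a b T : O Q} (ha : a * a = 1) (hb : b * b = 1)
    (hc : a * b = b * a) (k1 : ∀ v ∈ J2 a b 1 (-1), T.1 v = v) (k2 : ∀ v ∈ J2 a b (-1) 1, T.1 v = v)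
    (k3 : ∀ v ∈ J2 a b (-1) (-1), T.1 v = v) : ∀ v ∈ perp Q (J2 a b 1 1), T.1 v = v := by
  intro v hv
  have m : ∀ ε δ : K, (ε = 1 ∨ ε = -1) → (δ = 1 ∨ δ = -1) →
      v + ε • a.1 v + δ • b.1 v + (ε * δ) • a.1 (b.1 v) ∈ J2 a b ε δ := by
    intro ε δ he hd
    rw [mem_J2]
    simp only [map_add, map_smul, a4l_sq ha, a4l_sq hb, ← a4l_cm hc]
    rcases he with rfl | rfl <;> rcases hd with rfl | rfl <;> constructor <;> module
  have z : v + (1 : K) • a.1 v + (1 : K) • b.1 v + ((1 : K) * 1) • a.1 (b.1 v) = 0 :=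
    nd_iff.1 (nd_J2 h2 hQ ha hb hc (.inl rfl) (.inl rfl)) _ (m 1 1 (.inl rfl) (.inl rfl)) fun w hw => by
      obtain ⟨e1, e2⟩ := mem_J2.1 hw
      rw [one_smul] at e1 e2
      have pa : ∀ x, polar Q (a.1 x) w = polar Q x w := fun x => by rw [← O_polar a x w, e1]
      have pb : ∀ x, polar Q (b.1 x) w = polar Q x w := fun x => by rw [← O_polar b x w, e2]
      simp only [polar_add_left, polar_smul_left, pa, pb, mem_perp'.1 hv w hw, smul_zero, add_zero]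
  have e1 := k1 _ (m 1 (-1) (.inl rfl) (.inr rfl))
  have e2 := k2 _ (m (-1) 1 (.inr rfl) (.inl rfl))
  have e3 := k3 _ (m (-1) (-1) (.inr rfl) (.inr rfl))
  have e0 := congrArg T.1 z
  simp only [map_add, map_smul, map_zero] at e0 e1 e2 e3
  refine a4l_two h2 (a4l_two h2 ?_)
  linear_combination (norm := module) e0 + e1 + e2 + e3 - z

omit [FiniteDimensional K V] in
theorem tri_pres {G : Type*} [Group G] (ψ : G →* O Q) {c z : G} (h : c * z = z * c) {ε : K} {v : V}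
    (hv : (ψ z).1 v = ε • v) : (ψ z).1 ((ψ c).1 v) = ε • (ψ c).1 v := by
  rw [← O_mul_apply, ← map_mul, ← h, map_mul, O_mul_apply, hv, map_smul]

end aux

theorem TD.cz {z₁ z₂ σ : G} {φ : SL(2, E) →* G} {g : SL(2, E)} (t : TD z₁ z₂ σ φ g) (x : SL(2, E)) :
    φ x * z₁ = z₁ * φ x := by
  rw [← t.cen, ← map_mul, ← map_mul, mul_neg, neg_mul, mul_one, one_mul]

theorem Hy.tri_W (h : Hy ρ) {ψ : G →* G8 K} (hψ : Spl ρ ψ) {z₁ z₂ σ : G} {φ : SL(2, E) →* G}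
    {g : SL(2, E)} (t : TD z₁ z₂ σ φ g) :
    ND (N8 K) (Module.End.eigenspace (en (ψ z₁)) 1) ∧
      finrank K (Module.End.eigenspace (en (ψ z₁)) 1) = 4 ∧
      (∀ c, c * z₁ = z₁ * c → ∀ w ∈ Module.End.eigenspace (en (ψ z₁)) 1,
        (ψ c).1 w ∈ Module.End.eigenspace (en (ψ z₁)) 1) ∧
      ∀ w ∈ Module.End.eigenspace (en (ψ z₁)) 1, (ψ.comp φ (-1)).1 w = w := by
  have ha : ψ z₁ * ψ z₁ = 1 := by rw [← map_mul, t.a4.sq, map_one]
  have hb : ψ z₂ * ψ z₂ = 1 := by rw [← map_mul, t.a4.sq2, map_one]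
  have hi : ∀ c, c * z₁ = z₁ * c → ∀ w ∈ Module.End.eigenspace (en (ψ z₁)) 1,
      (ψ c).1 w ∈ Module.End.eigenspace (en (ψ z₁)) 1 := fun c hc w hw =>
    a4l_eig.2 (tri_pres ψ hc (a4l_eig.1 hw))
  obtain ⟨-, d0, -, d1, -⟩ := h.a4O hψ t.a4
  refine ⟨?_, ?_, hi, fun w hw => ?_⟩
  · have := nd_J2 h.two nondeg_N8 ha ha rfl (ε := 1) (δ := 1) (.inl rfl) (.inl rfl)
    rwa [J2, inf_idem] at this
  · rw [a4l_split h.two hb (hi z₂ t.a4.comm.symm)]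
    exact congrArg₂ (· + ·) d0 d1
  · rw [MonoidHom.comp_apply, t.cen, a4l_eig.1 hw, one_smul]

theorem Hy.tri (p : ℕ) [Fact p.Prime] [CharP K p] [CharP E p] (h : Hy ρ) {ψ : G →* G8 K}
    (hψ : Spl ρ ψ) (h5 : 5 ≤ Fintype.card E) {z₁ z₂ σ : G} {φ : SL(2, E) →* G} {g : SL(2, E)}
    (t : TD z₁ z₂ σ φ g) :
    ∃ y ∈ J2 (ψ z₁) (ψ z₂) 1 1, y ≠ 0 ∧ ∀ x, (ψ (φ x)).1 y = y := by
  have hp := tri_odd p h.two
  obtain ⟨hW, h4, hi, hm⟩ := h.tri_W hψ t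
  obtain ⟨-, d0, s0, d1, -⟩ := h.a4O hψ t.a4
  obtain ⟨a4, cen, nrm, ord, comm, comm', prod, small⟩ := id t
  have ha : ψ z₁ * ψ z₁ = 1 := by rw [← map_mul, a4.sq, map_one]
  have hb : ψ z₂ * ψ z₂ = 1 := by rw [← map_mul, a4.sq2, map_one]
  have hab : ψ z₁ * ψ z₂ = ψ z₂ * ψ z₁ := by rw [← map_mul, a4.comm, map_mul]
  have c1 : ψ σ * ψ z₁ * (ψ σ)⁻¹ = ψ z₂ := by rw [← map_inv, ← map_mul, ← map_mul, a4.c₁]
  have c2 : ψ σ * ψ z₂ * (ψ σ)⁻¹ = ψ z₁ * ψ z₂ := by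
    rw [← map_inv, ← map_mul, ← map_mul, a4.c₂, map_mul]
  have hi' : ∀ x, ∀ w ∈ Module.End.eigenspace (en (ψ z₁)) 1,
      (ψ.comp φ x).1 w ∈ Module.End.eigenspace (en (ψ z₁)) 1 := fun x => hi _ (t.cz x)
  have pres : ∀ {ε δ : K}, ∀ v ∈ J2 (ψ z₁) (ψ z₂) ε δ, (ψ (φ g)).1 v ∈ J2 (ψ z₁) (ψ z₂) ε δ :=
    fun v hv => mem_J2.2 ⟨tri_pres ψ (t.cz g) (mem_J2.1 hv).1, tri_pres ψ comm.symm (mem_J2.1 hv).2⟩
  -- the cube is trivial on `O₀`
  have cube : ∀ v ∈ J2 (ψ z₁) (ψ z₂) 1 1, (ψ.comp φ (g ^ 3)).1 v = v := fun v hv => by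
    have s1 : ∀ u ∈ J2 (ψ z₁) (ψ z₂) 1 1, ((ψ σ)⁻¹).1 u = u := fun u hu => O_inv_apply_eq _ (s0 u hu)
    have e := congrArg (fun x => (ψ x).1 v) prod
    simp only [map_mul, map_inv, O_mul_apply, map_one, O_one_apply] at e
    rw [s0 v hv, s1 _ (pres v hv), s1 _ (pres v hv), s0 _ (pres _ (pres v hv))] at e
    rw [map_pow, pow_three, O_mul_apply, O_mul_apply]
    exact e
  obtain ⟨y₀, hy₀, y₀0⟩ := (Submodule.ne_bot_iff (J2 (ψ z₁) (ψ z₂) 1 1)).1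
    (Submodule.one_le_finrank_iff.1 (by omega))
  by_cases hn : ∃ x, ∃ w ∈ Module.End.eigenspace (en (ψ z₁)) 1, (ψ.comp φ x).1 w ≠ w
  swap
  · push Not at hn
    exact ⟨y₀, hy₀, y₀0, fun x => hn x y₀ hy₀.1⟩
  obtain ⟨y, hy, y0, fy⟩ := (fx4 p h.two h5 (ψ.comp φ) hW h4 hi' hm).resolve_right fun k =>
    y₀0 (k.cube p h.two ord hy₀.1 (cube y₀ hy₀))
  obtain ⟨m1, m2, m3⟩ := com4 h.two (tri_oddE p hp) h5 (ψ.comp φ) hW h4 hi' hm hn
  obtain ⟨c, hc⟩ := (m2 y hy y0 fy).2 _ (hi z₂ a4.comm.symm y hy) fun x => by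
    obtain ⟨x', e⟩ := nrm x
    have e1 : φ x * z₂ = z₂ * φ x' := by
      rw [← e, inv_eq_of_mul_eq_one_right a4.sq2, ← mul_assoc, ← mul_assoc, a4.sq2, one_mul]
    rw [MonoidHom.comp_apply, ← O_mul_apply, ← map_mul, e1, map_mul, O_mul_apply]
    exact congrArg _ (fy x')
  have cc : c * c = 1 := by
    have e := a4l_sq hb y
    rw [hc, map_smul, hc, smul_smul] at e
    exact smul_left_injective K y0 (e.trans (one_smul K y).symm)
  rcases mul_self_eq_one_iff.1 cc with rfl | rfl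
  · exact ⟨y, ⟨hy, a4l_eig.2 hc⟩, y0, fy⟩
  exfalso
  have y1 : y ∈ J2 (ψ z₁) (ψ z₂) 1 (-1) := ⟨hy, a4l_eig.2 hc⟩
  have w3 := tri_fix p hp h.two (ψ.comp φ) hW h4 hi' (U := J2 (ψ z₁) (ψ z₂) 1 1) inf_le_left d0 cube hy
    (fun k => y0 (a4l_two h.two (by
      linear_combination (norm := module) hc - (mem_J2.1 k).2))) (fy _)
  have g6 : g ^ 6 = 1 := by
    rcases m1 _ w3 with e | e <;> rw [show 6 = 3 * 2 from rfl, pow_mul, e]
    · exact one_pow 2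
    · exact neg_one_sq
  have o1 : ∀ v ∈ J2 (ψ z₁) (ψ z₂) 1 (-1), (ψ (φ g)).1 v = v :=
    plane_triv h.two (nd_J2 h.two nondeg_N8 ha hb hab (.inl rfl) (.inr rfl)) d1 pres (n := 3) (by decide)
      (fun w hw => by rw [← map_pow, ← map_pow]; exact w3 w hw.1) y1 y0 (fy g)
  obtain ⟨u, hu⟩ : ∃ u, u = φ g ^ 2 := ⟨_, rfl⟩
  have u1 : ∀ v ∈ J2 (ψ z₁) (ψ z₂) 1 (-1), (ψ u).1 v = v := fun v hv => by
    rw [hu, map_pow, pow_two, O_mul_apply, o1 v hv, o1 v hv]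
  have u3 : u ^ 3 = 1 := by rw [hu, ← pow_mul, ← map_pow, g6, map_one]
  have cm : Commute (φ g) (σ * φ g * σ⁻¹) := comm'
  have uu : Commute u (σ * u * σ⁻¹) := by rw [hu, ← conj_pow]; exact cm.pow_pow 2 2
  have v3 : (σ * u * σ⁻¹) ^ 3 = 1 := by rw [conj_pow, u3, mul_one, mul_inv_cancel]
  have pr : u * (σ * u * σ⁻¹) * (σ⁻¹ * u * σ) = 1 := by
    have e : σ⁻¹ * u * σ = (σ⁻¹ * φ g * σ) ^ 2 := by rw [hu]; simp [pow_two, mul_assoc]
    rw [e, ← inv_eq_of_mul_eq_one_right prod, hu, ← conj_pow, ← cm.mul_pow, inv_pow, mul_inv_cancel]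
  obtain ⟨c, hc'⟩ : ∃ c, c = u * (σ * u * σ⁻¹)⁻¹ := ⟨_, rfl⟩
  have c3 : c ^ 3 = 1 := by rw [hc', uu.inv_right.mul_pow, inv_pow, u3, v3, inv_one, mul_one]
  have cφ : ∀ x, c * φ x = φ x * c := fun x => by rw [hc', hu]; exact (small g6 x).eq
  have s2 : σ * σ = σ⁻¹ := eq_inv_of_mul_eq_one_left (by rw [← a4.cube, pow_three, mul_assoc])
  have cσ : σ * c * σ⁻¹ = c := by
    have e1 : σ * c * σ⁻¹ = σ * u * σ⁻¹ * (σ * σ * u * (σ * σ)⁻¹)⁻¹ := by rw [hc']; group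
    rw [e1, s2, inv_inv, ← inv_eq_of_mul_eq_one_right pr, inv_inv, hc']
    generalize σ * u * σ⁻¹ = u' at uu v3 ⊢
    rw [← mul_assoc, ← uu.eq, mul_assoc, mul_right_inj]
    exact eq_inv_of_mul_eq_one_left (by rw [← v3, pow_three, mul_assoc])
  have cσ' : c * σ = σ * c := by rw [← cσ, inv_mul_cancel_right, cσ]
  have cW := m3 (ψ c) 3 (by decide) (by rw [← map_pow, c3, map_one]) (hi c (cen ▸ cφ (-1)))
    fun x => by rw [MonoidHom.comp_apply, ← map_mul, cφ, map_mul]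
  have app : ∀ (a b : G) v, (ψ (a * b)).1 v = (ψ a).1 ((ψ b).1 v) := fun a b v => by rw [map_mul]; rfl
  have m31 : ∀ v ∈ J2 (ψ z₁) (ψ z₂) (-1) (-1), (ψ σ).1 v ∈ J2 (ψ z₁) (ψ z₂) 1 (-1) := fun v hv =>
    a4l_map c1 c2 (by ring) (by ring) hv
  have one : ∀ v, (ψ 1).1 v = v := fun v => by rw [map_one]; rfl
  have k2 : ∀ v ∈ J2 (ψ z₁) (ψ z₂) (-1) 1, (ψ u).1 v = v := fun v hv => by
    have hv' : (ψ σ⁻¹).1 v ∈ J2 (ψ z₁) (ψ z₂) 1 (-1) := by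
      rw [← s2, app]
      exact m31 _ (a4l_map c1 c2 (by ring) (by ring) hv)
    have e : u = σ * (c * (u * σ⁻¹)) := by
      rw [← mul_assoc, ← cσ', hc']; group
    rw [e, app, app, app, u1 _ hv', cW _ hv'.1, ← app, mul_inv_cancel, one]
  have k3 : ∀ v ∈ J2 (ψ z₁) (ψ z₂) (-1) (-1), (ψ u).1 v = v := fun v hv => by
    have hv' := m31 v hv
    have e : σ * u = c⁻¹ * (u * σ) := by
      rw [hc', mul_inv_rev, inv_inv]; group
    refine (ψ σ).1.injective ?_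
    rw [← app, e, app, app, u1 _ hv', map_inv]
    exact O_inv_apply_eq _ (cW _ hv'.1)
  have d6 := finrank_perp nondeg_N8 (J2 (ψ z₁) (ψ z₂) 1 1)
  rw [finrank_Oc, d0] at d6
  have r1 := Lf.c4 h.two (hψ u) (nd_perp nondeg_N8 (nd_J2 h.two nondeg_N8 ha hb hab (.inl rfl) (.inl rfl)))
    (by omega) (tri_perp h.two nondeg_N8 ha hb hab u1 k2 k3)
  have r2 : φ (g ^ 2) = 1 := by rw [map_pow, ← hu]; exact h.inj (r1.trans (map_one ρ).symm)
  rcases m1 (g ^ 2) (fun w _ => by rw [MonoidHom.comp_apply, r2, one]) with e | e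
  · have := Nat.le_of_dvd two_pos (orderOf_dvd_of_pow_eq_one e)
    omega
  · exact a4.ne (by rw [← cen, ← e, r2])

theorem Hy.tri1 (p : ℕ) [Fact p.Prime] [CharP K p] [CharP E p] (h : Hy ρ) {ψ : G →* G8 K}
    (hψ : Spl ρ ψ) (h5 : 5 ≤ Fintype.card E) {z₁ z₂ σ : G} {φ : SL(2, E) →* G} {g : SL(2, E)}
    (t : TD z₁ z₂ σ φ g) (hg : φ.range ⊔ closure {z₂, σ} = ⊤) : FixL ρ := by
  obtain ⟨y, hy, y0, fy⟩ := h.tri p hψ h5 t
  refine fixL_of_gen h.two (S := (φ.range : Set G) ∪ {z₂, σ}) (by rw [Subgroup.closure_union, closure_eq, hg]) y0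
    fun a ha => ⟨ψ a, hψ a, 1, ?_⟩
  rcases ha with ⟨x, rfl⟩ | rfl | rfl
  · rw [fy, one_smul]
  · exact (mem_J2.1 hy).2
  · rw [(h.a4O hψ t.a4).2.2.1 y hy, one_smul]

theorem Hy.tri2 (p : ℕ) [Fact p.Prime] [CharP K p] [CharP E p] (h : Hy ρ) {ψ : G →* G8 K}
    (hψ : Spl ρ ψ) (h5 : 5 ≤ Fintype.card E) {z₁ z₂ σ : G} {φ φ' : SL(2, E) →* G}
    {g g' : SL(2, E)} (t : TD z₁ z₂ σ φ g) (t' : TD z₁ z₂ σ φ' g')
    (hc : ∀ x x', Commute (φ x) (φ' x')) (hg : φ.range ⊔ φ'.range ⊔ closure {z₂, σ} = ⊤) :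
    FixL ρ := by
  have hp := tri_odd p h.two
  obtain ⟨hW, h4, hi, hm⟩ := h.tri_W hψ t
  obtain ⟨y, hy, y0, fy, fy'⟩ : ∃ y ∈ J2 (ψ z₁) (ψ z₂) 1 1, y ≠ 0 ∧ (∀ x, (ψ (φ x)).1 y = y) ∧
      ∀ x, (ψ (φ' x)).1 y = y := by
    by_cases hn : ∃ x, ∃ w ∈ Module.End.eigenspace (en (ψ z₁)) 1, (ψ.comp φ x).1 w ≠ w
    · obtain ⟨y, hy, y0, fy⟩ := h.tri p hψ h5 t
      obtain ⟨-, -, m3⟩ := com4 h.two (tri_oddE p hp) h5 (ψ.comp φ) hW h4 (fun x => hi _ (t.cz x)) hm hn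
      refine ⟨y, hy, y0, fy, tri_ind p _ (fun x hx => ?_) fun a b ha hb => ?_⟩
      · exact m3 (ψ (φ' x)) p hp (by rw [← map_pow, ← map_pow, hx, map_one, map_one]) (hi _ (t'.cz x))
          (fun x' => by rw [MonoidHom.comp_apply, ← map_mul, ← (hc x' x).eq, map_mul]) y hy.1
      · rw [map_mul, map_mul, O_mul_apply, hb, ha]
    · push Not at hn
      obtain ⟨y, hy, y0, fy⟩ := h.tri p hψ h5 t'
      exact ⟨y, hy, y0, fun x => hn x y hy.1, fy⟩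
  refine fixL_of_gen h.two (S := (φ.range : Set G) ∪ φ'.range ∪ {z₂, σ})
    (by rw [Subgroup.closure_union, Subgroup.closure_union, closure_eq, closure_eq, hg]) y0 fun a ha => ⟨ψ a, hψ a, 1, ?_⟩
  rcases ha with (⟨x, rfl⟩ | ⟨x, rfl⟩) | rfl | rfl
  · rw [fy, one_smul]
  · rw [fy', one_smul]
  · exact (mem_J2.1 hy).2
  · rw [(h.a4O hψ t.a4).2.2.1 y hy, one_smul]

end CfsgLib.O7
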